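/-
General lemmas on solvable groups with coprime operators, used for the solvable signalizer functor theorem.
Owner: helper1.
-/
import Cfsg.Agent.BG.I03

set_option autoImplicit false

namespace CA.Sig

open Cfsg CA.FG CA.BG

universe u

variable {G : Type u} [Group G] [Finite G] {π : Set ℕ} {p q : ℕ}

theorem fit_quot_pi' (π : Set ℕ) (H : Subgroup G) :
    IsPiGrp πᶜ (fittingOf (H /ₛ piCoreOf π H)) := by
  have h1 := nilpotent_pcore_Hall π (fitting_nil (H /ₛ piCoreOf π H))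
  have h2 : piCoreOf π (fittingOf (H /ₛ piCoreOf π H)) = ⊥ := by
    have := (fitting_normal (H /ₛ piCoreOf π H)).pcore_le π
    rw [pcore_quot_pcore] at this
    exact le_bot_iff.1 this
  rw [h2] at h1
  exact h1.eq_bot_iff.1 rfl

/-- a `π`-subgroup centralizing `F(H / O_π(H))` lies in `O_π(H)`. -/
theorem le_pcore_of_cent_fit {H D : Subgroup G} (sol : Group.IsSolvable H) (hD : D ≤ H)
    (pD : IsPiGrp π D) (h : D /ₛ piCoreOf π H ≤ 𝒞(fittingOf (H /ₛ piCoreOf π H))) :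
    D ≤ piCoreOf π H := by
  have h1 : D /ₛ piCoreOf π H ≤ fittingOf (H /ₛ piCoreOf π H) :=
    (le_inf (quot_mono _ hD) h).trans (cent_sub_Fitting (sol_quot _ sol))
  have h2 := le_pcore_of_le_fitting h1 (pD.quot _)
  rw [pcore_quot_pcore] at h2
  exact (quot_eq_bot_iff (hD.trans (pcore_norm π H))).1 (le_bot_iff.1 h2)

theorem tcore {R T X : Subgroup G} (qR : IsPGrp q R) (qT : IsPGrp q T) (qX : IsPiGrp {q}ᶜ X)
    (nTR : R ≤ 𝒩(T)) (nRT : T ≤ 𝒩(R)) (nXT : T ≤ 𝒩(X)) (nRX : X ≤ 𝒩(R)) :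
    ⁅X, T⁆ ≤ 𝒞(R) := by
  have hY : ⁅X, T⁆ ≤ X := comm_le_left nXT
  have qY : IsPiGrp {q}ᶜ ⁅X, T⁆ := qX.of_le hY
  have nYT : T ≤ 𝒩(⁅X, T⁆) := le_sup_right.trans (comm_normalIn_sup X T).2
  have nRY : ⁅X, T⁆ ≤ 𝒩(R) := hY.trans nRX
  have h0T : ⁅R, T⁆ ≤ T := comm_le_right nTR
  have h0R : ⁅R, T⁆ ≤ R := comm_le_left nRT
  have c0 : ⁅X, T⁆ ≤ 𝒞(⁅R, T⁆) := by
    rw [← comm_eq_bot_iff', ← le_bot_iff, ← qR.inf_eq_bot qY]
    exact le_inf ((Subgroup.commutator_mono h0R le_rfl).trans (comm_le_left nRY))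
      (comm_le_right (h0T.trans nYT))
  have e : ⁅⁅X, T⁆, T⁆ = ⁅X, T⁆ := coprime_commGid nXT (qT.coprime qX).symm (Or.inr qT.sol)
  have h3 : ⁅⁅⁅X, T⁆, T⁆, R⁆ ≤ ⁅R, T⁆ := by
    refine three_subgroup_le (norm_of_cent c0) (le_sup_right.trans (comm_normalIn_sup R T).2)
      (le_sup_left.trans (comm_normalIn_sup R T).2) ?_ ?_
    · rw [Subgroup.commutator_comm T R, comm_eq_bot_iff'.2 c0]; exact bot_le
    · exact Subgroup.commutator_mono (comm_le_left nRY) le_rfl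
  rw [e, Subgroup.commutator_comm] at h3
  exact stable_factor_cent' c0 h3 ((qR.of_le h0R).coprime qY)

/-- T-lemma. -/
theorem tlemma {H S T X : Subgroup G} (sol : Group.IsSolvable H) (hS : IsSylowOf q S H) (hT : T ≤ S)
    (nTS : S ≤ 𝒩(T)) (hX : X ≤ H) (qX : IsPiGrp {q}ᶜ X) (nXT : T ≤ 𝒩(X)) :
    ⁅X, T⁆ ≤ pPrimeCoreOf q H := by
  have nO := pcore_norm {q}ᶜ H
  have hY : ⁅X, T⁆ ≤ X := comm_le_left nXT
  refine le_pcore_of_cent_fit sol (hY.trans hX) (qX.of_le hY) ?_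
  have qF : IsPGrp q (fittingOf (H /ₛ pPrimeCoreOf q H)) := by
    have := fit_quot_pi' {q}ᶜ H
    rwa [compl_compl] at this
  have nF := fitting_norm (H /ₛ pPrimeCoreOf q H)
  have hS' := hS.quot nO
  have hFS : fittingOf (H /ₛ pPrimeCoreOf q H) ≤ S /ₛ pPrimeCoreOf q H :=
    hS'.le_of_norm_le qF (fitting_le _) (hS'.le.trans nF)
  rw [quot_comm (hX.trans nO) ((hT.trans hS.le).trans nO)]
  exact tcore qF ((hS.pGrp.of_le hT).quot _) (qX.quot _) (hFS.trans (quot_norm _ nTS))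
    ((quot_mono _ (hT.trans hS.le)).trans nF) (quot_norm _ nXT) ((quot_mono _ hX).trans nF)

/-- a `q`-subgroup centralizing `O_q` and `O_{q'}` lies in `O_q`. -/
theorem zc {H Z : Subgroup G} (sol : Group.IsSolvable H) (hZ : Z ≤ H) (qZ : IsPGrp q Z)
    (c1 : Z ≤ 𝒞(pCoreOf q H)) (c2 : Z ≤ 𝒞(pPrimeCoreOf q H)) : Z ≤ pCoreOf q H := by
  refine le_pcore_of_le_fitting ((le_inf hZ ?_).trans (cent_sub_Fitting sol)) qZ
  apply le_cent_symm
  refine fitting_le_of_forall_pcore fun r _ => le_cent_symm ?_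
  by_cases h : r = q
  · subst h; exact c1
  · exact c2.trans (cent_anti (pcore_mono_pi (Set.singleton_subset_iff.2 h) H))

omit [Finite G] in
theorem ncyc_quot {l N : Subgroup G} (nc : ¬ IsCyclic l) (nN : l ≤ 𝒩(N))
    (co : (Nat.card N).Coprime (Nat.card l)) : ¬ IsCyclic (l /ₛ N) := by
  obtain ⟨e⟩ := quot_equiv nN (inf_eq_bot_of_cop co)
  exact fun h => nc (isCyclic_of_surjective e.symm e.symm.surjective)

/-- centralizer of one element in a coprime quotient. -/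
theorem cent1_quot {H N l : Subgroup G} (sol : Group.IsSolvable H) (hN : N ≤ H)
    (nN : l ≤ 𝒩(N)) (co : (Nat.card H).Coprime (Nat.card l)) {a : G} (ha : a ∈ l) :
    (H /ₛ N) ⊓ 𝒞[coset N ⟨a, nN ha⟩] = (H ⊓ 𝒞[a]) /ₛ N := by
  have hz : Subgroup.zpowers a ≤ l := (Subgroup.zpowers_le).2 ha
  have h := coprime_quotient_cent (A := Subgroup.zpowers a) hN (hz.trans nN)
    (co.coprime_dvd_right (Subgroup.card_dvd_of_le hz)) (Or.inl sol)
  have e := quot_zpowers (K := N) ⟨a, nN ha⟩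
  simp only at e
  rw [e, cent_zpowers, cent_zpowers] at h
  exact h.symm

theorem g3_aux (n : ℕ) : ∀ {G : Type u} [Group G] [Finite G] {l H Z : Subgroup G},
    Nat.card H = n → IsMulCommutative l → ¬ IsCyclic l → Group.IsSolvable H → l ≤ 𝒩(H) →
    (Nat.card H).Coprime (Nat.card l) → Z ≤ 𝒞(l) → Z ≤ 𝒩(H) → (Nat.card H).Coprime (Nat.card Z) →
    ∀ L : Subgroup G, (∀ a ∈ l, a ≠ 1 → ⁅H ⊓ 𝒞[a], Z⁆ ≤ L) → ⁅H, Z⁆ ≤ L := by
  induction n using Nat.strong_induction_on with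
  | _ n ih =>
  intro G _ _ l H Z hn cl nc sol nHl co cZ nHZ coZ L hL
  have hY : ⁅H, Z⁆ ≤ H := comm_le_left nHZ
  have nZl : l ≤ 𝒩(Z) := norm_of_cent' cZ
  rcases hY.lt_or_eq with hlt | heq
  · rw [← coprime_commGid nHZ coZ (Or.inl sol)]
    refine ih _ (hn ▸ card_lt_of_lt hlt) rfl cl nc (sol_of_le sol hY) (norm_comm nHl nZl)
      (co.coprime_dvd_left (Subgroup.card_dvd_of_le hY)) cZ
      (le_sup_right.trans (comm_normalIn_sup H Z).2)
      (coZ.coprime_dvd_left (Subgroup.card_dvd_of_le hY)) L fun a ha h1 => ?_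
    exact (Subgroup.commutator_mono (inf_le_inf_right _ hY) le_rfl).trans (hL a ha h1)
  by_cases h0 : H = ⊥
  · rw [heq, h0]; exact bot_le
  obtain ⟨N, hNH, hN⟩ := minNormal_exists (A := H ⊔ l ⊔ Z) h0
    (sup_le (sup_le Subgroup.le_normalizer nHl) nHZ)
  have nNH : H ≤ 𝒩(N) := (le_sup_left.trans le_sup_left).trans hN.norm
  have nNl : l ≤ 𝒩(N) := (le_sup_right.trans le_sup_left).trans hN.norm
  have nNZ : Z ≤ 𝒩(N) := le_sup_right.trans hN.norm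
  have cN := hN.abelian (sol_of_le sol hNH)
  set L₀ : Subgroup G := ⨆ (a : G) (_ : a ∈ l ∧ a ≠ 1), ⁅H ⊓ 𝒞[a], Z⁆ with hL₀
  have le0 : ∀ a ∈ l, a ≠ 1 → ⁅H ⊓ 𝒞[a], Z⁆ ≤ L₀ := fun a ha h1 =>
    le_iSup₂_of_le (f := fun (a : G) (_ : a ∈ l ∧ a ≠ 1) => ⁅H ⊓ 𝒞[a], Z⁆) a ⟨ha, h1⟩ le_rfl
  have L0L : L₀ ≤ L := iSup₂_le fun a ha => hL a ha.1 ha.2
  have L0H : L₀ ≤ H := iSup₂_le fun a _ =>
    (Subgroup.commutator_mono inf_le_left le_rfl).trans hY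
  have nL0l : l ≤ 𝒩(L₀) := norm_iSup fun a => norm_iSup fun ha =>
    norm_comm (norm_inf nHl (by
      rw [← cent_zpowers]
      exact norm_cent (norm_of_le_abelian cl ((Subgroup.zpowers_le).2 ha.1)))) nZl
  have nL0Z : Z ≤ 𝒩(L₀) := norm_iSup fun a => norm_iSup fun _ =>
    le_sup_right.trans (comm_normalIn_sup _ Z).2
  refine le_trans ?_ L0L
  have coN : (Nat.card N).Coprime (Nat.card l) := co.coprime_dvd_left (Subgroup.card_dvd_of_le hNH)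
  have hq : ⁅H /ₛ N, Z /ₛ N⁆ ≤ L₀ /ₛ N := by
    refine ih _ (hn ▸ card_quot_lt_of_normal ⟨hNH, nNH⟩ hN.ne_bot) rfl (abelian_quot _ cl)
      (ncyc_quot nc nNl coN) (sol_quot _ sol) (quot_norm _ nHl) (coprime_quot _ co) (quot_cent _ cZ)
      (quot_norm _ nHZ) (coprime_quot _ coZ) _ fun y hy h1 => ?_
    obtain ⟨⟨a, ha'⟩, ha, rfl⟩ := mem_quot.1 hy
    have a1 : a ≠ 1 := fun e => h1 (by subst e; exact map_one (coset N))
    rw [cent1_quot sol hNH nNl co ha, ← quot_comm (inf_le_left.trans nNH) nNZ]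
    exact quot_mono _ (le0 a ha a1)
  rw [← quot_comm nNH nNZ, heq, quot_le_quot_iff nNH (L0H.trans nNH)] at hq
  have nI : H ⊔ l ⊔ Z ≤ 𝒩(N ⊓ L₀) := by
    refine sup_le (sup_le (hq.trans (sup_le ?_ ?_)) (norm_inf nNl nL0l)) (norm_inf nNZ nL0Z)
    · exact norm_of_le_abelian cN inf_le_left
    · exact norm_inf (L0H.trans nNH) Subgroup.le_normalizer
  rcases hN.eq_bot_or_eq inf_le_left nI with h | h
  · have cNZ : N ≤ 𝒞(Z) := by
      refine coprime_abelian_gen_cent1_le cl nc nNl coN fun a ha h1 => ?_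
      rw [← comm_eq_bot_iff, ← le_bot_iff, ← h]
      exact le_inf ((Subgroup.commutator_mono inf_le_left le_rfl).trans (comm_le_left nNZ))
        ((Subgroup.commutator_mono (inf_le_inf_right _ hNH) le_rfl).trans (le0 a ha h1))
    refine (Subgroup.commutator_mono hq le_rfl).trans ?_
    rw [sup_comm, comm_sup_left_of_cent' (L0H.trans nNH) cNZ]
    exact comm_le_left nL0Z
  · rw [heq]
    exact hq.trans (sup_le (h ▸ inf_le_right) le_rfl)

/-- `[H, Z] = ⟨[C_H(a), Z] : a ∈ l#⟩`. -/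
theorem g3 {l H Z L : Subgroup G} (cl : IsMulCommutative l) (nc : ¬ IsCyclic l)
    (sol : Group.IsSolvable H) (nHl : l ≤ 𝒩(H)) (co : (Nat.card H).Coprime (Nat.card l))
    (cZ : Z ≤ 𝒞(l)) (nHZ : Z ≤ 𝒩(H)) (coZ : (Nat.card H).Coprime (Nat.card Z))
    (h : ∀ a ∈ l, a ≠ 1 → ⁅H ⊓ 𝒞[a], Z⁆ ≤ L) : ⁅H, Z⁆ ≤ L :=
  g3_aux _ rfl cl nc sol nHl co cZ nHZ coZ L h

/-- Δ-lemma. -/
theorem delta {l H D : Subgroup G} (cl : IsMulCommutative l) (nc : ¬ IsCyclic l)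
    (sol : Group.IsSolvable H) (nHl : l ≤ 𝒩(H)) (co : (Nat.card H).Coprime (Nat.card l))
    (hD : D ≤ H) (pD : IsPiGrp π D)
    (h : ∀ a ∈ l, a ≠ 1 → IsPiGrp π ⁅H ⊓ 𝒞[a], D⁆) : D ≤ piCoreOf π H := by
  have nO := pcore_norm π H
  have nOl : l ≤ 𝒩(piCoreOf π H) := norm_pcore π nHl
  have coO : (Nat.card (piCoreOf π H)).Coprime (Nat.card l) :=
    co.coprime_dvd_left (Subgroup.card_dvd_of_le (pcore_le π H))
  refine le_pcore_of_cent_fit sol hD pD (le_cent_symm ?_)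
  have hF := fitting_le (H /ₛ piCoreOf π H)
  refine coprime_abelian_gen_cent1_le (abelian_quot _ cl) (ncyc_quot nc nOl coO)
    (norm_fitting (quot_norm _ nHl))
    ((coprime_quot _ co).coprime_dvd_left (Subgroup.card_dvd_of_le hF)) fun y hy h1 => ?_
  obtain ⟨⟨a, ha'⟩, ha, rfl⟩ := mem_quot.1 hy
  have a1 : a ≠ 1 := fun e => h1 (by subst e; exact map_one (coset _))
  rw [← comm_eq_bot_iff, ← le_bot_iff, ← ((h a ha a1).quot (piCoreOf π H)).inf_eq_bot (fit_quot_pi' π H)]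
  refine le_inf ?_ ((Subgroup.commutator_mono inf_le_left le_rfl).trans
    (comm_le_left ((quot_mono _ hD).trans (fitting_norm _))))
  rw [quot_comm (inf_le_left.trans nO) (hD.trans nO), ← cent1_quot sol (pcore_le π H) nOl co ha]
  exact Subgroup.commutator_mono (inf_le_inf_right _ hF) le_rfl

/-- action of `Y ⟨x⟩` on an abelian group without `x`-fixed points. -/
theorem fl_ab {V Y R : Subgroup G} {t : ℕ} (hp : p.Prime) (p2 : p ≠ 2) (hR : Nat.card R = p)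
    (tY : IsPGrp t Y) (tp : t ≠ p) (nYR : R ≤ 𝒩(Y)) (eY : ⁅Y, R⁆ = Y)
    (ht : t ≠ 2 ∨ IsMulCommutative Y) (cV : IsMulCommutative V) (tV : IsPiGrp {t}ᶜ V)
    (pV : IsPiGrp {p}ᶜ V) (nVY : Y ≤ 𝒩(V)) (nVR : R ≤ 𝒩(V)) (h : V ⊓ 𝒞(R) = ⊥) : Y ≤ 𝒞(V) := by
  by_cases h0 : Y = ⊥
  · rw [h0]; exact bot_le
  have pR : IsPGrp p R := pGrp_of_card_eq hp hR
  have co : (Nat.card Y).Coprime (Nat.card R) := tY.coprime_of_ne pR tp
  have sd : SDProd Y R (Y ⊔ R) := sdprod_mk nYR rfl (inf_eq_bot_of_cop co)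
  have coV : (Nat.card V).Coprime (Nat.card Y) := (tY.coprime tV).symm
  rcases ht with ht | ht
  · have hcard := sd.card_mul
    have odd : Odd (Nat.card (Y ⊔ R : Subgroup G)) := by
      rw [← hcard, hR]
      refine Odd.mul ?_ (hp.odd_of_ne_two p2)
      obtain ⟨k, hk⟩ := (pGrp_iff_card (tY.prime h0)).1 tY
      rw [hk]; exact ((tY.prime h0).odd_of_ne_two ht).pow
    have := odd_prime_sdprod_cent1 odd sd co (hR ▸ hp) (sol_of_abelian cV) (sup_le nVY nVR)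
      (by rw [← hcard]; exact Nat.Coprime.mul_right coV (pR.coprime pV).symm) h
    rw [Subgroup.commutator_comm, eY] at this
    exact this.trans inf_le_right
  · by_contra hc
    have h1 : Y ⊓ 𝒞(R) = ⊥ := by
      have := coprime_abel_cent_TI nYR co ht
      rwa [eY] at this
    have fr : IsFrob (Y ⊔ R) Y R := (prime_FrobeniusP h0 (hR ▸ hp)).2 ⟨sd, h1⟩
    exact Frobenius_rfix_compl fr cV (sup_le nVY nVR) coV hc h

theorem fl_sol {F Y R : Subgroup G} {t : ℕ} (hp : p.Prime) (p2 : p ≠ 2) (hR : Nat.card R = p)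
    (tY : IsPGrp t Y) (tp : t ≠ p) (nYR : R ≤ 𝒩(Y)) (eY : ⁅Y, R⁆ = Y)
    (ht : t ≠ 2 ∨ IsMulCommutative Y) (sol : Group.IsSolvable F) (tF : IsPiGrp {t}ᶜ F)
    (pF : IsPiGrp {p}ᶜ F) (nFY : Y ≤ 𝒩(F)) (nFR : R ≤ 𝒩(F)) (h : F ⊓ 𝒞(R) ≤ 𝒞(Y)) :
    Y ≤ 𝒞(F) := by
  have pR : IsPGrp p R := pGrp_of_card_eq hp hR
  have hV : ⁅F, Y⁆ ≤ F := comm_le_left nFY
  have eV : ⁅⁅F, Y⁆, Y⁆ = ⁅F, Y⁆ := coprime_commGid nFY (tY.coprime tF).symm (Or.inl sol)
  have nVY : Y ≤ 𝒩(⁅F, Y⁆) := le_sup_right.trans (comm_normalIn_sup F Y).2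
  have nVR : R ≤ 𝒩(⁅F, Y⁆) := norm_comm nFR nYR
  generalize hVdef : ⁅F, Y⁆ = V at hV eV nVY nVR
  have solV := sol_of_le sol hV
  have tV := tF.of_le hV
  have pV := pF.of_le hV
  have nD : V ≤ 𝒩(⁅V, V⁆) := (der_normalIn V).2
  have nDY : Y ≤ 𝒩(⁅V, V⁆) := norm_comm nVY nVY
  have nDR : R ≤ 𝒩(⁅V, V⁆) := norm_comm nVR nVR
  have cV : IsMulCommutative (V /ₛ ⁅V, V⁆) := (quot_abelian_iff nD).2 le_rfl
  have eV' : ⁅V /ₛ ⁅V, V⁆, Y /ₛ ⁅V, V⁆⁆ = V /ₛ ⁅V, V⁆ := by rw [← quot_comm nD nDY, eV]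
  have coR : (Nat.card V).Coprime (Nat.card R) := (pR.coprime pV).symm
  have key : Y /ₛ ⁅V, V⁆ ≤ 𝒞(V /ₛ ⁅V, V⁆) := by
    refine fl_ab hp p2 ?_ (tY.quot _) tp (quot_norm _ nYR) (by rw [← quot_comm (nDY) nDR, eY])
      (ht.imp_right (abelian_quot _)) cV (tV.quot _) (pV.quot _) (quot_norm _ nVY) (quot_norm _ nVR) ?_
    · rw [card_quot_of_inf_eq_bot nDR (inf_eq_bot_of_cop
        (coR.coprime_dvd_left (Subgroup.card_dvd_of_le (der_normalIn V).1))), hR]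
    · rw [← coprime_quotient_cent (der_normalIn V).1 nDR coR (Or.inl solV), ← le_bot_iff,
        ← coprime_abel_cent_TI (quot_norm _ nVY) (coprime_quot _ (tY.coprime tV).symm) cV, eV']
      exact (quot_mono _ (le_inf inf_le_left ((inf_le_inf_right _ hV).trans h))).trans
        (quot_inf_cent_le _ _)
  rw [quot_cent_iff' nDY nD, eV] at key
  have : V = ⊥ := by
    by_contra h0
    exact absurd key (not_le_of_gt (der_lt_of_sol solV h0))
  rw [← comm_eq_bot_iff', hVdef, this]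

/-- FL. -/
theorem fl {H X R : Subgroup G} {t : ℕ} (hp : p.Prime) (p2 : p ≠ 2) (hR : Nat.card R = p)
    (sol : Group.IsSolvable H) (pH : IsPiGrp {p}ᶜ H) (nHR : R ≤ 𝒩(H)) (hX : X ≤ H) (tX : IsPGrp t X)
    (nXR : R ≤ 𝒩(X)) (nXC : H ⊓ 𝒞(R) ≤ 𝒩(X)) (ht : t ≠ 2 ∨ IsMulCommutative X) :
    ⁅X, R⁆ ≤ pCoreOf t H := by
  by_cases h0 : X = ⊥
  · rw [h0, Subgroup.commutator_bot_left]; exact bot_le
  have tp : t ≠ p := fun e => h0 ((e ▸ tX).eq_bot (pH.of_le hX))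
  have pR : IsPGrp p R := pGrp_of_card_eq hp hR
  have hY : ⁅X, R⁆ ≤ X := comm_le_left nXR
  have eY : ⁅⁅X, R⁆, R⁆ = ⁅X, R⁆ := coprime_commGid nXR (tX.coprime_of_ne pR tp) (Or.inr pR.sol)
  have nYR : R ≤ 𝒩(⁅X, R⁆) := le_sup_right.trans (comm_normalIn_sup X R).2
  have nYC : H ⊓ 𝒞(R) ≤ 𝒩(⁅X, R⁆) := norm_comm nXC (norm_of_cent inf_le_right)
  have tY := tX.of_le hY
  have ht' : t ≠ 2 ∨ IsMulCommutative ↥⁅X, R⁆ := ht.imp_right fun c => abelian_of_le c hY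
  have hYH := hY.trans hX
  generalize ⁅X, R⁆ = Y at *
  have nO := pcore_norm {t} H
  have nOR : R ≤ 𝒩(pCoreOf t H) := norm_pcore _ nHR
  have coR : (Nat.card H).Coprime (Nat.card R) := (pR.coprime pH).symm
  have hF := fitting_le (H /ₛ pCoreOf t H)
  refine le_pcore_of_cent_fit sol hYH tY (fl_sol hp p2 ?_ (tY.quot _) tp (quot_norm _ nYR)
    (by rw [← quot_comm (hYH.trans nO) nOR, eY]) (ht'.imp_right (abelian_quot _))
    (sol_of_nil (fitting_nil _)) (fit_quot_pi' _ H) ((pH.quot _).of_le hF)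
    ((quot_mono _ hYH).trans (fitting_norm _)) (norm_fitting (quot_norm _ nHR)) ?_)
  · rw [card_quot_of_inf_eq_bot nOR (inf_eq_bot_of_cop
      (coR.coprime_dvd_left (Subgroup.card_dvd_of_le (pcore_le _ H)))), hR]
  · rw [← comm_eq_bot_iff, ← le_bot_iff, ← (tY.quot (pCoreOf t H)).inf_eq_bot (fit_quot_pi' {t} H)]
    refine le_inf (comm_le_right ?_) ((Subgroup.commutator_mono inf_le_left le_rfl).trans
      (comm_le_left ((quot_mono _ hYH).trans (fitting_norm _))))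
    refine (inf_le_inf_right _ hF).trans ?_
    rw [← coprime_quotient_cent (pcore_le _ H) nOR coR (Or.inl sol)]
    exact quot_norm _ nYC

end CA.Sig
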