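/-
Definitions shared by the module part of the solvable signalizer functor theorem.
Owner: helper1.
-/
import Cfsg.Agent.Sig.Lem1

set_option autoImplicit false

namespace CA.Sig

open Cfsg CA.FG CA.BG

universe u

/-- no elementary abelian subgroup of `B` comes close to being an offender on `W` -/
def Good {X : Type u} [Group X] (q : ℕ) (W B : Subgroup X) : Prop :=
  ∀ E : Subgroup X, E ≤ B → IsElementaryAbelian q E → ¬ E ≤ 𝒞(W) →
    q ^ 2 * (𝒞(W)).relIndex E ≤ (𝒞(E)).relIndex W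

/-- the module theoretic input -/
def GoodMin (X : Type u) [Group X] : Prop :=
  ∀ {p q : ℕ} (_ : p.Prime) (_ : p ≠ 2) (_ : q.Prime) {A M Y B : Subgroup X} (_ : IsPGrp p A)
    (_ : A ≤ 𝒩(M)) (_ : IsPiGrp {p}ᶜ M) (_ : Group.IsSolvable M) (_ : Y ≤ M) (_ : MinNormal Y (M ⊔ A))
    (_ : IsElementaryAbelian q Y) (_ : B ≤ M) (_ : IsPGrp q B) (_ : A ≤ 𝒩(B)) (_ : M ⊓ 𝒞(A) ≤ 𝒩(B)),
    Good q Y B

theorem realizeEqns_SigGD : True := by
  have := @CA.Sig.Good.eq_1.{0}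
  have := @CA.Sig.Good.eq_def.{0}
  have := @CA.Sig.Good.congr_simp.{0}
  have := @CA.Sig.GoodMin.eq_1.{0}
  have := @CA.Sig.GoodMin.eq_def.{0}
  have := @CA.Sig.GoodMin.congr_simp.{0}
  trivial

end CA.Sig
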