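/-
The amalgam lemma for the solvable signalizer functor theorem.
Owner: helper1.
-/
import Cfsg.Agent.Sig.GD

set_option autoImplicit false

namespace CA.Sig

open Cfsg CA.FG CA.BG

universe u

variable {X : Type u} [Group X] {p q : ℕ}

/-- elementary abelian subgroups of maximal order -/
def MaxE (q : ℕ) (B E : Subgroup X) : Prop :=
  E ≤ B ∧ IsElementaryAbelian q E ∧ ∀ E', E' ≤ B → IsElementaryAbelian q E' → Nat.card E' ≤ Nat.card E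

/-- the Thompson subgroup -/
def JE (q : ℕ) (B : Subgroup X) : Subgroup X := ⨆ (E : Subgroup X) (_ : MaxE q B E), E

/-- the subgroup generated by the `N`-conjugates of `Y` -/
def ncl (Y N : Subgroup X) : Subgroup X := ⨆ (n : X) (_ : n ∈ N), Y :^ n

theorem le_ncl (Y : Subgroup X) {N : Subgroup X} {n : X} (h : n ∈ N) : Y :^ n ≤ ncl Y N :=
  le_iSup₂_of_le (f := fun (n : X) (_ : n ∈ N) => Y :^ n) n h le_rfl

theorem le_ncl' (Y N : Subgroup X) : Y ≤ ncl Y N := by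
  have := le_ncl Y N.one_mem
  rwa [conjg_one] at this

theorem ncl_norm (Y N : Subgroup X) : N ≤ 𝒩(ncl Y N) := by
  refine le_norm_of_conjg_le fun a ha => ?_
  rw [ncl, conjg_iSup]
  refine iSup_le fun n => ?_
  rw [conjg_iSup]
  refine iSup_le fun hn => ?_
  rw [← conjg_mul]
  exact le_ncl Y (N.mul_mem ha hn)

theorem norm_ncl {Y N D : Subgroup X} (h1 : D ≤ 𝒩(Y)) (h2 : D ≤ 𝒩(N)) : D ≤ 𝒩(ncl Y N) := by
  refine le_norm_of_conjg_le fun a ha => ?_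
  rw [ncl, conjg_iSup]
  refine iSup_le fun n => ?_
  rw [conjg_iSup]
  refine iSup_le fun hn => ?_
  have : (Y :^ n) :^ a = Y :^ (a * n * a⁻¹) := by
    rw [← conjg_mul, conjg_mul Y a⁻¹, conjg_of_mem_norm ((𝒩(Y)).inv_mem (h1 ha))]
  rw [this]
  exact le_ncl Y (conj_mem_of_le_norm h2 ha hn)

theorem MaxE.conj {B E : Subgroup X} (h : MaxE q B E) (g : X) : MaxE q (B :^ g) (E :^ g) := by
  refine ⟨conjg_mono g h.1, abelem_conjg.2 h.2.1, fun E' h1 h2 => ?_⟩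
  have := h.2.2 (E' :^ g⁻¹) (le_conjg_iff.1 h1) (abelem_conjg.2 h2)
  simpa using this

theorem MaxE.le_JE {B E : Subgroup X} (h : MaxE q B E) : E ≤ JE q B :=
  le_iSup₂_of_le (f := fun (E : Subgroup X) (_ : MaxE q B E) => E) E h le_rfl

theorem norm_JE (q : ℕ) {B D : Subgroup X} (h : D ≤ 𝒩(B)) : D ≤ 𝒩(JE q B) := by
  refine le_norm_of_conjg_le fun a ha => ?_
  rw [JE, conjg_iSup]
  refine iSup_le fun E => ?_
  rw [conjg_iSup]
  refine iSup_le fun hE => ?_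
  have := hE.conj a
  rw [conjg_of_mem_norm (h ha)] at this
  exact this.le_JE

theorem Good.conj {W B : Subgroup X} (h : Good q W B) (g : X) : Good q (W :^ g) (B :^ g) := by
  intro E h1 h2 h3
  have := h (E :^ g⁻¹) (le_conjg_iff.1 h1) (abelem_conjg.2 h2) (fun hc => h3 (by
    rw [← conjg_cent]; exact le_conjg_iff.2 hc))
  rwa [← relIndex_conjg _ _ g, ← relIndex_conjg _ W g, conjg_cent, conjg_cent, conjg_cancel_inv] at this

theorem abelem_iSup {ι : Sort*} {W : ι → Subgroup X} (h : ∀ i, IsElementaryAbelian q (W i))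
    (c : ∀ i j, W i ≤ 𝒞(W j)) : IsElementaryAbelian q (⨆ i, W i) := by
  have cc : (⨆ i, W i) ≤ 𝒞(⨆ i, W i) := iSup_le fun i => le_cent_symm (iSup_le fun j => c j i)
  refine ⟨abelian_iff_le_cent.2 cc, fun a ha => ?_⟩
  refine Subgroup.iSup_induction' W (C := fun a _ => a ^ q = 1) (fun i x hx => (h i).2 x hx) (one_pow q)
    (fun x y hx hy e1 e2 => ?_) ha
  rw [Commute.mul_pow (comm_of_le_cent cc hx hy), e1, e2, one_mul]

variable [Finite X]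

theorem exists_maxE (q : ℕ) (B : Subgroup X) : ∃ E, MaxE q B E := by
  obtain ⟨E, h1, h2⟩ := exists_max_card_subgroup (P := fun E => E ≤ B ∧ IsElementaryAbelian q E)
    ⟨bot_le, abelem_bot q⟩
  exact ⟨E, h1.1, h1.2, fun E' a b => h2 E' ⟨a, b⟩⟩

theorem JE_ne_bot {B : Subgroup X} (hB : IsPGrp q B) (h0 : B ≠ ⊥) : JE q B ≠ ⊥ := by
  obtain ⟨E, hE⟩ := exists_maxE q B
  refine ne_bot_mono hE.le_JE fun e => ?_
  have := hE.2.2 _ ((ohm1_le q _).trans inf_le_left) (ohm1_center_abelem q B)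
  rw [e, Subgroup.card_bot] at this
  exact absurd (one_lt_card (ohm1_ne_bot (hB.inf_left _) (center_nil_ne_bot hB.nil h0))) (not_lt.2 this)

theorem JE_eq {B P : Subgroup X} (hP : P ≤ B) (h : ∀ E, MaxE q B E → E ≤ P) : JE q P = JE q B := by
  refine le_antisymm (iSup₂_le fun E hE => MaxE.le_JE ⟨hE.1.trans hP, hE.2.1, fun E' a b => ?_⟩)
    (iSup₂_le fun E hE => MaxE.le_JE ⟨h E hE, hE.2.1, fun E' a b => hE.2.2 E' (a.trans hP) b⟩)
  obtain ⟨E₀, h₀⟩ := exists_maxE q B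
  exact (h₀.2.2 E' a b).trans (hE.2.2 E₀ (h E₀ h₀) h₀.2.1)

theorem Good.near (hq : q.Prime) {W B E E₁ : Subgroup X} (g : Good q W B) (hW : W ≤ B)
    (aW : IsElementaryAbelian q W) (hE : MaxE q B E) (h1 : E₁ ≤ B) (a1 : IsElementaryAbelian q E₁)
    (hc : Nat.card E ≤ q * Nat.card E₁) : E₁ ≤ 𝒞(W) := by
  by_contra hn
  have h2 := g E₁ h1 a1 hn
  have e1 := card_inf_mul_relIndex (𝒞(W)) E₁
  have e2 := card_inf_mul_relIndex (𝒞(E₁)) W
  have cc : W ≤ 𝒞(𝒞(W) ⊓ E₁) := le_cent_symm inf_le_left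
  have e3 := card_sup_mul_card_inf (Or.inl (norm_of_cent cc))
  have h3 := hE.2.2 _ (sup_le hW (inf_le_right.trans h1)) (abelem_sup aW (abelem_of_le a1 inf_le_right) cc)
  have h4 : Nat.card (W ⊓ (𝒞(W) ⊓ E₁) : Subgroup X) ≤ Nat.card (𝒞(E₁) ⊓ W : Subgroup X) :=
    Subgroup.card_le_of_le (le_inf ((inf_le_right.trans inf_le_right).trans (abelian_iff_le_cent.1 a1.1))
      inf_le_left)
  have p1 : 0 < Nat.card (𝒞(W) ⊓ E₁ : Subgroup X) := Nat.card_pos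
  have p2 : 0 < Nat.card (𝒞(E₁) ⊓ W : Subgroup X) := Nat.card_pos
  have p3 := relIndex_pos (𝒞(W)) E₁
  have p4 := hq.two_le
  generalize Nat.card (𝒞(W) ⊓ E₁ : Subgroup X) = c at *
  generalize Nat.card (𝒞(E₁) ⊓ W : Subgroup X) = w at *
  generalize (𝒞(W)).relIndex E₁ = a at *
  generalize (𝒞(E₁)).relIndex W = b at *
  have h5 : (w * c) * b ≤ (w * c) * (q * a) := by
    calc (w * c) * b = (w * b) * c := by ring
      _ = _ * _ := by rw [e2, ← e3]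
      _ ≤ (q * (c * a)) * w := Nat.mul_le_mul (h3.trans (e1 ▸ hc)) h4
      _ = (w * c) * (q * a) := by ring
  have h6 := Nat.le_of_mul_le_mul_left h5 (Nat.mul_pos p2 p1)
  have : q * (q * a) ≤ q * a := by nlinarith
  nlinarith

theorem Good.comm (hq : q.Prime) {W B W' B' : Subgroup X} (g : Good q W B) (g' : Good q W' B')
    (hW : W ≤ B') (hW' : W' ≤ B) (aW : IsElementaryAbelian q W) (aW' : IsElementaryAbelian q W') :
    W' ≤ 𝒞(W) := by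
  by_contra hn
  have h1 := g W' hW' aW' hn
  have h2 := g' W hW aW fun h => hn (le_cent_symm h)
  have p3 := relIndex_pos (𝒞(W)) W'
  have p4 := hq.two_le
  have : 4 ≤ q ^ 2 := by nlinarith
  nlinarith

theorem good_iSup (hq : q.Prime) {ι : Sort*} {W : ι → Subgroup X} {B : Subgroup X} (h : ∀ i, Good q (W i) B) :
    Good q (⨆ i, W i) B := by
  intro E
  induction hn : Nat.card E using Nat.strong_induction_on generalizing E with
  | _ n ih =>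
  intro hB aE hc
  obtain ⟨i, hi⟩ : ∃ i, ¬ E ≤ 𝒞(W i) := by
    by_contra hh
    push Not at hh
    exact hc (le_cent_symm (iSup_le fun i => le_cent_symm (hh i)))
  have g := h i E hB aE hi
  have hWi : W i ≤ ⨆ i, W i := le_iSup W i
  generalize (⨆ i, W i) = V at *
  have cV : 𝒞(V) ≤ 𝒞(W i) := cent_anti hWi
  have f1 : (𝒞(V)).relIndex (𝒞(W i) ⊓ E) * (𝒞(W i)).relIndex E = (𝒞(V)).relIndex E := by
    rw [← Subgroup.relIndex_mul_relIndex (𝒞(V) ⊓ E) (𝒞(W i) ⊓ E) E (inf_le_inf_right _ cV) inf_le_right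
      |>.trans (Subgroup.inf_relIndex_right _ _), Subgroup.inf_relIndex_right,
      ← Subgroup.inf_relIndex_right (𝒞(V)) (𝒞(W i) ⊓ E), ← inf_assoc, inf_eq_left.2 cV]
  have cE : 𝒞(E) ≤ 𝒞(𝒞(W i) ⊓ E) := cent_anti inf_le_right
  have f2 : (𝒞(E)).relIndex (𝒞(𝒞(W i) ⊓ E) ⊓ V) * (𝒞(𝒞(W i) ⊓ E)).relIndex V = (𝒞(E)).relIndex V := by
    rw [← Subgroup.relIndex_mul_relIndex (𝒞(E) ⊓ V) (𝒞(𝒞(W i) ⊓ E) ⊓ V) V (inf_le_inf_right _ cE) inf_le_right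
      |>.trans (Subgroup.inf_relIndex_right _ _), Subgroup.inf_relIndex_right,
      ← Subgroup.inf_relIndex_right (𝒞(E)) (𝒞(𝒞(W i) ⊓ E) ⊓ V), ← inf_assoc, inf_eq_left.2 cE]
  have f3 : (𝒞(E)).relIndex (W i) ≤ (𝒞(E)).relIndex (𝒞(𝒞(W i) ⊓ E) ⊓ V) :=
    Subgroup.relIndex_le_of_le_right (le_inf (le_cent_symm inf_le_left) hWi) (relIndex_pos _ _).ne'
  rw [← f1, ← f2]
  by_cases h2 : 𝒞(W i) ⊓ E ≤ 𝒞(V)
  · rw [Subgroup.relIndex_eq_one.2 h2, one_mul]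
    exact (g.trans f3).trans (Nat.le_mul_of_pos_right _ (relIndex_pos _ _))
  · have := ih _ (hn ▸ card_lt_of_lt (inf_lt_right.2 hi)) _ rfl (inf_le_right.trans hB)
      (abelem_of_le aE inf_le_right) h2
    have h3 : (𝒞(W i)).relIndex E ≤ (𝒞(E)).relIndex (𝒞(𝒞(W i) ⊓ E) ⊓ V) :=
      (Nat.le_mul_of_pos_left _ (pow_pos hq.pos 2)).trans (g.trans f3)
    calc _ = (𝒞(W i)).relIndex E * (q ^ 2 * (𝒞(V)).relIndex (𝒞(W i) ⊓ E)) := by ring
      _ ≤ _ := Nat.mul_le_mul h3 this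

theorem exists_hyp (hq : q.Prime) {M E : Subgroup X} (sol : Group.IsSolvable M) (hE : E ≤ M)
    (aE : IsElementaryAbelian q E) (h : ¬ E ≤ pCoreOf q M) :
    ∃ (E₀ : Subgroup X) (x : X), E₀ ≤ E ∧ E₀.relIndex E = q ∧ E ⊓ pCoreOf q M ≤ E₀ ∧
      x ∈ quotPre (pCoreOf q M) (fittingOf (M /ₛ pCoreOf q M)) ∧
      (∀ y ∈ E₀, x * y * x⁻¹ * y⁻¹ ∈ pCoreOf q M) ∧ ¬ ∀ y ∈ E, x * y * x⁻¹ * y⁻¹ ∈ pCoreOf q M := by
  have nP := hE.trans (pcore_norm {q} M)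
  have qE := abelem_pGrp hq aE
  have h1 : ¬ fittingOf (M /ₛ pCoreOf q M) ≤ 𝒞(E /ₛ pCoreOf q M) := fun c =>
    h (le_pcore_of_cent_fit sol hE qE (le_cent_symm c))
  have h2 : ∃ B, B ≤ E /ₛ pCoreOf q M ∧ B.relIndex (E /ₛ pCoreOf q M) = q ∧
      ¬ fittingOf (M /ₛ pCoreOf q M) ⊓ 𝒞(B) ≤ 𝒞(E /ₛ pCoreOf q M) := by
    by_contra hh
    push Not at hh
    exact h1 (coprime_abelem_gen_cent_le hq (abelem_quot _ aE) (fun e => h ((quot_eq_bot_iff nP).1 e))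
      ((quot_mono _ hE).trans (fitting_norm _)) ((qE.quot _).coprime (fit_quot_pi' {q} M)).symm hh)
  obtain ⟨B, hB, hi, h3⟩ := h2
  obtain ⟨z, hz, hz'⟩ := SetLike.not_le_iff_exists.1 h3
  obtain ⟨x, rfl⟩ := coset_surjective _ z
  have key : ∀ y : 𝒩(pCoreOf q M), (x : X) * y * (x : X)⁻¹ * (y : X)⁻¹ ∈ pCoreOf q M ↔
      coset _ y * coset _ x = coset _ x * coset _ y := fun y => by
    have : (x : X) * y * (x : X)⁻¹ * (y : X)⁻¹ = ((x * y * x⁻¹ * y⁻¹ : 𝒩(pCoreOf q M)) : X) := rfl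
    rw [this, ← coset_eq_one_iff, map_mul, map_mul, map_mul, map_inv, map_inv, mul_inv_eq_one,
      mul_inv_eq_iff_eq_mul, eq_comm]
  refine ⟨E ⊓ quotPre _ B, x, inf_le_left, ?_, inf_le_inf_left _ (le_quotPre B), coe_mem_quotPre.2 hz.1,
    fun y hy => ?_, fun hh => hz' fun w hw => ?_⟩
  · refine Eq.trans ?_ hi
    rw [Subgroup.inf_relIndex_left, ← Subgroup.relIndex_subgroupOf nP, pre_subgroupOf,
      Subgroup.relIndex_comap]
    rfl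
  · obtain ⟨hy', hB'⟩ := mem_quotPre.1 hy.2
    exact (key ⟨y, hy'⟩).2 (hz.2 _ hB')
  · obtain ⟨y, hy, rfl⟩ := mem_quot.1 hw
    exact (key y).1 (hh _ hy)

theorem fit2_inf_le {M Q : Subgroup X} (hQ : Q ≤ M) (qQ : IsPGrp q Q) :
    quotPre (pCoreOf q M) (fittingOf (M /ₛ pCoreOf q M)) ⊓ Q ≤ pCoreOf q M := by
  rw [← quot_eq_bot_iff (inf_le_left.trans (quotPre_le_norm _)), ← le_bot_iff,
    ← (qQ.quot (pCoreOf q M)).inf_eq_bot (fit_quot_pi' {q} M), inf_comm, quot_inf_quotPre]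

theorem fit2_comm {M Q : Subgroup X} (hQ : Q ≤ M) (qQ : IsPGrp q Q) {x y : X}
    (hx : x ∈ quotPre (pCoreOf q M) (fittingOf (M /ₛ pCoreOf q M))) (hy : y ∈ Q) (h : x * y * x⁻¹ ∈ Q) :
    x * y * x⁻¹ * y⁻¹ ∈ pCoreOf q M := by
  have nF := (quotPre_normalIn_of (pcore_normal {q} M) (fitting_normal _)).2
  refine fit2_inf_le hQ qQ (Subgroup.mem_inf.2 ⟨?_, Q.mul_mem h (Q.inv_mem hy)⟩)
  have := Subgroup.mul_mem _ hx (conj_mem_of_le_norm nF (hQ hy) (Subgroup.inv_mem _ hx))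
  simpa only [mul_assoc] using this

theorem pgrp_of_stab {M H D : Subgroup X} (sol : Group.IsSolvable M) (o : pPrimeCoreOf q M = ⊥) (hH : H ≤ M)
    (hD : D ≤ pCoreOf q M) (c : H ≤ 𝒞(D)) (s : ⁅pCoreOf q M, H⁆ ≤ D) : IsPGrp q H := by
  intro r hr hd
  by_contra hn
  obtain ⟨R, hR⟩ := sylow_exists hr H
  have pR : IsPiGrp {q}ᶜ R := hR.pGrp.mono (Set.singleton_subset_iff.2 hn)
  have h1 := stable_factor_cent' (hR.le.trans c) ((Subgroup.commutator_mono le_rfl hR.le).trans s)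
    (((pcore_pGrp q M).of_le hD).coprime pR)
  exact hR.ne_bot' hr hd (((pcore_pGrp q M).of_le
    ((le_inf (hR.le.trans hH) h1).trans (cent_sub_pcore sol o))).eq_bot pR)

/-- the last step of AM: no transvections on a normal elementary abelian subgroup -/
theorem am_last (gm : ∀ (Y : Type u) [Group Y] [Finite Y], GoodMin Y) (hp : p.Prime) (p2 : p ≠ 2)
    (hq : q.Prime) {A M B V E : Subgroup X} (pA : IsPGrp p A) (nM : A ≤ 𝒩(M)) (pM : IsPiGrp {p}ᶜ M)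
    (sol : Group.IsSolvable M) (BM : B ≤ M) (qB : IsPGrp q B) (nB : A ≤ 𝒩(B)) (cB : M ⊓ 𝒞(A) ≤ 𝒩(B))
    (VM : V ≤ M) (nV : M ⊔ A ≤ 𝒩(V)) (aV : IsElementaryAbelian q V) (cV : M ⊓ 𝒞(V) ≤ 𝒩(B))
    (EB : E ≤ B) (aE : IsElementaryAbelian q E) (hi : (𝒞(E)).relIndex V ≤ q) : E ≤ pCoreOf q M := by
  have EM := EB.trans BM
  have qE := abelem_pGrp hq aE
  have nsF := quotPre_normalIn_of (pcore_normal {q} M) (fitting_normal (M /ₛ pCoreOf q M))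
  set F := quotPre (pCoreOf q M) (fittingOf (M /ₛ pCoreOf q M)) with hF
  have RF : ⁅F, E⁆ ≤ F := comm_le_left (EM.trans nsF.2)
  obtain ⟨K, hK⟩ := Hall_exists {q}ᶜ (sol_of_le sol (RF.trans nsF.1))
  have KM : K ≤ M := hK.le.trans (RF.trans nsF.1)
  have nP := pcore_norm {q} M
  by_cases c : K ≤ 𝒞(V)
  · have h1 : ⁅K, E⁆ ≤ pCoreOf q M := by
      refine le_trans (le_inf ?_ ?_) (fit2_inf_le BM qB)
      · exact (Subgroup.commutator_mono (hK.le.trans RF) le_rfl).trans RF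
      · exact (Subgroup.commutator_mono le_rfl EB).trans (comm_le_right ((le_inf KM c).trans cV))
    have e : K /ₛ pCoreOf q M = ⁅fittingOf (M /ₛ pCoreOf q M), E /ₛ pCoreOf q M⁆ := by
      have h2 := hK.quot (K := pCoreOf q M) ((RF.trans nsF.1).trans nP)
      rw [quot_comm (nsF.1.trans nP) (EM.trans nP), hF, quot_quotPre] at h2
      exact h2.eq_self ((fit_quot_pi' {q} M).of_le (comm_le_left ((quot_mono _ EM).trans (fitting_norm _))))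
    refine le_pcore_of_cent_fit sol EM qE (coprime_commGG1P ((quot_mono _ EM).trans (fitting_norm _))
      ((qE.quot _).coprime (fit_quot_pi' {q} M)).symm (Or.inr (IsPGrp.sol (qE.quot _))) ?_)
    rw [← e, ← quot_comm (KM.trans nP) (EM.trans nP), quot_eq_bot_of_le h1]
  exfalso
  obtain ⟨U, -, ⟨UV, nU, cU⟩, hmin⟩ := exists_min_subgroup
    (P := fun U => U ≤ V ∧ M ⊔ A ≤ 𝒩(U) ∧ ¬ K ≤ 𝒞(U)) ⟨le_rfl, nV, c⟩
  have U0 : ⊥ < U := bot_lt_iff_ne_bot.2 fun e => cU (by rw [e, cent_bot]; exact le_top)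
  obtain ⟨U', -, ch⟩ := chiefFactor_exists_below (H := M ⊔ A) ⟨(UV.trans VM).trans le_sup_left, nU⟩
    (norm_bot _) U0
  have n' := ch.normal_left.2
  have nM' : M ≤ 𝒩(U') := le_sup_left.trans n'
  have nA' : A ≤ 𝒩(U') := le_sup_right.trans n'
  have cK : K ≤ 𝒞(U') := by
    by_contra hc
    exact ch.lt.ne (hmin U' ⟨ch.lt.le.trans UV, n', hc⟩ ch.lt.le)
  have mn := ch.minNormal
  rw [quot_sup nM' nA'] at mn
  have U'M : U' ≤ M := (ch.lt.le.trans UV).trans VM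
  have g := gm _ hp p2 hq (pA.quot U') (quot_norm _ nM) (pM.quot _) (sol_quot _ sol)
    (quot_mono _ (UV.trans VM)) mn (abelem_quot _ (abelem_of_le aV UV)) (quot_mono _ BM) (qB.quot _)
    (quot_norm _ nB) (by
      rw [← coprime_quotient_cent U'M nA' (pA.coprime pM).symm (Or.inl sol)]; exact quot_norm _ cB)
    (E /ₛ U') (quot_mono _ EB) (abelem_quot _ aE) (fun hc => cU ?_)
  · have h1 : (𝒞(E /ₛ U')).relIndex (U /ₛ U') ≤ ((U ⊓ 𝒞(E)) /ₛ U').relIndex (U /ₛ U') :=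
      Subgroup.relIndex_le_of_le_left ((quot_inf_cent_le _ _).trans inf_le_right) (relIndex_pos _ _).ne'
    have h2 := Nat.le_of_dvd (relIndex_pos _ _)
      (relIndex_quot_dvd (K := U') (inf_le_left : U ⊓ 𝒞(E) ≤ U) ((UV.trans VM).trans nM'))
    rw [Subgroup.inf_relIndex_left] at h2
    have h3 : (𝒞(E)).relIndex U ≤ (𝒞(E)).relIndex V :=
      Subgroup.relIndex_le_of_le_right UV (relIndex_pos _ _).ne'
    have h4 := relIndex_pos (𝒞(U /ₛ U')) (E /ₛ U')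
    have h5 := hq.two_le
    have : q ^ 2 * 1 ≤ q := (Nat.mul_le_mul_left _ h4).trans (g.trans (h1.trans (h2.trans (h3.trans hi))))
    nlinarith
  · have h1 : K /ₛ U' ≤ 𝒞(U /ₛ U') := by
      refine (quot_mono _ hK.le).trans ?_
      rw [quot_comm (nsF.1.trans nM') (EM.trans nM')]
      exact (Subgroup.commutator_mono le_rfl hc).trans (comm_le_right
        (norm_cent ((quot_mono _ nsF.1).trans (le_sup_left.trans mn.norm))))
    rw [quot_cent_iff' (KM.trans nM') ((UV.trans VM).trans nM')] at h1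
    exact stable_factor_cent' cK h1 (((abelem_pGrp hq aV).of_le (ch.lt.le.trans UV)).coprime hK.piGrp)

/-- AM -/
theorem am (gm : ∀ (Y : Type u) [Group Y] [Finite Y], GoodMin Y) (hp : p.Prime) (p2 : p ≠ 2)
    (hq : q.Prime) {A M B W : Subgroup X} (pA : IsPGrp p A) (nM : A ≤ 𝒩(M)) (pM : IsPiGrp {p}ᶜ M)
    (sol : Group.IsSolvable M) (o : pPrimeCoreOf q M = ⊥) (PB : pCoreOf q M ≤ B) (BM : B ≤ M)
    (qB : IsPGrp q B) (nB : A ≤ 𝒩(B)) (cB : M ⊓ 𝒞(A) ≤ 𝒩(B)) (WB : W ≤ B) (nW : B ≤ 𝒩(W))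
    (aW : IsElementaryAbelian q W) (nWA : A ≤ 𝒩(W)) (g : Good q W B) (cW : M ⊓ 𝒞(W) ≤ 𝒩(B))
    {E' : Subgroup X} (hE' : MaxE q B E') : E' ≤ pCoreOf q M := by
  by_contra hc
  obtain ⟨_, -, ⟨E, hE, EP, rfl⟩, hmin⟩ := exists_min_subgroup
    (P := fun D => ∃ E, MaxE q B E ∧ ¬ E ≤ pCoreOf q M ∧ D = E ⊔ pCoreOf q M) ⟨E', hE', hc, rfl⟩
  have EM := hE.1.trans BM
  obtain ⟨E₀, x, h0, hi, hP0, hx, c0, c1⟩ := exists_hyp hq sol EM hE.2.1 EP
  have nsF := quotPre_normalIn_of (pcore_normal {q} M) (fitting_normal (M /ₛ pCoreOf q M))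
  have xM : x ∈ M := nsF.1 hx
  have nP := pcore_norm {q} M
  set P := pCoreOf q M with hP
  have a0 := abelem_of_le hE.2.1 h0
  have card0 : Nat.card E = q * Nat.card E₀ := by rw [← card_mul_relIndex h0, hi, mul_comm]
  have mx : MaximalIn E₀ E := maximalIn_of_index_prime h0 (hi ▸ hq)
  have near : ∀ y : X, E₀ :^ y ≤ B → E₀ :^ y ≤ 𝒞(W) := fun y hy =>
    g.near hq WB aW hE hy (abelem_conjg.2 a0) (by rw [card_conjg, card0])
  have l1 : E₀ :^ x ≤ E₀ ⊔ P := fun z hz => by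
    obtain ⟨y, hy, rfl⟩ := mem_conjg'.1 hz
    have := (E₀ ⊔ P).mul_mem (Subgroup.mem_sup_right (c0 y hy)) (Subgroup.mem_sup_left hy)
    simpa using this
  have l2 : E₀ :^ x⁻¹ ≤ E₀ ⊔ P := fun z hz => by
    obtain ⟨y, hy, rfl⟩ := mem_conjg'.1 hz
    have := (E₀ ⊔ P).mul_mem (Subgroup.mem_sup_right
      (conj_mem_of_le_norm' nP xM (P.inv_mem (c0 y hy)))) (Subgroup.mem_sup_left hy)
    convert this using 1
    group
  have E0B : E₀ ⊔ P ≤ B := sup_le (h0.trans hE.1) PB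
  have k1 : E₀ :^ x ≤ 𝒞(W) := near x (l1.trans E0B)
  have k2 : E₀ ≤ 𝒞(W :^ x) := by
    rw [← conjg_cent]; exact le_conjg_iff.2 (near x⁻¹ (l2.trans E0B))
  have cEW : E ≤ 𝒞(W) := g.near hq WB aW hE hE.1 hE.2.1 (Nat.le_mul_of_pos_left _ hq.pos)
  have WE : W ≤ E := by
    have := Subgroup.eq_of_le_of_card_ge (le_sup_left : E ≤ E ⊔ W)
      (hE.2.2 _ (sup_le hE.1 WB) (abelem_sup hE.2.1 aW cEW))
    exact this ▸ le_sup_right
  have WM := WB.trans BM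
  have Px : P :^ x = P := conjg_of_mem_norm (nP xM)
  have W0 : W ≤ E₀ := by
    by_contra hn
    have e : E₀ ⊔ W = E := by
      by_contra hne
      exact hn (mx.2 _ le_sup_left (lt_of_le_of_ne (sup_le h0 WE) hne) ▸ le_sup_right)
    have WP0 : W ⊓ P ≤ E₀ := (inf_le_inf_right _ WE).trans hP0
    have aWx := abelem_conjg (g := x).2 aW
    have nPW : P ≤ 𝒩(W) := PB.trans nW
    have nPWx : P ≤ 𝒩(W :^ x) := by rw [← Px]; exact conjg_le_norm_iff.2 nPW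
    have HM : W ⊔ W :^ x ≤ M := sup_le WM (conjg_le_of_mem WM xM)
    have cH : W ⊔ W :^ x ≤ 𝒞((W ⊓ P) ⊔ (W :^ x ⊓ P)) := by
      apply le_cent_symm
      refine sup_le (le_cent_sup (inf_le_left.trans (abelian_iff_le_cent.1 aW.1)) (WP0.trans k2))
        (le_cent_sup ?_ (inf_le_left.trans (abelian_iff_le_cent.1 aWx.1)))
      rw [← Px, ← conjg_inf]
      exact (conjg_mono x WP0).trans k1
    have qH : IsPGrp q (W ⊔ W :^ x) := by
      refine pgrp_of_stab sol o HM (sup_le inf_le_right inf_le_right) cH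
        (comm_sup_right_le (le_sup_left.trans (norm_of_cent cH)) (le_sup_right.trans (norm_of_cent cH)) ?_ ?_)
      · exact (le_inf (comm_le_right nPW) (comm_le_left (WM.trans nP))).trans le_sup_left
      · exact (le_inf (comm_le_right nPWx) (comm_le_left ((le_sup_right.trans HM).trans nP))).trans
          le_sup_right
    refine c1 fun y hy => ?_
    rw [← e] at hy
    obtain ⟨a, ha, b, hb, rfl⟩ :=
      (mem_sup_of_left_le_norm (norm_of_cent (h0.trans cEW))).1 hy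
    have h1 := fit2_comm HM qH hx (Subgroup.mem_sup_left hb) (Subgroup.mem_sup_right (conj_mem_conjg x hb))
    have := P.mul_mem (c0 a ha) (conj_mem_of_le_norm nP (EM (h0 ha)) h1)
    convert this using 1
    group
  have nW1 : ¬ W ≤ E₀ :^ x := by
    intro hh
    have h1 : E :^ x ≤ 𝒩(B) := (le_inf (conjg_le_of_mem EM xM) ((abelian_iff_le_cent.1
      (abelem_conjg.2 hE.2.1).1).trans (cent_anti (hh.trans (conjg_mono x h0))))).trans cW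
    have qQ : IsPGrp q (B ⊔ E :^ x) := qB.sup ((qB.of_le hE.1).conjg x) (Or.inr h1)
    exact c1 fun y hy => fit2_comm (sup_le BM (conjg_le_of_mem EM xM)) qQ hx (Subgroup.mem_sup_left (hE.1 hy))
      (Subgroup.mem_sup_right (conj_mem_conjg x hy))
  have a2 : IsElementaryAbelian q (E₀ :^ x ⊔ W) := abelem_sup (abelem_conjg.2 a0) aW k1
  have m2 : MaxE q B (E₀ :^ x ⊔ W) := by
    refine ⟨sup_le (l1.trans E0B) WB, a2, fun E' b1 b2 => (hE.2.2 E' b1 b2).trans ?_⟩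
    have h1 := card_mul_relIndex (le_sup_left : E₀ :^ x ≤ E₀ :^ x ⊔ W)
    have h2 : q ∣ (E₀ :^ x).relIndex (E₀ :^ x ⊔ W) := by
      obtain ⟨k, hk⟩ := (piNat_singleton_iff hq (relIndex_pos _ _).ne').1
        ((abelem_pGrp hq a2).relIndex (E₀ :^ x))
      rw [hk]
      refine dvd_pow_self _ fun e => nW1 ?_
      rw [e, pow_zero, Subgroup.relIndex_eq_one] at hk
      exact le_sup_right.trans hk
    rw [card0, ← h1, card_conjg, mul_comm]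
    exact Nat.mul_le_mul_left _ (Nat.le_of_dvd (relIndex_pos _ _) h2)
  have E2P : E₀ :^ x ⊔ W ≤ P := by
    by_contra hn
    have le1 : (E₀ :^ x ⊔ W) ⊔ P ≤ E₀ ⊔ P := sup_le (sup_le l1 (W0.trans le_sup_left)) le_sup_right
    have := hmin _ ⟨_, m2, hn, rfl⟩ (le1.trans (sup_le_sup_right h0 _))
    have h1 : E ≤ E₀ ⊔ P := le_sup_left.trans (this ▸ le1)
    have h2 := eq_sup_inf_of_le (Or.inl ((h0.trans EM).trans nP)) h0 h1
    exact mx.1.ne' (h2.trans (sup_eq_left.2 hP0))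
  have E0P : E₀ ≤ P := (conjg_le_iff_of_mem_norm (nP xM)).1 (le_sup_left.trans E2P)
  have WP : W ≤ P := le_sup_right.trans E2P
  have cj : ∀ y ∈ M, W :^ y ≤ P := fun y hy => conjg_le_of_mem_norm WP (nP hy)
  have aV : IsElementaryAbelian q (ncl W M) := by
    rw [ncl, iSup_subtype']
    refine abelem_iSup (fun y => abelem_conjg.2 aW) fun y z => ?_
    have b : ∀ y ∈ M, P ≤ B :^ y := fun y hy =>
      (conjg_of_mem_norm (nP hy)).ge.trans (conjg_mono y PB)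
    exact (g.conj z).comm hq (g.conj y) ((cj _ z.2).trans (b _ y.2)) ((cj _ y.2).trans (b _ z.2))
      (abelem_conjg.2 aW) (abelem_conjg.2 aW)
  have VP : ncl W M ≤ P := iSup₂_le cj
  have cV : ncl W M ≤ 𝒞(E₀) := iSup₂_le fun y hy => le_cent_symm (by
    rw [← conjg_cent]
    exact le_conjg_iff.2 (near _ ((conjg_le_of_mem_norm E0P (nP (M.inv_mem hy))).trans PB)))
  refine EP (am_last gm hp p2 hq pA nM pM sol BM qB nB cB (VP.trans (pcore_le _ _))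
    (sup_le (ncl_norm W M) (norm_ncl nWA nM)) aV
    ((inf_le_inf_left _ (cent_anti (le_ncl' W M))).trans cW) hE.1 hE.2.1 ?_)
  have e1 := card_sup_mul_card_inf (Or.inl (norm_of_cent cV))
  have e2 := card_inf_mul_relIndex (𝒞(E)) (ncl W M)
  have h3 := hE.2.2 _ (sup_le (VP.trans PB) (h0.trans hE.1)) (abelem_sup aV a0 cV)
  have h4 : Nat.card (ncl W M ⊓ E₀ : Subgroup X) ≤ Nat.card (𝒞(E) ⊓ ncl W M : Subgroup X) :=
    Subgroup.card_le_of_le (le_inf ((inf_le_right.trans h0).trans (abelian_iff_le_cent.1 hE.2.1.1))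
      inf_le_left)
  have p1 : 0 < Nat.card (𝒞(E) ⊓ ncl W M : Subgroup X) := Nat.card_pos
  have p2 : 0 < Nat.card E₀ := Nat.card_pos
  refine Nat.le_of_mul_le_mul_left ?_ (Nat.mul_pos p1 p2)
  calc _ = Nat.card (𝒞(E) ⊓ ncl W M : Subgroup X) * (𝒞(E)).relIndex (ncl W M) * Nat.card E₀ := by ring
    _ = _ * _ := by rw [e2, ← e1]
    _ ≤ (q * Nat.card E₀) * Nat.card (𝒞(E) ⊓ ncl W M : Subgroup X) := Nat.mul_le_mul (card0 ▸ h3) h4
    _ = _ := by ring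

theorem pc_two (gm : ∀ (Y : Type u) [Group Y] [Finite Y], GoodMin Y) (hp : p.Prime) (p2 : p ≠ 2)
    (hq : q.Prime) {A M₁ M₂ : Subgroup X} (pA : IsPGrp p A) (n₁ : A ≤ 𝒩(M₁)) (n₂ : A ≤ 𝒩(M₂))
    (c₁ : IsPiGrp {p}ᶜ M₁) (c₂ : IsPiGrp {p}ᶜ M₂) (s₁ : Group.IsSolvable M₁) (s₂ : Group.IsSolvable M₂)
    (o₁ : pPrimeCoreOf q M₁ = ⊥) (o₂ : pPrimeCoreOf q M₂ = ⊥)
    (hC₁ : M₁ ⊓ 𝒞(A) ≤ M₂) (hC₂ : M₂ ⊓ 𝒞(A) ≤ M₁) (hP : pCoreOf q M₂ ≤ M₁)
    (H1 : ∀ U : Subgroup X, U ≠ ⊥ → A ≤ 𝒩(U) → M₁ ⊓ 𝒞(A) ≤ 𝒩(U) → U ≤ pCoreOf q M₁ ⊔ pCoreOf q M₂ →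
      (M₁ ≤ 𝒩(U) ∨ pCoreOf q M₁ ⊓ M₂ < pCoreOf q M₁ ⊓ 𝒩(U)) → M₂ ⊓ 𝒩(U) ≤ M₁)
    (H2 : ∀ U : Subgroup X, U ≠ ⊥ → A ≤ 𝒩(U) → U ≤ pCoreOf q M₂ → M₂ ≤ 𝒩(U) → M₁ ⊓ 𝒩(U) ≤ M₂) :
    M₂ ≤ M₁ := by
  by_contra hc
  have P2 : pCoreOf q M₂ ≠ ⊥ := by
    rw [← Fitting_eq_pcore o₂]
    exact fitting_ne_bot s₂ fun e => hc (e ▸ bot_le)
  have P1 : pCoreOf q M₁ ≠ ⊥ := by
    rw [← Fitting_eq_pcore o₁]
    exact fitting_ne_bot s₁ (ne_bot_mono hP P2)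
  have exY : ∀ M : Subgroup X, A ≤ 𝒩(M) → pCoreOf q M ≠ ⊥ →
      ∃ Y, Y ≤ pCoreOf q M ∧ MinNormal Y (M ⊔ A) ∧ IsElementaryAbelian q Y := fun M n h0 => by
    have ch := (charIn_ohm1 q _).trans ((charIn_center _).trans (charIn_pcore {q} M))
    obtain ⟨Y, h1, h2⟩ := minNormal_exists (A := M ⊔ A)
      (ohm1_ne_bot ((pcore_pGrp q M).inf_left _) (center_nil_ne_bot (pcore_pGrp q M).nil h0))
      (ch.norm (sup_le Subgroup.le_normalizer n))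
    exact ⟨Y, h1.trans ((ohm1_le _ _).trans inf_le_left), h2, abelem_of_le (ohm1_center_abelem _ _) h1⟩
  obtain ⟨Y₁, Y1P, m₁, a₁⟩ := exY M₁ n₁ P1
  obtain ⟨Y₂, Y2P, m₂, a₂⟩ := exY M₂ n₂ P2
  have np₁ := pcore_norm {q} M₁
  have np₂ := pcore_norm {q} M₂
  have l₁ := pcore_le {q} M₁
  have l₂ := pcore_le {q} M₂
  have q₁ := pcore_pGrp q M₁
  have q₂ := pcore_pGrp q M₂
  have nA₁ : A ≤ 𝒩(pCoreOf q M₁) := norm_pcore _ n₁
  have nA₂ : A ≤ 𝒩(pCoreOf q M₂) := norm_pcore _ n₂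
  set P₁ := pCoreOf q M₁ with hP₁
  set P₂ := pCoreOf q M₂ with hP₂
  have qS : IsPGrp q (P₁ ⊔ P₂) := q₁.sup q₂ (Or.inr (hP.trans np₁))
  have SM : P₁ ⊔ P₂ ≤ M₁ := sup_le l₁ hP
  set B := (P₁ ⊔ P₂) ⊓ M₂ with hB
  have BM₁ : B ≤ M₁ := inf_le_left.trans SM
  have BM₂ : B ≤ M₂ := inf_le_right
  have P2B : P₂ ≤ B := le_inf le_sup_right l₂
  have qB : IsPGrp q B := qS.inf_left _
  have nS : M₁ ⊓ M₂ ≤ 𝒩(P₁ ⊔ P₂) := norm_sup (inf_le_left.trans np₁) (inf_le_right.trans np₂)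
  have nB : M₁ ⊓ M₂ ≤ 𝒩(B) := norm_inf nS (norm_of_le inf_le_right)
  have nBA : A ≤ 𝒩(B) := norm_inf (norm_sup nA₁ nA₂) n₂
  have cB₁ : M₁ ⊓ 𝒞(A) ≤ M₁ ⊓ M₂ := le_inf inf_le_left hC₁
  have cB₂ : M₂ ⊓ 𝒞(A) ≤ M₁ ⊓ M₂ := le_inf hC₂ inf_le_left
  have nY₁ : M₁ ≤ 𝒩(Y₁) := le_sup_left.trans m₁.norm
  have nY₂ : M₂ ≤ 𝒩(Y₂) := le_sup_left.trans m₂.norm
  have nY₁A : A ≤ 𝒩(Y₁) := le_sup_right.trans m₁.norm
  have nY₂A : A ≤ 𝒩(Y₂) := le_sup_right.trans m₂.norm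
  have g₁ : Good q Y₁ B := gm _ hp p2 hq pA n₁ c₁ s₁ (Y1P.trans l₁) m₁ a₁ BM₁ qB nBA (cB₁.trans nB)
  have g₂ : Good q Y₂ B := gm _ hp p2 hq pA n₂ c₂ s₂ (Y2P.trans l₂) m₂ a₂ BM₂ qB nBA (cB₂.trans nB)
  have J0 : JE q B ≠ ⊥ := JE_ne_bot qB (ne_bot_mono P2B P2)
  by_cases h12 : P₁ ≤ M₂
  · have P1B : P₁ ≤ B := le_inf le_sup_left h12
    have k₁ : ∀ E, MaxE q B E → E ≤ P₁ := fun E hE =>
      am gm hp p2 hq pA n₁ c₁ s₁ o₁ P1B BM₁ qB nBA (cB₁.trans nB) (Y2P.trans P2B) (BM₂.trans nY₂) a₂ nY₂A g₂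
        ((le_inf inf_le_left ((inf_le_inf_left _ (cent_le_norm _)).trans
          (H2 Y₂ m₂.ne_bot nY₂A Y2P nY₂))).trans nB) hE
    have k₂ : ∀ E, MaxE q B E → E ≤ P₂ := fun E hE =>
      am gm hp p2 hq pA n₂ c₂ s₂ o₂ P2B BM₂ qB nBA (cB₂.trans nB) (Y1P.trans P1B) (BM₁.trans nY₁) a₁ nY₁A g₁
        ((le_inf ((inf_le_inf_left _ (cent_le_norm _)).trans
          (H1 Y₁ m₁.ne_bot nY₁A (inf_le_left.trans nY₁) (Y1P.trans le_sup_left) (Or.inl nY₁)))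
          inf_le_left).trans nB) hE
    have j₁ : M₁ ≤ 𝒩(JE q B) := JE_eq P1B k₁ ▸ norm_JE q np₁
    have j₂ : M₂ ≤ 𝒩(JE q B) := JE_eq P2B k₂ ▸ norm_JE q np₂
    exact hc ((le_inf le_rfl j₂).trans (H1 _ J0 (norm_JE q nBA) (inf_le_left.trans j₁)
      (iSup₂_le fun E hE => hE.1.trans inf_le_left) (Or.inl j₁)))
  have lt : B < (P₁ ⊔ P₂) ⊓ 𝒩(B) :=
    nilpotent_proper_norm qS.nil (inf_lt_left.2 fun h => h12 (le_sup_left.trans h))
  set N := (P₁ ⊔ P₂) ⊓ 𝒩(B) with hN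
  have NM : ¬ N ≤ M₂ := fun h => lt.not_ge (le_inf inf_le_left h)
  have cj : ∀ y ∈ N, Y₂ :^ y ≤ B := fun y hy => conjg_le_of_mem_norm (Y2P.trans P2B) hy.2
  have gj : ∀ y ∈ N, Good q (Y₂ :^ y) B := fun y hy => by
    have := g₂.conj y
    rwa [conjg_of_mem_norm hy.2] at this
  have aW : IsElementaryAbelian q (ncl Y₂ N) := by
    rw [ncl, iSup_subtype']
    exact abelem_iSup (fun y => abelem_conjg.2 a₂) fun y z =>
      (gj _ z.2).comm hq (gj _ y.2) (cj _ z.2) (cj _ y.2) (abelem_conjg.2 a₂) (abelem_conjg.2 a₂)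
  have gW : Good q (ncl Y₂ N) B := by
    rw [ncl, iSup_subtype']
    exact good_iSup hq fun y => gj _ y.2
  have WB : ncl Y₂ N ≤ B := iSup₂_le cj
  have nWA : A ≤ 𝒩(ncl Y₂ N) := norm_ncl nY₂A (norm_inf (norm_sup nA₁ nA₂) (norm_norm nBA))
  have k : M₂ ⊓ 𝒩(ncl Y₂ N) ≤ M₁ := by
    refine H1 _ (ne_bot_mono (le_ncl' _ _) m₂.ne_bot) nWA
      (cB₁.trans (norm_ncl (inf_le_right.trans nY₂) (norm_inf nS (norm_norm nB))))
      (WB.trans inf_le_left) (Or.inr (lt_of_le_of_ne (le_inf inf_le_left ?_) fun e => NM ?_))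
    · exact ((inf_le_inf_right _ le_sup_left).trans lt.le).trans (ncl_norm _ _)
    · have h1 : N ⊓ (P₁ ⊔ P₂) = (N ⊓ P₁) ⊔ P₂ :=
        inf_sup_of_right_le (Or.inr (hP.trans np₁)) (P2B.trans lt.le)
      refine ((le_inf le_rfl inf_le_left).trans h1.le).trans ?_
      exact sup_le (((le_inf inf_le_right (inf_le_left.trans (ncl_norm _ _))).trans e.ge).trans inf_le_right) l₂
  have k₂ : ∀ E, MaxE q B E → E ≤ P₂ := fun E hE =>
    am gm hp p2 hq pA n₂ c₂ s₂ o₂ P2B BM₂ qB nBA (cB₂.trans nB) WB (lt.le.trans (ncl_norm _ _)) aW nWA gW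
      ((le_inf ((inf_le_inf_left _ (cent_le_norm _)).trans k) inf_le_left).trans nB) hE
  have j₂ : M₂ ≤ 𝒩(JE q B) := JE_eq P2B k₂ ▸ norm_JE q np₂
  exact NM ((le_inf (inf_le_left.trans SM) (norm_JE q inf_le_right)).trans
    (H2 _ J0 (norm_JE q nBA) (iSup₂_le k₂) j₂))

theorem realizeEqns_SigAM1 : True := by
  have := @CA.Sig.ncl.eq_1.{0}
  have := @CA.Sig.ncl.eq_def.{0}
  have := @CA.Sig.ncl.congr_simp.{0}
  have := @CA.Sig.JE.eq_1.{0}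
  have := @CA.Sig.JE.eq_def.{0}
  have := @CA.Sig.JE.congr_simp.{0}
  have := @CA.Sig.MaxE.eq_1.{0}
  have := @CA.Sig.MaxE.eq_def.{0}
  have := @CA.Sig.MaxE.congr_simp.{0}
  trivial

end CA.Sig
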