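/-
The solvable signalizer functor theorem from the module theoretic input.
Owner: helper1.
-/
import Cfsg.Agent.Sig.AM1
import Cfsg.Agent.Sig.Bad
import Cfsg.Agent.FT

set_option autoImplicit false

namespace CA.Sig

open Cfsg CA.FG CA.BG

universe u

theorem pcTwo_of (gm : ∀ (Y : Type u) [Group Y] [Finite Y], GoodMin Y) (X : Type u) [Group X] [Finite X] :
    PCTwo X := fun hp p2 hq _ _ _ pA n₁ n₂ c₁ c₂ s₁ s₂ o₁ o₂ hC₁ hC₂ hP H1 H2 =>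
  pc_two gm hp p2 hq pA n₁ n₂ c₁ c₂ s₁ s₂ o₁ o₂ hC₁ hC₂ hP H1 H2

theorem s0515_of (gm : ∀ (Y : Type u) [Group Y] [Finite Y], GoodMin Y) {X : Type u} [Group X] [Finite X]
    (p : ℕ) (hp : p.Prime) (A K : Subgroup X) (hA : IsMulCommutative A) (hAp : ∀ a ∈ A, a ^ p = 1)
    (hA3 : p ^ 3 ≤ Nat.card A) (hK : (Nat.card K).Coprime p) (hAK : A ≤ 𝒩(K))
    (hC : ∀ a ∈ A, a ≠ 1 → Group.IsSolvable (K ⊓ 𝒞[a] : Subgroup X)) : Group.IsSolvable K := by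
  by_cases p2 : p = 2
  · subst p2
    exact CA.FT.odd_sol (Nat.coprime_two_right.1 hK)
  · exact sol_of_pc (pcTwo_of gm) hp p2 ⟨hA, hAp⟩ hA3 hK hAK hC

end CA.Sig
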