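/-
Tools for the bound `|V : C_V(b)| ≥ q ^ 3` under a coprime operator group.
Owner: helper7.
-/
import Cfsg.Agent.Dih.Act
import Cfsg.Agent.BG.P03b

set_option autoImplicit false
set_option linter.unusedSectionVars false

namespace CA.Sig.MT

open Subgroup Cfsg CA.FG CA.BG
open scoped commutatorElement

universe u

variable {G : Type u} [Group G] [Finite G] {p q r : ℕ}

/-! ### index of the centralizer of an element -/

theorem ci_mono {U V : Subgroup G} (x : G) (h : U ≤ V) : (𝒞[x]).relIndex U ≤ (𝒞[x]).relIndex V :=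
  relIndex_le_of_le_right h (relIndex_pos _ _).ne'

theorem ci_of_inf {W : Subgroup G} {x : G} (h : W ⊓ 𝒞[x] = ⊥) : (𝒞[x]).relIndex W = Nat.card W := by
  have := card_inf_mul_relIndex (𝒞[x]) W
  rwa [inf_comm, h, card_bot, one_mul] at this

theorem ci_conj {U : Subgroup G} (x : G) {y : G} (hy : y ∈ 𝒩(U)) :
    (𝒞[y * x * y⁻¹]).relIndex U = (𝒞[x]).relIndex U := by
  rw [← conjg_cent1]
  conv_lhs => rw [← conjg_of_mem_norm hy]
  rw [relIndex_conjg]

theorem ci_comm {U : Subgroup G} (x : G) {y : G} (hy : y ∈ 𝒩(U)) :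
    (𝒞[⁅y, x⁆]).relIndex U ≤ (𝒞[x]).relIndex U ^ 2 := by
  have h1 : 𝒞[y * x * y⁻¹] ⊓ 𝒞[x] ≤ 𝒞[⁅y, x⁆] := by
    rintro v ⟨h1, h2⟩
    have a1 : Commute v (y * x * y⁻¹) := mem_centralizer_singleton_iff.1 h1
    have a2 : Commute v x := mem_centralizer_singleton_iff.1 h2
    exact mem_centralizer_singleton_iff.2 (a1.mul_right a2.inv_right)
  calc _ ≤ (𝒞[y * x * y⁻¹] ⊓ 𝒞[x]).relIndex U := relIndex_le_of_le_left h1 (relIndex_pos _ _).ne'
    _ ≤ _ := relIndex_inf_le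
    _ = _ := by rw [ci_conj x hy, sq]

theorem ci_mul {U W V : Subgroup G} {x : G} (cV : IsMulCommutative V) (h1 : U ≤ V) (h2 : W ≤ V)
    (n1 : x ∈ 𝒩(U)) (n2 : x ∈ 𝒩(W)) (d : U ⊓ W = ⊥) :
    (𝒞[x]).relIndex U * (𝒞[x]).relIndex W ≤ (𝒞[x]).relIndex V := by
  have c := abelian_iff_forall.1 cV
  have nUW : U ≤ 𝒩(W) := h1.trans (norm_of_le_abelian cV h2)
  have e : 𝒞[x] ⊓ (U ⊔ W) = (𝒞[x] ⊓ U) ⊔ (𝒞[x] ⊓ W) := by
    refine le_antisymm ?_ (sup_le (inf_le_inf_left _ le_sup_left) (inf_le_inf_left _ le_sup_right))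
    rintro v ⟨hv, hv'⟩
    obtain ⟨a, ha, b, hb, rfl⟩ := (mem_sup_of_left_le_norm nUW).1 hv'
    have e1 : a * b * x = x * (a * b) := mem_centralizer_singleton_iff.1 hv
    have m1 : a⁻¹ * (x * a * x⁻¹) ∈ U := mul_mem (inv_mem ha) (conj_mem_of_mem_norm n1 ha)
    have m2 : b * (x * b * x⁻¹)⁻¹ ∈ W := mul_mem hb (inv_mem (conj_mem_of_mem_norm n2 hb))
    have e2 : a⁻¹ * (x * a * x⁻¹) = b * (x * b * x⁻¹)⁻¹ := by
      calc _ = a⁻¹ * (x * (a * b)) * b⁻¹ * x⁻¹ := by group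
        _ = _ := by rw [← e1]; group
    have e3 : a⁻¹ * (x * a * x⁻¹) = 1 := by
      have : a⁻¹ * (x * a * x⁻¹) ∈ U ⊓ W := ⟨m1, e2 ▸ m2⟩
      rwa [d] at this
    have ca : a ∈ 𝒞[x] := mem_centralizer_singleton_iff.2 (by
      calc a * x = a * (a⁻¹ * (x * a * x⁻¹)) * x := by rw [e3, mul_one]
        _ = x * a := by group)
    have cb : b ∈ 𝒞[x] := by simpa using mul_mem (inv_mem ca) hv
    exact mul_mem_sup ⟨ca, ha⟩ ⟨cb, hb⟩
  have k1 := card_inf_mul_relIndex (𝒞[x]) (U ⊔ W)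
  have k2 := card_inf_mul_relIndex (𝒞[x]) U
  have k3 := card_inf_mul_relIndex (𝒞[x]) W
  rw [e, card_sup_of_inf_eq_bot (Or.inl nUW) d, card_sup_of_inf_eq_bot (Or.inl
    ((inf_le_right.trans h1).trans (norm_of_le_abelian cV (inf_le_right.trans h2))))
    (le_bot_iff.1 ((inf_le_inf inf_le_right inf_le_right).trans d.le)), ← k2, ← k3] at k1
  refine le_trans (le_of_eq ?_) (ci_mono x (sup_le h1 h2))
  have p1 : 0 < Nat.card (𝒞[x] ⊓ U : Subgroup G) * Nat.card (𝒞[x] ⊓ W : Subgroup G) :=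
    Nat.mul_pos Nat.card_pos Nat.card_pos
  refine Nat.eq_of_mul_eq_mul_left p1 ?_
  rw [k1]; ring

theorem card_mul_le {U W V : Subgroup G} (cV : IsMulCommutative V) (h1 : U ≤ V) (h2 : W ≤ V)
    (d : U ⊓ W = ⊥) : Nat.card U * Nat.card W ≤ Nat.card V := by
  rw [← card_sup_of_inf_eq_bot (Or.inl (h1.trans (norm_of_le_abelian cV h2))) d]
  exact card_le_of_le (sup_le h1 h2)

theorem ci_pow (hq : q.Prime) {U : Subgroup G} (qU : IsPGrp q U) (x : G) :
    ∃ k, (𝒞[x]).relIndex U = q ^ k :=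
  (piNat_singleton_iff hq (relIndex_pos _ _).ne').1 (qU.relIndex _)

theorem ci_ge (hq : q.Prime) {U : Subgroup G} (qU : IsPGrp q U) {x : G} (h : x ∉ 𝒞(U)) :
    q ≤ (𝒞[x]).relIndex U := by
  obtain ⟨k, hk⟩ := ci_pow hq qU x
  rcases k with _ | k
  · exact absurd (mem_cent_iff_le_cent_singleton.2 (relIndex_eq_one.1 (by simpa using hk))) h
  · rw [hk]; exact Nat.le_self_pow (by omega) q

theorem ci_le (hq : q.Prime) {U : Subgroup G} (qU : IsPGrp q U) {x : G}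
    (h : (𝒞[x]).relIndex U < q ^ 3) : (𝒞[x]).relIndex U ≤ q ^ 2 := by
  obtain ⟨k, hk⟩ := ci_pow hq qU x
  rw [hk] at h ⊢
  exact Nat.pow_le_pow_right hq.pos (by have := (Nat.pow_lt_pow_iff_right hq.one_lt).1 h; omega)

/-! ### independence -/

theorem ind_le {V W B : Subgroup G} (h : W ≤ V) (cV : IsMulCommutative V) (n : B ≤ 𝒩(W))
    (co : (Nat.card V).Coprime (Nat.card B)) (d : W ⊓ 𝒞(B) = ⊥) : W ≤ ⁅V, B⁆ := by
  have := coprime_cent_prod n (co.coprime_dvd_left (card_dvd_of_le h))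
    (Or.inl (sol_of_abelian (abelian_of_le cV h)))
  rw [d, sup_bot_eq] at this
  exact this.ge.trans (commutator_mono h le_rfl)

theorem ind_inf {V W W' B : Subgroup G} (cV : IsMulCommutative V) (n : B ≤ 𝒩(V))
    (co : (Nat.card V).Coprime (Nat.card B)) (h : W ≤ 𝒞(B)) (h' : W' ≤ ⁅V, B⁆) : W ⊓ W' = ⊥ :=
  le_bot_iff.1 ((le_inf (inf_le_right.trans h') (inf_le_left.trans h)).trans
    (coprime_abel_cent_TI n co cV).le)

/-! ### centralizers modulo a subgroup -/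

/-- the elements of `K` centralizing `S` modulo `H` -/
def cmod (K H S : Subgroup G) : Subgroup G := closure {x | x ∈ K ∧ ∀ y ∈ S, ⁅x, y⁆ ∈ H}

theorem mem_cmod {K H S : Subgroup G} (n : K ≤ 𝒩(H)) {x : G} :
    x ∈ cmod K H S ↔ x ∈ K ∧ ∀ y ∈ S, ⁅x, y⁆ ∈ H := by
  refine ⟨fun h => ?_, fun h => subset_closure h⟩
  induction h using closure_induction with
  | mem x hx => exact hx
  | one => exact ⟨one_mem _, fun y _ => by simp [one_mem]⟩
  | mul a b _ _ ha hb =>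
    refine ⟨mul_mem ha.1 hb.1, fun y hy => ?_⟩
    have := mul_mem (conj_mem_of_le_norm n ha.1 (hb.2 y hy)) (ha.2 y hy)
    convert this using 1
    simp only [commutatorElement_def]; group
  | inv a _ ha =>
    refine ⟨inv_mem ha.1, fun y hy => ?_⟩
    have := conj_mem_of_le_norm' n ha.1 (inv_mem (ha.2 y hy))
    convert this using 1
    simp only [commutatorElement_def]; group

theorem cmod_le (K H S : Subgroup G) : cmod K H S ≤ K := (closure_le _).2 fun _ h => h.1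

theorem le_cmod {K H S L : Subgroup G} (h1 : L ≤ K) (h2 : ⁅L, S⁆ ≤ H) : L ≤ cmod K H S :=
  fun _ hx => subset_closure ⟨h1 hx, fun _ hy => h2 (commutator_mem_commutator hx hy)⟩

theorem cmod_comm {K H S : Subgroup G} (n : K ≤ 𝒩(H)) : ⁅cmod K H S, S⁆ ≤ H :=
  commutator_le.2 fun _ hx y hy => ((mem_cmod n).1 hx).2 y hy

theorem cmod_conj (K H S : Subgroup G) (g : G) :
    cmod K H S :^ g = cmod (K :^ g) (H :^ g) (S :^ g) := by
  have key : ∀ (K H S : Subgroup G) (g : G), cmod K H S :^ g ≤ cmod (K :^ g) (H :^ g) (S :^ g) := by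
    intro K H S g
    rw [cmod, conjg_closure]
    refine closure_mono ?_
    rintro _ ⟨x, hx, rfl⟩
    refine ⟨conj_mem_conjg g hx.1, fun y hy => ?_⟩
    obtain ⟨y, hy', rfl⟩ := mem_conjg'.1 hy
    rw [← conjugate_commutatorElement]
    exact conj_mem_conjg g (hx.2 y hy')
  refine le_antisymm (key _ _ _ _) ?_
  have := key (K :^ g) (H :^ g) (S :^ g) g⁻¹
  simp only [conjg_inv_cancel] at this
  exact le_conjg_iff.2 this

theorem norm_cmod {K H S A : Subgroup G} (h1 : A ≤ 𝒩(K)) (h2 : A ≤ 𝒩(H)) (h3 : A ≤ 𝒩(S)) :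
    A ≤ 𝒩(cmod K H S) := fun a ha => conjg_eq_self_iff.1 (by
  rw [cmod_conj, conjg_of_mem_norm (h1 ha), conjg_of_mem_norm (h2 ha), conjg_of_mem_norm (h3 ha)])

theorem mem_cmod_zp {K H : Subgroup G} (n : K ≤ 𝒩(H)) {b : G} (nb : b ∈ 𝒩(H)) {x : G} :
    x ∈ cmod K H (zpowers b) ↔ x ∈ K ∧ ⁅x, b⁆ ∈ H := by
  rw [mem_cmod n]
  refine and_congr_right fun hx => ⟨fun h => h b (mem_zpowers b), fun h y hy => ?_⟩
  have : y ∈ closure {y | y ∈ 𝒩(H) ∧ ⁅x, y⁆ ∈ H} :=
    zpowers_le.2 (Subgroup.subset_closure (k := {y | y ∈ 𝒩(H) ∧ ⁅x, y⁆ ∈ H}) ⟨nb, h⟩) hy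
  clear hy
  suffices y ∈ 𝒩(H) ∧ ⁅x, y⁆ ∈ H from this.2
  induction this using closure_induction with
  | mem x hx => exact hx
  | one => exact ⟨one_mem _, by simp [one_mem]⟩
  | mul a b _ _ ha hb =>
    refine ⟨mul_mem ha.1 hb.1, ?_⟩
    have := mul_mem ha.2 (conj_mem_of_mem_norm ha.1 hb.2)
    convert this using 1
    simp only [commutatorElement_def]; group
  | inv a _ ha =>
    refine ⟨inv_mem ha.1, ?_⟩
    have := conj_mem_of_mem_norm' ha.1 (inv_mem ha.2)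
    convert this using 1
    simp only [commutatorElement_def]; group

/-- counting fixed points on `K / R` -/
theorem cmod_modEq (hp : p.Prime) {K R A : Subgroup G} (pA : IsPGrp p A) (h : R ⊲ K) (nK : A ≤ 𝒩(K))
    (nR : A ≤ 𝒩(R)) : R.relIndex K ≡ R.relIndex (cmod K R A) [MOD p] := by
  have h1 := P04.card_modEq_cent hp ((pA.quot R).isPGroup hp) (quot_norm R nK)
  have e : (K /ₛ R) ⊓ 𝒞(A /ₛ R) = cmod K R A /ₛ R := by
    refine le_antisymm ?_ (le_inf (quot_mono _ (cmod_le _ _ _))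
      ((quot_cent_iff ((cmod_le _ _ _).trans h.2) nR).2 (cmod_comm h.2)))
    rintro y ⟨hy, hc⟩
    obtain ⟨x, hx, rfl⟩ := mem_quot.1 hy
    refine mem_quot_of_mem x.2 (le_cmod (L := zpowers (x : G)) (zpowers_le.2 hx) ?_ (mem_zpowers _))
    rw [← quot_cent_iff (zpowers_le.2 x.2) nR, quot_zpowers]
    exact zpowers_le.2 hc
  rwa [e, card_quot h.2, card_quot ((cmod_le _ _ _).trans h.2)] at h1

theorem self_le_cmod {K R A : Subgroup G} (h : R ≤ K) (nR : A ≤ 𝒩(R)) : R ≤ cmod K R A :=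
  le_cmod h (comm_le_left nR)

/-- either `A` is trivial on `K / R`, or the number of fixed points is a proper divisor -/
theorem triv (hp : p.Prime) {K R A : Subgroup G} (pA : IsPGrp p A) (h : R ⊲ K) (nK : A ≤ 𝒩(K))
    (nR : A ≤ 𝒩(R)) : ∃ d, d ∣ R.relIndex K ∧ R.relIndex K ≡ d [MOD p] ∧
      (d = R.relIndex K → ⁅K, A⁆ ≤ R) ∧ (d = 1 → cmod K R A ≤ R) := by
  have h1 := self_le_cmod h.1 nR
  refine ⟨_, relIndex_dvd_relIndex_of_le h1 (cmod_le _ _ _), cmod_modEq hp pA h nK nR, fun e => ?_,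
    fun e => relIndex_eq_one.1 e⟩
  have h2 := relIndex_mul_relIndex R _ K h1 (cmod_le K R A)
  rw [e] at h2
  have h3 : (cmod K R A).relIndex K = 1 :=
    Nat.eq_of_mul_eq_mul_left (relIndex_pos R K) (by rw [h2, mul_one])
  exact (commutator_mono (relIndex_eq_one.1 h3) le_rfl).trans (cmod_comm h.2)

theorem comm_closure_le {K L : Subgroup G} {S : Set G} (hL : L ≤ K) (hS : ∀ s ∈ S, s ∈ 𝒩(K))
    (h : ∀ s ∈ S, ∀ x ∈ K, ⁅x, s⁆ ∈ L) : ⁅K, closure S⁆ ≤ L := by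
  refine commutator_le.2 fun x hx t ht => ?_
  suffices t ∈ 𝒩(K) ∧ ∀ x ∈ K, ⁅x, t⁆ ∈ L from this.2 x hx
  clear hx x
  induction ht using closure_induction with
  | mem x hx => exact ⟨hS x hx, h x hx⟩
  | one => exact ⟨one_mem _, fun y _ => by simp [one_mem]⟩
  | mul a b _ _ ha hb =>
    refine ⟨mul_mem ha.1 hb.1, fun y hy => ?_⟩
    have := mul_mem (ha.2 y hy) (mul_mem (inv_mem (ha.2 _ (hL (hb.2 y hy)))) (hb.2 y hy))
    convert this using 1
    simp only [commutatorElement_def]; group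
  | inv a _ ha =>
    refine ⟨inv_mem ha.1, fun y hy => ?_⟩
    have := inv_mem (ha.2 _ (conj_mem_of_mem_norm' ha.1 hy))
    convert this using 1
    simp only [commutatorElement_def]; group

/-! ### the trace lemma -/

theorem trace {K N R A B : Subgroup G} (hN : N ≤ R) (hR : R ≤ K) (dK : ⁅K, K⁆ ≤ N) (nK : A ≤ 𝒩(K))
    (nN : A ≤ 𝒩(N)) (hfix : ∀ y ∈ K, (∀ a ∈ A, y⁻¹ * (a * y * a⁻¹) ∈ N) → y ∈ N)
    (co : (Nat.card K).Coprime (Nat.card A)) {x : G} (hx : x ∈ K)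
    (h1 : ∀ a ∈ A, a ∉ B → a * x * a⁻¹ ∈ R) (h2 : ∀ a ∈ A, a ∈ B → ⁅x, a⁆ ∈ R) : x ∈ R := by
  classical
  have := Fintype.ofFinite A
  have n1 : (N.subgroupOf K).Normal := normal_subgroupOf_of_normalIn (normalIn_of_der_le dK (hN.trans hR))
  have n2 : (R.subgroupOf K).Normal := normal_subgroupOf_of_normalIn (normalIn_of_der_le (dK.trans hN) hR)
  have cc : ∀ (M : Subgroup G) [(M.subgroupOf K).Normal], ⁅K, K⁆ ≤ M →
      ∀ a b : K ⧸ M.subgroupOf K, a * b = b * a := by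
    intro M _ hM a b
    induction a using QuotientGroup.induction_on with | H a => ?_
    induction b using QuotientGroup.induction_on with | H b => ?_
    rw [← QuotientGroup.mk_mul, ← QuotientGroup.mk_mul, QuotientGroup.eq]
    have := hM (commutator_mem_commutator (inv_mem b.2) (inv_mem a.2))
    rw [mem_subgroupOf]
    convert this using 1
    simp [commutatorElement_def, mul_assoc]
  let _ : CommGroup (K ⧸ N.subgroupOf K) := { (inferInstance : Group _) with mul_comm := cc N dK }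
  let _ : CommGroup (K ⧸ R.subgroupOf K) := { (inferInstance : Group _) with mul_comm := cc R (dK.trans hN) }
  let f : A →* MulAut K := K.normalizerMonoidHom.comp (inclusion nK)
  have hf : ∀ (a : A) (y : K), ((f a y : K) : G) = a * y * (a : G)⁻¹ := fun _ _ => rfl
  let π := QuotientGroup.mk' (N.subgroupOf K)
  have ht : ∏ a : A, π (f a ⟨x, hx⟩) = 1 := by
    obtain ⟨y, hy⟩ := QuotientGroup.mk'_surjective (N.subgroupOf K) (∏ a : A, π (f a ⟨x, hx⟩))
    rw [← hy, QuotientGroup.mk'_apply, QuotientGroup.eq_one_iff, mem_subgroupOf]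
    refine hfix y y.2 fun a ha => ?_
    let c : (K ⧸ N.subgroupOf K) →* (K ⧸ N.subgroupOf K) :=
      QuotientGroup.map _ _ (f ⟨a, ha⟩).toMonoidHom fun z hz => conj_mem_of_le_norm nN ha hz
    have e1 : c (π y) = π y := by
      change c (QuotientGroup.mk' _ y) = QuotientGroup.mk' _ y
      rw [hy, map_prod]
      refine Fintype.prod_equiv (Equiv.mulLeft (⟨a, ha⟩ : A)) _ _ fun a' => ?_
      change π (f ⟨a, ha⟩ (f a' ⟨x, hx⟩)) = π (f (⟨a, ha⟩ * a') ⟨x, hx⟩)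
      rw [map_mul f, MulAut.mul_apply]
    have e2 : π y = π (f ⟨a, ha⟩ y) := e1.symm
    exact mem_subgroupOf.1 (QuotientGroup.eq.1 e2)
  let φ : (K ⧸ N.subgroupOf K) →* (K ⧸ R.subgroupOf K) :=
    QuotientGroup.map _ _ (MonoidHom.id K) fun z hz => hN hz
  have h3 := congrArg φ ht
  rw [map_prod, map_one] at h3
  have h4 : ∀ a : A, φ (π (f a ⟨x, hx⟩)) =
      if (a : G) ∈ B then QuotientGroup.mk' (R.subgroupOf K) ⟨x, hx⟩ else 1 := by
    intro a
    change QuotientGroup.mk' (R.subgroupOf K) (f a ⟨x, hx⟩) = _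
    split_ifs with h
    · refine (QuotientGroup.eq.2 ?_).symm
      have := conj_mem_of_le_norm' (norm_of_comm_le hR (dK.trans hN)) hx (inv_mem (h2 a a.2 h))
      rw [mem_subgroupOf]
      convert this using 1
      simp only [coe_mul, coe_inv, hf, commutatorElement_def]; group
    · exact (QuotientGroup.eq_one_iff _).2 (h1 a a.2 h)
  simp only [h4] at h3
  rw [Finset.prod_ite, Finset.prod_const_one, mul_one, Finset.prod_const, ← map_pow,
    QuotientGroup.mk'_apply, QuotientGroup.eq_one_iff, mem_subgroupOf] at h3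
  have h5 : (Finset.univ.filter fun a : A => (a : G) ∈ B).card = Nat.card (B.subgroupOf A) := by
    rw [← Fintype.card_subtype, Nat.card_eq_fintype_card]; rfl
  have h6 : (orderOf x).Coprime (Finset.univ.filter fun a : A => (a : G) ∈ B).card := by
    rw [h5]
    exact (co.coprime_dvd_left (orderOf_dvd_card_of_mem hx)).coprime_dvd_right (card_subgroup_dvd_card _)
  obtain ⟨m, hm⟩ := exists_pow_eq_self_of_coprime h6.symm
  rw [← hm]
  exact pow_mem h3 m

/-! ### orbits -/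

theorem dvd_ncard_conj (hp : p.Prime) {A : Subgroup G} (pA : IsPGrp p A) {S : Set G}
    (hS : ∀ a ∈ A, ∀ x ∈ S, a * x * a⁻¹ ∈ S) (hf : ∀ x ∈ S, ¬ A ≤ 𝒞[x]) : p ∣ S.ncard := by
  let i : MulAction G G := MulAction.compHom G (MulAut.conj : G →* MulAut G)
  refine @Dih.dvd_ncard_of_orbits G _ _ G i _ A S hS p fun x hx => ?_
  obtain ⟨k, hk⟩ := (piNat_singleton_iff hp (relIndex_pos _ _).ne').1
    (pA.relIndex (@MulAction.stabilizer G G _ i x))
  rcases k with _ | k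
  · refine absurd (fun a ha => ?_) (hf x hx)
    have : a * x * a⁻¹ = x := relIndex_eq_one.1 (by simpa using hk) ha
    exact mem_centralizer_singleton_iff.2 (mul_inv_eq_iff_eq_mul.1 this)
  · rw [hk]; exact dvd_pow_self p (by omega)

theorem dvd_ncard_mul {R : Subgroup G} {S : Set G} (hS : ∀ a ∈ R, ∀ x ∈ S, a * x ∈ S) :
    Nat.card R ∣ S.ncard := by
  refine Dih.dvd_ncard_of_orbits (A := R) hS fun x _ => ?_
  have : MulAction.stabilizer G x = ⊥ := (eq_bot_iff_forall _).2 fun a ha => by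
    simpa using ha
  rw [this, relIndex_bot_left]

/-- a `p`-group normalizing a `q`-group `D`: some `D`-conjugate of `H` is moved off the orbit or fixed. -/
theorem orbit_fix (hp : p.Prime) (hq : q.Prime) (pq : p ≠ q) {D A : Subgroup G} (qD : IsPGrp q D)
    (pA : IsPGrp p A) (n : A ≤ 𝒩(D)) (H : Subgroup G) :
    ∃ d ∈ D, ∀ a ∈ A, ∀ e ∈ D, (H :^ d) :^ a = H :^ e → a ∈ 𝒩(H :^ d) := by
  let _ : MulAction G (Subgroup G) :=
    { smul := fun g X => X :^ g
      one_smul := fun X => conjg_of_mem (one_mem _)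
      mul_smul := fun a b X => conjg_mul X b a }
  by_contra hc
  push Not at hc
  have nD : (D ⊔ A) ⊓ 𝒩(H) ≤ 𝒩(D) := inf_le_left.trans (sup_le le_normalizer n)
  have h1 : p ∣ (MulAction.orbit D H).ncard := by
    refine Dih.dvd_ncard_of_orbits (A := A ⊓ (D ⊔ (D ⊔ A) ⊓ 𝒩(H))) ?_ ?_
    · rintro a ⟨-, ha⟩ _ ⟨d, rfl⟩
      obtain ⟨e, he, s, hs, rfl⟩ := (mem_sup_of_right_le_norm nD).1 ha
      refine ⟨⟨e * (s * d * s⁻¹), mul_mem he (conj_mem_of_le_norm nD hs d.2)⟩, ?_⟩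
      change H :^ (e * (s * d * s⁻¹)) = (H :^ d) :^ (e * s)
      rw [← conjg_mul, conjg_eq_conjg_iff]
      have : (e * s * d)⁻¹ * (e * (s * d * s⁻¹)) = s⁻¹ := by group
      rw [this]
      exact inv_mem hs.2
    · rintro _ ⟨d, rfl⟩
      obtain ⟨a, ha, e, he, h1, h2⟩ := hc d d.2
      obtain ⟨k, hk⟩ := (piNat_singleton_iff hp (relIndex_pos _ _).ne').1
        ((pA.inf_left (D ⊔ (D ⊔ A) ⊓ 𝒩(H))).relIndex (MulAction.stabilizer G (d • H)))
      rcases k with _ | k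
      · refine absurd (conjg_eq_self_iff.1 (relIndex_eq_one.1 (hk.trans (pow_zero p))
          (show a ∈ A ⊓ (D ⊔ (D ⊔ A) ⊓ 𝒩(H)) from ⟨ha, ?_⟩))) h2
        rw [← conjg_mul, conjg_eq_conjg_iff] at h1
        have h3 : e⁻¹ * (a * d) ∈ (D ⊔ A) ⊓ 𝒩(H) := ⟨mul_mem (mem_sup_left (inv_mem he))
          (mul_mem (mem_sup_right ha) (mem_sup_left d.2)), h1⟩
        have := mul_mem (mul_mem (mem_sup_left he) (mem_sup_right h3))
          (mem_sup_left (T := (D ⊔ A) ⊓ 𝒩(H)) (inv_mem d.2))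
        rwa [show e * (e⁻¹ * (a * d)) * (d : G)⁻¹ = a by group] at this
      · rw [hk]; exact dvd_pow_self p (by omega)
  rw [Dih.ncard_orbit] at h1
  exact pq (qD.relIndex _ p hp h1)

theorem realizeEqns_Sig_MT1 : True := by
  have := @CA.Sig.MT.cmod.eq_1.{0}
  have := @CA.Sig.MT.cmod.eq_def.{0}
  have := @CA.Sig.MT.cmod.congr_simp.{0}
  trivial

end CA.Sig.MT
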