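/-
The bound `|V : C_V(b)| ≥ q ^ 3`: components, and the abelian case.
Owner: helper7.
-/
import Cfsg.Agent.Sig.MT1

set_option autoImplicit false
set_option linter.unusedSectionVars false

namespace CA.Sig.MT

open Subgroup Cfsg CA.FG CA.BG
open scoped commutatorElement

universe u

variable {G : Type u} [Group G] [Finite G] {p q r : ℕ}

/-- hyperplanes of `Z` with fixed points on `V` -/
structure Lm (r : ℕ) (V Z H : Subgroup G) : Prop where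
  le : H ≤ Z
  idx : H.relIndex Z = r
  ne : V ⊓ 𝒞(H) ≠ ⊥

/-- an elementary abelian `r`-group acting faithfully and without fixed points -/
structure St (q r : ℕ) (V Z : Subgroup G) : Prop where
  hq : q.Prime
  hr : r.Prime
  qr : q ≠ r
  eV : IsElementaryAbelian q V
  eZ : IsElementaryAbelian r Z
  nV : Z ≤ 𝒩(V)
  fix : V ⊓ 𝒞(Z) = ⊥
  fa : Z ⊓ 𝒞(V) = ⊥

variable {V Z H H' H'' : Subgroup G}

theorem Lm.conj (h : Lm r V Z H) {g : G} (h1 : g ∈ 𝒩(V)) (h2 : g ∈ 𝒩(Z)) : Lm r V Z (H :^ g) := by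
  refine ⟨conjg_le_of_mem_norm h.le h2, ?_, ?_⟩
  · rw [← h.idx, ← relIndex_conjg H Z g, conjg_of_mem_norm h2]
  · rw [← conjg_of_mem_norm h1, ← conjg_cent, ← conjg_inf, Ne, conjg_eq_bot]
    exact h.ne

theorem sup_eq_of_idx (hr : r.Prime) (h : H ≤ Z) (hi : H.relIndex Z = r) {L : Subgroup G} (hL : L ≤ Z)
    (hn : ¬ L ≤ H) : H ⊔ L = Z := by
  have := maximalIn_of_index_prime h (hi ▸ hr)
  by_contra hc
  exact hn (le_sup_right.trans (this.2 _ le_sup_left (lt_of_le_of_ne (sup_le h hL) hc)).le)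

theorem Lm.not_le (hr : r.Prime) (h : Lm r V Z H) (h' : Lm r V Z H') (ne : H' ≠ H) : ¬ H' ≤ H := fun hc => by
  have := maximalIn_of_index_prime h'.le (h'.idx ▸ hr)
  have h1 := maximalIn_of_index_prime h.le (h.idx ▸ hr)
  exact ne (this.2 _ hc h1.1).symm

namespace St

variable (s : St q r V Z)
include s

theorem qV : IsPGrp q V := abelem_pGrp s.hq s.eV

theorem rZ : IsPGrp r Z := abelem_pGrp s.hr s.eZ

theorem co {B : Subgroup G} (h : IsPGrp r B) : (Nat.card V).Coprime (Nat.card B) :=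
  s.qV.coprime_of_ne h s.qr

theorem nVH (h : H ≤ Z) : Z ≤ 𝒩(V ⊓ 𝒞(H)) := norm_inf s.nV (norm_cent (norm_of_le_abelian s.eZ.1 h))

theorem exists_lm {z : G} (hz : z ∈ Z) (h1 : z ≠ 1) : ∃ H, Lm r V Z H ∧ z ∉ H := by
  by_contra hc
  push Not at hc
  have : V ≤ 𝒞[z] := coprime_abelem_gen_cent_le s.hr s.eZ (ne_bot_of_mem hz h1) s.nV (s.co s.rZ)
    fun B hB hi => by
      by_cases h0 : V ⊓ 𝒞(B) = ⊥
      · rw [h0]; exact bot_le
      · exact inf_le_right.trans (cent_le_cent_singleton (hc B ⟨hB, hi, h0⟩))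
  have h2 : z ∈ Z ⊓ 𝒞(V) := ⟨hz, mem_cent_iff_le_cent_singleton.2 this⟩
  rw [s.fa] at h2
  exact h1 h2

theorem fix_of (h : Lm r V Z H) {L : Subgroup G} (hL : L ≤ Z) (hn : ¬ L ≤ H) :
    V ⊓ 𝒞(H) ⊓ 𝒞(L) = ⊥ := by
  rw [inf_assoc, ← cent_sup, sup_eq_of_idx s.hr h.le h.idx hL hn, s.fix]

theorem le_of_cent (h : Lm r V Z H) {L : Subgroup G} (hL : L ≤ Z) (hc : L ≤ 𝒞(V ⊓ 𝒞(H))) : L ≤ H := by
  by_contra hn
  exact h.ne (by rw [← s.fix_of h hL hn]; exact (inf_eq_left.2 (le_cent_symm hc)).symm)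

theorem le_comm' (h : Lm r V Z H) {L : Subgroup G} (hL : L ≤ Z) (hn : ¬ L ≤ H) : V ⊓ 𝒞(H) ≤ ⁅V, L⁆ :=
  ind_le inf_le_left s.eV.1 (hL.trans (s.nVH h.le)) (s.co (s.rZ.of_le hL)) (s.fix_of h hL hn)

theorem le_comm (h : Lm r V Z H) (h' : Lm r V Z H') (ne : H ≠ H') : V ⊓ 𝒞(H') ≤ ⁅V, H⁆ :=
  s.le_comm' h' h.le (h'.not_le s.hr h ne)

theorem disj (h : Lm r V Z H) (W : Subgroup G) : V ⊓ 𝒞(H) ⊓ (W ⊓ ⁅V, H⁆) = ⊥ :=
  ind_inf s.eV.1 (h.le.trans s.nV) (s.co (s.rZ.of_le h.le)) inf_le_right inf_le_right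

theorem card_mod {U : Subgroup G} (hU : U ≤ V) (n : Z ≤ 𝒩(U)) : Nat.card U ≡ 1 [MOD r] := by
  have := P04.card_modEq_cent s.hr (s.rZ.isPGroup s.hr) n
  rwa [le_bot_iff.1 ((inf_le_inf_right _ hU).trans s.fix.le), card_bot] at this

theorem card_ge (h : Lm r V Z H) : r + 1 ≤ Nat.card (V ⊓ 𝒞(H) : Subgroup G) := by
  have h1 := s.card_mod inf_le_left (s.nVH h.le)
  have h2 := one_lt_card h.ne
  have h3 := Nat.le_of_dvd (by omega) ((Nat.modEq_iff_dvd' h2.le).1 h1.symm)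
  omega

theorem card_step (h : Lm r V Z H) {W : Subgroup G} (hW : W ≤ V) (h1 : V ⊓ 𝒞(H) ≤ W) :
    (r + 1) * Nat.card (W ⊓ ⁅V, H⁆ : Subgroup G) ≤ Nat.card W :=
  (Nat.mul_le_mul_right _ (s.card_ge h)).trans
    (card_mul_le (abelian_of_le s.eV.1 hW) h1 inf_le_left (s.disj h W))

theorem card3 (h : Lm r V Z H) (h' : Lm r V Z H') (h'' : Lm r V Z H'') (n1 : H ≠ H') (n2 : H ≠ H'')
    (n3 : H' ≠ H'') {W : Subgroup G} (hW : W ≤ V) (h1 : V ⊓ 𝒞(H) ≤ W) (h2 : V ⊓ 𝒞(H') ≤ W)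
    (h3 : V ⊓ 𝒞(H'') ≤ W) : (r + 1) ^ 3 ≤ Nat.card W := by
  have a1 := s.card_step h hW h1
  have a2 := s.card_step h' (inf_le_left.trans hW) (le_inf h2 (s.le_comm h h' n1))
  have a3 := (s.card_ge h'').trans
    (card_le_of_le (le_inf (le_inf h3 (s.le_comm h h'' n2)) (s.le_comm h' h'' n3)))
  calc (r + 1) ^ 3 = (r + 1) * ((r + 1) * (r + 1)) := by ring
    _ ≤ _ := (Nat.mul_le_mul_left _ ((Nat.mul_le_mul_left _ a3).trans a2)).trans a1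

theorem ci_step (h : Lm r V Z H) {W : Subgroup G} (hW : W ≤ V) (h1 : V ⊓ 𝒞(H) ≤ W) {x : G}
    (n1 : x ∈ 𝒩(V)) (n2 : x ∈ 𝒩(H)) (n3 : x ∈ 𝒩(W)) :
    (𝒞[x]).relIndex (V ⊓ 𝒞(H)) * (𝒞[x]).relIndex (W ⊓ ⁅V, H⁆) ≤ (𝒞[x]).relIndex W := by
  have m1 := zpowers_le.2 n1
  have m2 := zpowers_le.2 n2
  have m3 := zpowers_le.2 n3
  exact ci_mul (abelian_of_le s.eV.1 hW) h1 inf_le_left (norm_inf m1 (norm_cent m2) (mem_zpowers x))
    (norm_inf m3 (norm_comm m1 m2) (mem_zpowers x)) (s.disj h W)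

theorem ci2 (h : Lm r V Z H) (h' : Lm r V Z H') (n1 : H ≠ H') {x : G} (m1 : x ∈ 𝒩(V)) (m2 : x ∈ 𝒩(H)) :
    (𝒞[x]).relIndex (V ⊓ 𝒞(H)) * (𝒞[x]).relIndex (V ⊓ 𝒞(H')) ≤ (𝒞[x]).relIndex V :=
  (Nat.mul_le_mul_left _ (ci_mono x (le_inf inf_le_left (s.le_comm h h' n1)))).trans
    (s.ci_step h le_rfl inf_le_left m1 m2 m1)

theorem ci3 (h : Lm r V Z H) (h' : Lm r V Z H') (h'' : Lm r V Z H'') (n1 : H ≠ H') (n2 : H ≠ H'')
    (n3 : H' ≠ H'') {x : G} (m1 : x ∈ 𝒩(V)) (m2 : x ∈ 𝒩(H)) (m3 : x ∈ 𝒩(H')) :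
    (𝒞[x]).relIndex (V ⊓ 𝒞(H)) * ((𝒞[x]).relIndex (V ⊓ 𝒞(H')) * (𝒞[x]).relIndex (V ⊓ 𝒞(H''))) ≤
      (𝒞[x]).relIndex V := by
  have a1 := s.ci_step h le_rfl inf_le_left m1 m2 m1
  have a2 := s.ci_step h' inf_le_left (le_inf inf_le_left (s.le_comm h h' n1)) m1 m3
    (norm_inf (zpowers_le.2 m1) (norm_comm (zpowers_le.2 m1) (zpowers_le.2 m2)) (mem_zpowers x))
  have a3 := ci_mono x (le_inf (le_inf inf_le_left (s.le_comm h h'' n2)) (s.le_comm h' h'' n3))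
  exact (Nat.mul_le_mul_left _ ((Nat.mul_le_mul_left _ a3).trans a2)).trans a1

end St

theorem ab_num {K : Subgroup G} (s : St q r V K) {b : G} (bV : b ∈ 𝒩(V)) (bK : b ∈ 𝒩(K)) (bq : b ^ q = 1)
    (nb : b ∉ 𝒞(K)) (hc : (𝒞[b]).relIndex V < q ^ 3) :
    Nat.card (⁅V, ⁅K, zpowers b⁆⁆ : Subgroup G) ≤ 27 ∧ (q = 2 ∧ (r = 3 ∨ r = 5) ∨ q = 3 ∧ (r = 2 ∨ r = 13)) := by
  have b1 : b ≠ 1 := fun e => nb (e ▸ one_mem _)
  have cb := card_zpowers_of_pow_prime s.hq bq b1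
  have qb : IsPGrp q (zpowers b) := pGrp_of_card_eq s.hq cb
  have mK := zpowers_le.2 bK
  have mV := zpowers_le.2 bV
  set K0 := ⁅K, zpowers b⁆ with hK0
  have K0K : K0 ≤ K := comm_le_left mK
  have rK0 := s.rZ.of_le K0K
  have n0 : K0 ≤ 𝒩(V) := K0K.trans s.nV
  have nb0 : zpowers b ≤ 𝒩(K0) := norm_comm mK le_normalizer
  have V0V : ⁅V, K0⁆ ≤ V := comm_le_left n0
  have f0 : ⁅V, K0⁆ ⊓ 𝒞(K0) = ⊥ := coprime_abel_cent_TI n0 (s.co rK0) s.eV.1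
  have reg : Semiregular K0 (zpowers b) := fun x hx x1 => by
    rw [← cent_eq_cent_singleton_of_prime (cb ▸ s.hq) hx x1]
    exact coprime_abel_cent_TI mK (s.rZ.coprime_of_ne qb s.qr.symm) s.eZ.1
  obtain ⟨m, h1, h2, -⟩ := Rep.frob_card s.hq (abelem_of_le s.eV V0V) (norm_comm n0 le_normalizer)
    (norm_comm mV nb0) nb0 reg fun h => s.qr (rK0 q s.hq h)
  rw [f0, card_bot, one_mul, cb] at h1
  rw [le_bot_iff.1 ((inf_le_inf_left _ (cent_anti le_sup_left)).trans f0.le), card_bot, one_mul,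
    cent_zpowers, inf_comm] at h2
  have h3 := card_inf_mul_relIndex (𝒞[b]) ⁅V, K0⁆
  have h4 := (ci_mono b V0V).trans (ci_le s.hq s.qV hc)
  have h5 : m * q ≤ m + 2 := by
    rw [← Nat.pow_le_pow_iff_right s.hq.one_lt, pow_mul, ← h1, ← h3, h2, pow_add]
    exact Nat.mul_le_mul_left _ h4
  have m0 : m ≠ 0 := by
    rintro rfl
    have e : ⁅V, K0⁆ = ⊥ := card_eq_one.1 (by simpa using h1)
    have e2 : K0 = ⊥ := le_bot_iff.1 ((le_inf K0K (comm_eq_bot_iff'.1 e)).trans s.fa.le)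
    exact nb (comm_eq_bot_iff'.1 e2 (mem_zpowers b))
  have h6 := P04.card_modEq_cent s.hr (rK0.isPGroup s.hr) (norm_comm n0 le_normalizer)
  rw [f0, card_bot, h1] at h6
  have h7 := (Nat.modEq_iff_dvd' (Nat.one_le_iff_ne_zero.2 (h1 ▸ Nat.card_pos.ne'))).1 h6.symm
  have q2 := s.hq.two_le
  have hr := s.hr
  have hm : m ≤ 2 := by nlinarith
  have hq3 : q ≤ 3 := by
    by_contra hh
    have : m * 4 ≤ m * q := Nat.mul_le_mul_left _ (by omega)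
    omega
  rw [h1]
  interval_cases q
  · have : r ∣ 15 := by
      interval_cases m
      · omega
      · exact h7.trans (by norm_num)
      · exact h7
    refine ⟨by interval_cases m <;> norm_num, Or.inl ⟨rfl, ?_⟩⟩
    have := (Nat.Prime.dvd_mul hr (m := 3) (n := 5)).1 this
    rwa [Nat.prime_dvd_prime_iff_eq hr Nat.prime_three, Nat.prime_dvd_prime_iff_eq hr Nat.prime_five] at this
  · obtain rfl : m = 1 := by omega
    refine ⟨by norm_num, Or.inr ⟨rfl, ?_⟩⟩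
    have := (Nat.Prime.dvd_mul hr (m := 2) (n := 13)).1 h7
    rwa [Nat.prime_dvd_prime_iff_eq hr Nat.prime_two, Nat.prime_dvd_prime_iff_eq hr (by norm_num)] at this

theorem mt_ab (hp : p.Prime) (p2 : p ≠ 2) (pq : p ≠ q) (pr : p ≠ r) {K D A : Subgroup G} (s : St q r V K)
    (pA : IsPGrp p A) (qD : IsPGrp q D) (AV : A ≤ 𝒩(V)) (AK : A ≤ 𝒩(K)) (AD : A ≤ 𝒩(D))
    (DV : D ≤ 𝒩(V)) (DK : D ≤ 𝒩(K)) (fixA : K ⊓ 𝒞(A) = ⊥) {b : G} (hb : b ∈ D) (bq : b ^ q = 1)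
    (nb : b ∉ 𝒞(K)) : q ^ 3 ≤ (𝒞[b]).relIndex V := by
  by_contra hc
  obtain ⟨hV0, hnum⟩ := ab_num s (DV hb) (DK hb) bq nb (not_le.1 hc)
  have hr := s.hr
  have mK := zpowers_le.2 (DK hb)
  set K0 := ⁅K, zpowers b⁆ with hK0
  have K0K : K0 ≤ K := comm_le_left mK
  have V0V : ⁅V, K0⁆ ≤ V := comm_le_left (K0K.trans s.nV)
  have nH : ∀ {H}, Lm r V K H → H ⊲ K := fun h => ⟨h.le, norm_of_le_abelian s.eZ.1 h.le⟩
  have pr1 : ¬ r ≡ 1 [MOD p] := fun h => by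
    have h1 := (Nat.modEq_iff_dvd' hr.one_le).1 h.symm
    have h2 : p ∣ 2 ^ 2 * 3 := by
      rcases hnum with ⟨-, rfl | rfl⟩ | ⟨-, rfl | rfl⟩ <;> exact h1.trans (by norm_num)
    rcases (Nat.Prime.dvd_mul hp).1 h2 with h3 | h3
    · exact p2 ((Nat.prime_dvd_prime_iff_eq hp Nat.prime_two).1 (hp.dvd_of_dvd_pow h3))
    · obtain rfl := (Nat.prime_dvd_prime_iff_eq hp Nat.prime_three).1 h3
      omega
  have trc : ∀ H, Lm r V K H → ∀ k ∈ K, (∀ a ∈ A, a ∉ 𝒩(H) → a * k * a⁻¹ ∈ H) → k ∈ H := by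
    intro H h k hk h1
    obtain ⟨d, d1, d2, d3, -⟩ := triv hp (pA.inf_left 𝒩(H)) (nH h) (inf_le_left.trans AK) inf_le_right
    rw [h.idx] at d1 d2 d3
    have d4 : d = r := ((Nat.dvd_prime hr).1 d1).resolve_left fun e => pr1 (e ▸ d2)
    refine trace bot_le h.le (der_eq_bot_iff.2 s.eZ.1).le AK (norm_bot A) (fun y hy h2 => ?_)
      (s.rZ.coprime_of_ne pA pr.symm) hk h1
      fun a ha ha' => d3 d4 (commutator_mem_commutator hk ⟨ha, ha'⟩)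
    rw [← fixA]
    refine ⟨hy, fun a ha => ?_⟩
    have := h2 a ha
    rw [mem_bot, inv_mul_eq_one, eq_mul_inv_iff_mul_eq] at this
    exact this.symm
  have K0n : ∀ {H}, ¬ K0 ≤ H → ¬ K0 ≤ H :^ b := fun h h' => h (by
    have e : K0 :^ b = K0 := conjg_of_mem_norm (norm_comm mK le_normalizer (mem_zpowers b))
    rwa [← e, conjg_le_conjg] at h')
  have lb : ∀ {H}, Lm r V K H → Lm r V K (H :^ b) := fun h => h.conj (DV hb) (DK hb)
  have three : r ≠ 2 → ∀ {H H' H''}, Lm r V K H → Lm r V K H' → Lm r V K H'' → ¬ K0 ≤ H → ¬ K0 ≤ H' →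
      ¬ K0 ≤ H'' → H ≠ H' → H ≠ H'' → H' ≠ H'' → False := by
    intro r2 H H' H'' h h' h'' k k' k'' n1 n2 n3
    have := (s.card3 h h' h'' n1 n2 n3 V0V (s.le_comm' h K0K k) (s.le_comm' h' K0K k')
      (s.le_comm' h'' K0K k'')).trans hV0
    have h3 : 4 ^ 3 ≤ (r + 1) ^ 3 := Nat.pow_le_pow_left (by have := hr.two_le; omega) 3
    omega
  obtain ⟨k, hk, k1⟩ := exists_mem_ne_one (H := K0) fun e => nb (comm_eq_bot_iff'.1 e (mem_zpowers b))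
  obtain ⟨H, h, kH⟩ := s.exists_lm (K0K hk) k1
  have nK0 : ¬ K0 ≤ H := fun e => kH (e hk)
  by_cases ha : ∀ H', Lm r V K H' → ¬ K0 ≤ H' → ∃ e ∈ D, H' = H :^ e
  · obtain ⟨d, hd, hfix⟩ := orbit_fix hp s.hq pq qD pA AD H
    have h0 := h.conj (DV hd) (DK hd)
    refine kH (conj_mem_conjg_iff.1 (trc _ h0 _ (conj_mem_of_le_norm DK hd (K0K hk)) fun a ha' na => ?_))
    by_contra hn
    have m1 : (a * d)⁻¹ ∈ 𝒩(V) := inv_mem (mul_mem (AV ha') (DV hd))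
    have m2 : (a * d)⁻¹ ∈ 𝒩(K) := inv_mem (mul_mem (AK ha') (DK hd))
    obtain ⟨e, he, h2⟩ := ha _ (h0.conj m1 m2) fun hh => hn (by
      have := mem_conjg_inv.1 (hh hk)
      rwa [show a * d * k * (a * d)⁻¹ = a * (d * k * d⁻¹) * a⁻¹ by group] at this)
    refine na ?_
    have := hfix a⁻¹ (inv_mem ha') (d * e) (mul_mem hd he) (by
      rw [conjg_mul, ← h2, ← conjg_mul, ← conjg_mul, ← conjg_mul]; congr 1; group)
    simpa using inv_mem this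
  push Not at ha
  obtain ⟨H', h', nK0', hne⟩ := ha
  have n1 : H ≠ H' := fun e => hne 1 (one_mem _) (by rw [conjg_of_mem (one_mem _), e])
  by_cases bH : b ∈ 𝒩(H)
  · have qb : IsPGrp q (zpowers b) := piGrp_zpowers_iff.2 (pElt_of_pow_eq_one s.hq bq)
    obtain ⟨d, d1, d2, d3, d4⟩ := triv s.hq qb (nH h) mK (zpowers_le.2 bH)
    rw [h.idx] at d1 d2 d3
    have d5 : d = 1 := ((Nat.dvd_prime hr).1 d1).resolve_right fun e => nK0 (d3 e)
    have r2 : r ≠ 2 := by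
      rintro rfl
      have := (Nat.modEq_iff_dvd' (by norm_num)).1 (d5 ▸ d2).symm
      exact s.hq.one_lt.ne' (Nat.dvd_one.1 this)
    have bH' : b ∈ 𝒩(H') := by
      by_contra hn
      refine three r2 h h' (lb h') nK0 nK0' (K0n nK0') n1 (fun e => n1 ?_)
        fun e => hn (conjg_eq_self_iff.1 e.symm)
      rwa [← conjg_of_mem_norm bH, conjg_inj] at e
    obtain ⟨x, hx, nx⟩ := SetLike.not_le_iff_exists.1 (h.not_le hr h' n1.symm)
    have xb : ⁅x, b⁆ ∈ K0 := commutator_mem_commutator (h'.le hx) (mem_zpowers b)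
    refine nx (d4 d5 ((mem_cmod_zp (nH h).2 bH).2 ⟨h'.le hx, trc H h _ (K0K xb) fun a ha na => ?_⟩))
    rw [← mem_conjg_inv]
    have h'' := h.conj (inv_mem (AV ha)) (inv_mem (AK ha))
    by_cases e : H :^ a⁻¹ = H'
    · rw [e]
      exact comm_le_left (zpowers_le.2 bH') (commutator_mem_commutator hx (mem_zpowers b))
    · by_contra hn
      exact three r2 h h' h'' nK0 nK0' (fun hh => hn (hh xb)) n1
        (fun e' => na (by simpa using inv_mem (conjg_eq_self_iff.1 e'.symm))) (Ne.symm e)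
  · have n2 : H ≠ H :^ b := fun e => bH (conjg_eq_self_iff.1 e.symm)
    have n3 : H' ≠ H :^ b := hne b hb
    by_cases r2 : r = 2
    · obtain rfl : q = 3 := by omega
      subst r2
      have n4 : H' ≠ (H :^ b) :^ b := by rw [← conjg_mul]; exact hne _ (mul_mem hb hb)
      have n5 : H ≠ (H :^ b) :^ b := fun e => bH (by
        rw [← conjg_mul] at e
        have h1 := conjg_eq_self_iff.1 e.symm
        have h2 := mul_mem h1 h1
        rwa [show b * b * (b * b) = b ^ 3 * b by simp only [pow_succ, pow_zero, one_mul, mul_assoc], bq, one_mul] at h2)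
      have a1 := s.card_step h' V0V (s.le_comm' h' K0K nK0')
      have a2 := s.card3 h (lb h) (lb (lb h)) n2 n5 (fun e => n2 (conjg_inj.1 e))
        (W := ⁅V, K0⁆ ⊓ ⁅V, H'⁆) (inf_le_left.trans V0V)
        (le_inf (s.le_comm' h K0K nK0) (s.le_comm h' h n1.symm))
        (le_inf (s.le_comm' (lb h) K0K (K0n nK0)) (s.le_comm h' (lb h) n3))
        (le_inf (s.le_comm' (lb (lb h)) K0K (K0n (K0n nK0))) (s.le_comm h' (lb (lb h)) n4))
      omega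
    · exact three r2 h h' (lb h) nK0 nK0' (K0n nK0) n1 n2 n3

end CA.Sig.MT
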