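/-
The bound `|V : C_V(b)| ≥ q ^ 3`: dimension of a module for a group of symplectic type.
Owner: helper7.
-/
import Cfsg.Agent.Sig.MT2

set_option autoImplicit false
set_option linter.unusedSectionVars false

namespace CA.Sig.MT

open Subgroup Cfsg CA.FG CA.BG
open scoped commutatorElement

universe u

variable {G : Type u} [Group G] [Finite G] {p q r : ℕ}

/-- one component -/
structure Loc (q r : ℕ) (K Z H U : Subgroup G) : Prop where
  hq : q.Prime
  hr : r.Prime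
  qr : q ≠ r
  rK : IsPGrp r K
  ZK : Z ≤ K
  cZ : K ≤ 𝒞(Z)
  dZ : ⁅K, K⁆ ≤ Z
  pw : ∀ x ∈ K, x ^ r ∈ Z
  eZ : ∀ x ∈ Z, x ^ r = 1
  HZ : H ≤ Z
  iH : H.relIndex Z = r
  eU : IsElementaryAbelian q U
  KU : K ≤ 𝒩(U)
  HU : U ≤ 𝒞(H)
  UZ : U ⊓ 𝒞(Z) = ⊥
  U0 : U ≠ ⊥

theorem comm_symm_mem {H : Subgroup G} {x y : G} (h : ⁅x, y⁆ ∈ H) : ⁅y, x⁆ ∈ H := by
  rw [← commutatorElement_inv]; exact inv_mem h

namespace Loc

variable {K Z H U : Subgroup G} (l : Loc q r K Z H U)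
include l

theorem nH : K ≤ 𝒩(H) := norm_of_cent (l.cZ.trans (cent_anti l.HZ))

theorem cm {x z : G} (hx : x ∈ K) (hz : z ∈ Z) : Commute x z := comm_of_le_cent l.cZ hx hz

theorem cmm {x y : G} (hx : x ∈ K) (hy : y ∈ K) : ⁅x, y⁆ ∈ Z := l.dZ (commutator_mem_commutator hx hy)

theorem ZR {L : Subgroup G} (h : Z ≤ L) {S : Subgroup G} (hS : S ≤ K) : Z ≤ cmod L H S :=
  le_cmod h ((comm_eq_bot_iff'.2 (hS.trans l.cZ)).le.trans bot_le)

theorem nR {R : Subgroup G} (h : Z ≤ R) (h' : R ≤ K) : R ⊲ K := normalIn_of_der_le (l.dZ.trans h) h'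

theorem mem1 {L : Subgroup G} (hL : L ≤ K) {x y : G} (hx : x ∈ K) :
    y ∈ cmod L H (zpowers x) ↔ y ∈ L ∧ ⁅y, x⁆ ∈ H := mem_cmod_zp (hL.trans l.nH) (l.nH hx)

theorem fixz {z : G} (hz : z ∈ Z) (nz : z ∉ H) : U ⊓ 𝒞[z] = ⊥ := by
  have := sup_eq_of_idx l.hr l.HZ l.iH (zpowers_le.2 hz) fun h => nz (h (mem_zpowers z))
  rw [← l.UZ, ← this, cent_sup, cent_zpowers, ← inf_assoc, inf_eq_left.2 l.HU]

theorem co {B : Subgroup G} (h : B ≤ K) : (Nat.card U).Coprime (Nat.card B) :=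
  (abelem_pGrp l.hq l.eU).coprime_of_ne (l.rK.of_le h) l.qr

theorem ker {L : Subgroup G} (hL : L ≤ K) {x : G} (hx : x ∈ K) (h : ¬ L ≤ cmod L H (zpowers x)) :
    (cmod L H (zpowers x)).relIndex L = r := by
  let φ : L →* G := MonoidHom.mk' (fun y => ⁅(y : G), x⁆) fun a b => by
    have h1 := l.cm (hL a.2) (l.cmm (hL b.2) hx)
    have h2 := l.cm (l.ZK (l.cmm (hL a.2) hx)) (l.cmm (hL b.2) hx)
    calc ⁅((a * b : L) : G), x⁆ = a * ⁅(b : G), x⁆ * (a : G)⁻¹ * ⁅(a : G), x⁆ := by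
          simp only [coe_mul, commutatorElement_def]; group
      _ = _ := by rw [h1.eq, mul_inv_cancel_right, h2.eq]
  have e : (cmod L H (zpowers x)).subgroupOf L = H.comap φ := by
    ext y
    rw [mem_subgroupOf, l.mem1 hL hx]
    exact ⟨fun h => h.2, fun h => ⟨y.2, h⟩⟩
  have h1 : (cmod L H (zpowers x)).relIndex L ∣ r := by
    rw [relIndex, e, index_comap, ← l.iH]
    refine relIndex_dvd_of_le_norm ?_ (l.ZK.trans l.nH)
    rintro _ ⟨y, rfl⟩
    exact l.cmm (hL y.2) hx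
  exact ((Nat.dvd_prime l.hr).1 h1).resolve_left fun e => h (relIndex_eq_one.1 e)

theorem conjx {x k : G} (hx : x ∈ K) (hk : k ∈ K) (j : ℕ) : k ^ j * x * (k ^ j)⁻¹ = ⁅k, x⁆ ^ j * x := by
  induction j with
  | zero => simp
  | succ j ih =>
    have h1 := (l.cm hk (pow_mem (l.cmm hk hx) j)).eq
    calc k ^ (j + 1) * x * (k ^ (j + 1))⁻¹ = k * (k ^ j * x * (k ^ j)⁻¹) * k⁻¹ := by group
      _ = k * ⁅k, x⁆ ^ j * x * k⁻¹ := by rw [ih, ← mul_assoc]
      _ = ⁅k, x⁆ ^ j * ⁅k, x⁆ * x := by rw [h1, commutatorElement_def]; group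
      _ = _ := by rw [← pow_succ]

theorem centj {x k : G} (hx : x ∈ K) (hk : k ∈ K) (j : ℕ) :
    U ⊓ 𝒞[⁅k, x⁆ ^ j * x] = (U ⊓ 𝒞[x]) :^ (k ^ j) := by
  rw [conjg_inf, conjg_of_mem_norm (l.KU (pow_mem hk j)), conjg_cent1, l.conjx hx hk]

theorem centH {h : G} (hh : h ∈ H) (y : G) : U ⊓ 𝒞[h * y] = U ⊓ 𝒞[y] := by
  ext v
  refine and_congr_right fun hv => ?_
  have : Commute v h := comm_of_le_cent l.HU hv hh
  change v ∈ 𝒞[h * y] ↔ v ∈ 𝒞[y]
  rw [mem_centralizer_singleton_iff, mem_centralizer_singleton_iff, ← mul_assoc, this.eq, mul_assoc,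
    mul_assoc, mul_right_inj]

theorem exk {x : G} (hx : x ∈ K) (nx : x ∉ cmod K H K) : ∃ k ∈ K, ⁅k, x⁆ ∉ H := by
  by_contra hc
  push Not at hc
  exact nx ((mem_cmod l.nH).2 ⟨hx, fun y hy => comm_symm_mem (hc y hy)⟩)

theorem fix {x : G} (hx : x ∈ K) (nx : x ∉ cmod K H K) :
    Nat.card (U ⊓ 𝒞[x] : Subgroup G) ^ r ≤ Nat.card U := by
  obtain ⟨k, hk, nk⟩ := l.exk hx nx
  have hz := l.cmm hk hx
  set z := ⁅k, x⁆ with hz'
  have mK : ∀ j : ℕ, z ^ j * x ∈ K := fun j => mul_mem (l.ZK (pow_mem hz j)) hx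
  have key : ∀ j ≤ r, ∃ S ≤ U, Nat.card (U ⊓ 𝒞[x] : Subgroup G) ^ j ≤ Nat.card S ∧
      ∀ i, j ≤ i → i < r → S ≤ ⁅U, zpowers (z ^ i * x)⁆ := by
    intro j
    induction j with
    | zero => exact fun _ => ⟨⊥, bot_le, by simp, fun _ _ _ => bot_le⟩
    | succ j ih =>
      intro hj
      obtain ⟨S, hS, h1, h2⟩ := ih (by omega)
      refine ⟨(U ⊓ 𝒞[z ^ j * x]) ⊔ S, sup_le inf_le_left hS, ?_, fun i hi ir => sup_le ?_ (h2 i (by omega) ir)⟩
      · rw [card_sup_of_inf_eq_bot (Or.inl (inf_le_left.trans (norm_of_le_abelian l.eU.1 hS)))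
          (ind_inf l.eU.1 ((zpowers_le.2 (mK j)).trans l.KU) (l.co (zpowers_le.2 (mK j)))
            (by rw [cent_zpowers]; exact inf_le_right) (h2 j le_rfl (by omega))),
          l.centj hx hk, card_conjg, pow_succ']
        exact Nat.mul_le_mul_left _ h1
      · have c : Commute (z ^ i * x) (z ^ j * x) :=
          (l.cm (mK i) (pow_mem hz j)).mul_right
            ((l.cm hx (pow_mem hz i)).symm.mul_left (Commute.refl x))
        refine ind_le inf_le_left l.eU.1 (norm_inf ((zpowers_le.2 (mK i)).trans l.KU)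
          (by rw [← cent_zpowers]
              exact norm_cent (norm_zpowers_of_cent (zpowers_le.2 (mem_centralizer_singleton_iff.2 c)))))
          (l.co (zpowers_le.2 (mK i))) (le_bot_iff.1 ?_)
        have nz : z ^ (i - j) ∉ H := fun h => nk (by
          have o : orderOf z = r := orderOf_eq_of_pow_prime l.hr (l.eZ z hz) fun e => nk (e ▸ one_mem H)
          obtain ⟨m, hm⟩ := exists_pow_eq_self_of_coprime (x := z) (n := i - j)
            (o ▸ (Nat.coprime_of_lt_prime (by omega) (by omega) l.hr).symm)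
          rw [← hm]
          exact pow_mem h m)
        rw [← l.fixz (pow_mem hz _) nz, cent_zpowers]
        rintro v ⟨⟨hv, h3⟩, h4⟩
        have a1 : Commute v (z ^ j * x) := mem_centralizer_singleton_iff.1 h3
        have a2 : Commute v (z ^ i * x) := mem_centralizer_singleton_iff.1 h4
        have a3 := a2.mul_right a1.inv_right
        refine ⟨hv, mem_centralizer_singleton_iff.2 ?_⟩
        rwa [show z ^ i * x * (z ^ j * x)⁻¹ = z ^ (i - j) by
          rw [pow_sub z (by omega : j ≤ i)]; group] at a3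
  obtain ⟨S, hS, h1, -⟩ := key r le_rfl
  exact h1.trans (card_le_of_le hS)

theorem nt {x : G} (hx : x ∈ K) (nx : x ∉ cmod K H K) (xr : x ^ r ∈ H) : U ⊓ 𝒞[x] ≠ ⊥ := by
  intro h0
  obtain ⟨k, hk, nk⟩ := l.exk hx nx
  have h1 : ∀ w ∈ Z, U ⊓ 𝒞[w * x] = ⊥ := by
    intro w hw
    rw [← sup_eq_of_idx l.hr l.HZ l.iH (zpowers_le.2 (l.cmm hk hx)) fun h => nk (h (mem_zpowers _))] at hw
    obtain ⟨h, hh, _, hj, rfl⟩ :=
      (mem_sup_of_right_le_norm ((zpowers_le.2 (l.ZK (l.cmm hk hx))).trans l.nH)).1 hw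
    obtain ⟨j, rfl⟩ := mem_powers_iff_mem_zpowers.2 hj
    rw [mul_assoc, l.centH hh, l.centj hx hk, h0, conjg_bot]
  have xZ : zpowers x ≤ 𝒞(Z) := (zpowers_le.2 hx).trans l.cZ
  have AK : zpowers x ⊔ Z ≤ K := sup_le (zpowers_le.2 hx) l.ZK
  have cA : IsMulCommutative (zpowers x ⊔ Z : Subgroup G) :=
    abelian_sup (abelian_zpowers x) (abelian_iff_le_cent.2 (l.ZK.trans l.cZ)) xZ
  have dec : ∀ a ∈ zpowers x ⊔ Z, ∃ n : ℕ, ∃ w ∈ Z, a = x ^ n * w := fun a ha => by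
    obtain ⟨_, hy, w, hw, rfl⟩ := (mem_sup_of_left_le_norm (norm_of_cent xZ)).1 ha
    obtain ⟨n, rfl⟩ := mem_powers_iff_mem_zpowers.2 hy
    exact ⟨n, w, hw, rfl⟩
  have cyc := cyclic_quot_of_regular cA (l.HZ.trans le_sup_right) (Subgroup.subtype _) l.eU.1 l.U0
    (fun a => l.KU (AK a.2)) (l.co AK) (fun a ha => le_cent_symm l.HU ha) fun a ha => by
      obtain ⟨n, w, hw, e⟩ := dec a a.2
      change U ⊓ 𝒞[(a : G)] = ⊥
      by_cases hn : r ∣ n
      · obtain ⟨n, rfl⟩ := hn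
        refine l.fixz ?_ ha
        rw [e, pow_mul]
        exact mul_mem (pow_mem (l.pw x hx) n) hw
      · obtain ⟨m, -, hm⟩ := Nat.exists_mul_mod_eq_one_of_coprime
          ((Nat.Prime.coprime_iff_not_dvd l.hr).2 hn).symm l.hr.one_lt
        have e2 : (a : G) ^ m = ((x ^ r) ^ (n * m / r) * w ^ m) * x := by
          rw [e, ((l.cm hx hw).pow_left n).mul_pow, ← pow_mul, mul_assoc, ← (l.cm hx (pow_mem hw m)).eq,
            ← mul_assoc, ← pow_mul, ← pow_succ]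
          congr 2
          rw [← hm, Nat.div_add_mod]
        refine le_bot_iff.1 ((inf_le_inf_left _ (cent_singleton_le_pow _ m)).trans ?_)
        rw [e2, h1 _ (mul_mem (pow_mem (l.pw x hx) _) (pow_mem hw m))]
  have ab : IsElementaryAbelian r ((zpowers x ⊔ Z) /ₛ H) := (quot_abelem_iff (AK.trans l.nH)).2
    ⟨(der_eq_bot_iff.2 cA).le.trans bot_le, fun a ha => by
      obtain ⟨n, w, hw, rfl⟩ := dec a ha
      rw [((l.cm hx hw).pow_left n).mul_pow, l.eZ w hw, mul_one, ← pow_mul, mul_comm, pow_mul]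
      exact pow_mem xr n⟩
  have h2 := (abelem_cyclic_iff l.hr ab).1 cyc
  rw [card_quot (AK.trans l.nH), ← relIndex_mul_relIndex H Z _ l.HZ le_sup_right, l.iH] at h2
  have h3 : Z.relIndex (zpowers x ⊔ Z) = 1 := by
    have := relIndex_pos Z (zpowers x ⊔ Z)
    have := l.hr.pos
    nlinarith
  exact nx (l.ZR l.ZK le_rfl (relIndex_eq_one.1 h3 (mem_sup_left (mem_zpowers x))))

theorem idx1 {x k : G} (hx : x ∈ K) (hk : k ∈ K) (nk : ⁅k, x⁆ ∉ H) :
    (cmod K H (zpowers x)).relIndex K = r :=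
  l.ker le_rfl hx fun h => nk ((l.mem1 le_rfl hx).1 (h hk)).2

theorem R_le {x : G} (hx : x ∈ K) : cmod K H K ≤ cmod K H (zpowers x) := fun _ hy =>
  (l.mem1 le_rfl hx).2 ⟨cmod_le _ _ _ hy, ((mem_cmod l.nH).1 hy).2 x hx⟩

theorem aniso (r2 : r = 2) {x : G} (hx : x ∈ K) (nx : x ∉ cmod K H K)
    (h : ∀ y ∈ K, y ∉ cmod K H K → y ^ 2 ∉ H) : (cmod K H K).relIndex K = 4 := by
  subst r2
  obtain ⟨k, hk, nk⟩ := l.exk hx nx
  have i1 := l.idx1 hx hk nk
  have K1 := cmod_le K H (zpowers x)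
  have xK : x ∈ cmod K H (zpowers x) := (l.mem1 le_rfl hx).2 ⟨hx, by simp [one_mem]⟩
  have e : cmod (cmod K H (zpowers x)) H (zpowers k) = cmod K H K := by
    refine le_antisymm (fun y hy => ?_) fun y hy =>
      (l.mem1 K1 hk).2 ⟨l.R_le hx hy, ((mem_cmod l.nH).1 hy).2 k hk⟩
    obtain ⟨h1, h2⟩ := (l.mem1 K1 hk).1 hy
    by_contra ny
    have yK := K1 h1
    have h3 : y * x ∈ cmod K H K := by
      by_contra h3
      refine h _ (mul_mem yK hx) h3 ?_
      have h4 : y ^ 2 * x ^ 2 ∈ H := by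
        have := (mul_mem_iff_of_index_two (H := H.subgroupOf Z) l.iH (a := ⟨_, l.pw y yK⟩)
          (b := ⟨_, l.pw x hx⟩)).2 (iff_of_false (h y yK ny) (h x hx nx))
        exact this
      have h5 : ⁅y⁻¹, x⁆ ∈ H := ((l.mem1 le_rfl hx).1 (inv_mem h1)).2
      have h6 := mul_mem h5 h4
      rw [← mul_assoc, ← (l.cm (pow_mem yK 2) (l.HZ h5)).eq] at h6
      convert h6 using 1
      simp only [commutatorElement_def, sq]; group
    have h7 : x ∈ cmod K H (zpowers k) := by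
      have := mul_mem (inv_mem ((l.mem1 le_rfl hk).2 ⟨yK, h2⟩)) (l.R_le hk h3)
      simpa using this
    exact nk (comm_symm_mem ((l.mem1 le_rfl hk).1 h7).2)
  have i2 := l.ker K1 hk fun h => nk (comm_symm_mem ((l.mem1 K1 hk).1 (h xK)).2)
  rw [e] at i2
  rw [← relIndex_mul_relIndex _ _ K (l.R_le hx) K1, i1, i2]

end Loc

theorem Loc.dim (N : ℕ) : ∀ {K Z H U : Subgroup G} (_ : Loc q r K Z H U), Nat.card K = N →
    (r ≠ 2 → ∀ x ∈ K, x ^ r ∈ H) →
    ∃ m n, (cmod K H K).relIndex K = r ^ (2 * m) ∧ Nat.card U = q ^ n ∧ r ^ m ≤ n := by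
  induction N using Nat.strong_induction_on with
  | _ N ih =>
  intro K Z H U l hN hex
  obtain ⟨n, hn⟩ := abelem_card l.hq l.eU
  have n0 : n ≠ 0 := fun e => l.U0 (card_eq_one.1 (by simpa [e] using hn))
  by_cases h0 : K ≤ cmod K H K
  · exact ⟨0, n, relIndex_eq_one.2 h0, hn, by simp; omega⟩
  by_cases h1 : ∃ x ∈ K, x ∉ cmod K H K ∧ x ^ r ∈ H
  · obtain ⟨x, hx, nx, xr⟩ := h1
    obtain ⟨k, hk, nk⟩ := l.exk hx nx
    have i1 := l.idx1 hx hk nk
    have K1 := cmod_le K H (zpowers x)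
    set K' := cmod K H (zpowers x) with hK'
    have xK : x ∈ K' := (l.mem1 le_rfl hx).2 ⟨hx, by simp [one_mem]⟩
    have kK : k ∉ K' := fun h => nk ((l.mem1 le_rfl hx).1 h).2
    have l' : Loc q r K' Z H (U ⊓ 𝒞[x]) :=
      { l with
        rK := l.rK.of_le K1
        ZK := l.ZR l.ZK (zpowers_le.2 hx)
        cZ := K1.trans l.cZ
        dZ := (der_mono K1).trans l.dZ
        pw := fun y hy => l.pw y (K1 hy)
        eU := abelem_of_le l.eU inf_le_left
        KU := fun y hy => conjg_eq_self_iff.1 (by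
          have := l.centj hx (K1 hy) 1
          rw [pow_one, pow_one, l.centH ((l.mem1 le_rfl hx).1 hy).2] at this
          exact this.symm)
        HU := inf_le_left.trans l.HU
        UZ := le_bot_iff.1 ((inf_le_inf_right _ inf_le_left).trans l.UZ.le)
        U0 := l.nt hx nx xr }
    obtain ⟨m, n', a1, a2, a3⟩ := ih _ (hN ▸ card_lt_of_lt (lt_of_le_of_ne K1 fun e => kK (e ▸ hk))) l' rfl
      fun h y hy => hex h y (K1 hy)
    have R1 := cmod_le K' H K'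
    have RR : cmod K H K ≤ cmod K' H K' :=
      le_cmod (l.R_le hx) ((commutator_mono le_rfl K1).trans (cmod_comm l.nH))
    have e : cmod (cmod K' H K') H (zpowers k) = cmod K H K := by
      refine le_antisymm (fun y hy => ?_) fun y hy =>
        (l.mem1 (R1.trans K1) hk).2 ⟨RR hy, ((mem_cmod l.nH).1 hy).2 k hk⟩
      obtain ⟨h1, h2⟩ := (l.mem1 (R1.trans K1) hk).1 hy
      have yK := K1 (R1 h1)
      have h3 : K ≤ cmod K H (zpowers y) := by
        refine (sup_eq_of_idx l.hr K1 i1 (zpowers_le.2 hk) fun h => kK (h (mem_zpowers k))).ge.trans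
          (sup_le (fun t ht => ?_) (zpowers_le.2 ((l.mem1 le_rfl yK).2 ⟨hk, comm_symm_mem h2⟩)))
        exact (l.mem1 le_rfl yK).2 ⟨K1 ht, comm_symm_mem (((mem_cmod l'.nH).1 h1).2 t ht)⟩
      exact (mem_cmod l.nH).2 ⟨yK, fun t ht => comm_symm_mem ((l.mem1 le_rfl yK).1 (h3 ht)).2⟩
    have xR : x ∈ cmod K' H K' :=
      (mem_cmod l'.nH).2 ⟨xK, fun t ht => comm_symm_mem ((l.mem1 le_rfl hx).1 ht).2⟩
    have i2 := l.ker (R1.trans K1) hk fun h => nx (e ▸ h xR)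
    rw [e] at i2
    refine ⟨m + 1, n, ?_, hn, ?_⟩
    · rw [← relIndex_mul_relIndex _ _ K (l.R_le hx) K1, ← relIndex_mul_relIndex _ _ K' RR R1, i1, i2, a1]
      ring
    · have := l.fix hx nx
      rw [a2, hn, ← pow_mul, Nat.pow_le_pow_iff_right l.hq.one_lt] at this
      exact le_trans (by rw [pow_succ]; exact Nat.mul_le_mul_right _ a3) this
  · push Not at h1
    obtain ⟨x, hx, nx⟩ := SetLike.not_le_iff_exists.1 h0
    have r2 : r = 2 := by
      by_contra h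
      exact h1 x hx nx (hex h x hx)
    refine ⟨1, n, by rw [l.aniso r2 hx nx (r2 ▸ h1), r2]; rfl, hn, ?_⟩
    obtain ⟨k, hk, nk⟩ := l.exk hx nx
    have n1 : n ≠ 1 := fun e => by
      have c := der_le_cent_of_cyclic (isCyclic_of_card_prime (X := U) (by rw [hn, e, pow_one]; exact l.hq)) l.KU
      refine l.U0 ?_
      rw [← l.fixz (l.cmm hk hx) nk]
      exact (inf_eq_left.2 (mem_cent_iff_le_cent_singleton.1 (c (commutator_mem_commutator hk hx)))).symm
    rw [r2]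
    omega

end CA.Sig.MT
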