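/-
The bound `|V : C_V(b)| ≥ q ^ 3`: the special case.
Owner: helper7.
-/
import Cfsg.Agent.Sig.MT3

set_option autoImplicit false
set_option linter.unusedSectionVars false

namespace CA.Sig.MT

open Subgroup Cfsg CA.FG CA.BG
open scoped commutatorElement

universe u

variable {G : Type u} [Group G] [Finite G] {p q r : ℕ}

/-- the hypotheses of the special case -/
structure Sp (p q r : ℕ) (V Z K T A : Subgroup G) (b : G) : Prop where
  hp : p.Prime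
  p2 : p ≠ 2
  pq : p ≠ q
  pr : p ≠ r
  s : St q r V Z
  rK : IsPGrp r K
  KV : K ≤ 𝒩(V)
  dK : ⁅K, K⁆ = Z
  zK : K ⊓ 𝒞(K) = Z
  pw : ∀ x ∈ K, x ^ r ∈ Z
  pA : IsPGrp p A
  AV : A ≤ 𝒩(V)
  AK : A ≤ 𝒩(K)
  qT : IsPGrp q T
  TV : T ≤ 𝒩(V)
  TK : T ≤ 𝒩(K)
  TZ : T ≤ 𝒞(Z)
  KT : ⁅K, T⁆ = K
  fT : K ⊓ 𝒞(T) ≤ Z
  fA : K ⊓ 𝒞(A) ≤ Z
  hb : b ∈ T
  gen : T ≤ closure {t | ∃ g ∈ 𝒩(V) ⊓ 𝒩(K), t = g * b * g⁻¹}
  nb : b ∉ 𝒞(K)
  hc : (𝒞[b]).relIndex V ≤ q ^ 2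

theorem sq_mul (x y : G) : (x * y) ^ 2 = x ^ 2 * ⁅x⁻¹, y⁆ * y ^ 2 := by
  simp only [commutatorElement_def, sq]; group

namespace Sp

variable {V Z K T A H H' H'' : Subgroup G} {b : G} (c : Sp p q r V Z K T A b)
include c

theorem ZK : Z ≤ K := c.zK ▸ inf_le_left

theorem cZ : K ≤ 𝒞(Z) := le_cent_symm (c.zK ▸ inf_le_right)

theorem nZ : 𝒩(K) ≤ 𝒩(Z) := c.dK ▸ norm_comm le_rfl le_rfl

theorem loc (h : Lm r V Z H) : Loc q r K Z H (V ⊓ 𝒞(H)) :=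
  ⟨c.s.hq, c.s.hr, c.s.qr, c.rK, c.ZK, c.cZ, c.dK.le, c.pw, c.s.eZ.2, h.le, h.idx,
    abelem_of_le c.s.eV inf_le_left, norm_inf c.KV (norm_cent (norm_of_cent (c.cZ.trans (cent_anti h.le)))),
    inf_le_right, le_bot_iff.1 ((inf_le_inf_right _ inf_le_left).trans c.s.fix.le), h.ne⟩

theorem Rconj (H : Subgroup G) {g : G} (hg : g ∈ 𝒩(K)) : cmod K H K :^ g = cmod K (H :^ g) K := by
  rw [cmod_conj, conjg_of_mem_norm hg]

theorem TH (h : Lm r V Z H) : T ≤ 𝒩(H) := norm_of_cent (c.TZ.trans (cent_anti h.le))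

theorem TR (h : Lm r V Z H) : T ≤ 𝒩(cmod K H K) := norm_cmod c.TK (c.TH h) c.TK

theorem ZR (h : Lm r V Z H) : Z ≤ cmod K H K := (c.loc h).ZR c.ZK le_rfl

theorem nR (h : Lm r V Z H) : cmod K H K ⊲ K := (c.loc h).nR (c.ZR h) (cmod_le _ _ _)

theorem qb : IsPGrp q (zpowers b) := c.qT.of_le (zpowers_le.2 c.hb)

theorem bK : zpowers b ≤ 𝒩(K) := (zpowers_le.2 c.hb).trans c.TK

theorem K0K : ⁅K, zpowers b⁆ ≤ K := comm_le_left c.bK

theorem cb {y : G} (hy : y ∈ K) : ⁅y, b⁆ ∈ K := c.K0K (commutator_mem_commutator hy (mem_zpowers b))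

theorem R_of_cent (h : Lm r V Z H) : K ⊓ 𝒞(V ⊓ 𝒞(H)) ≤ cmod K H K :=
  le_cmod inf_le_left (c.s.le_of_cent h ((commutator_mono inf_le_left le_rfl).trans c.dK.le)
    ((comm_le_left (norm_inf le_normalizer (norm_cent (c.loc h).KU))).trans inf_le_right))

theorem ge_q (h : Lm r V Z H) (n : ¬ ⁅K, zpowers b⁆ ≤ cmod K H K) : q ≤ (𝒞[b]).relIndex (V ⊓ 𝒞(H)) :=
  ci_ge c.s.hq (c.s.qV.inf_left _) fun hh => n ((le_inf c.K0K ((commutator_mono le_rfl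
    (zpowers_le.2 hh)).trans (comm_le_right (norm_cent (c.loc h).KU)))).trans (c.R_of_cent h))

theorem three (h : Lm r V Z H) (h' : Lm r V Z H') (h'' : Lm r V Z H'') (k : ¬ ⁅K, zpowers b⁆ ≤ cmod K H K)
    (k' : ¬ ⁅K, zpowers b⁆ ≤ cmod K H' K) (k'' : ¬ ⁅K, zpowers b⁆ ≤ cmod K H'' K) (n1 : H ≠ H')
    (n2 : H ≠ H'') (n3 : H' ≠ H'') : False := by
  have h1 := (Nat.mul_le_mul (c.ge_q h k) (Nat.mul_le_mul (c.ge_q h' k') (c.ge_q h'' k''))).trans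
    ((c.s.ci3 h h' h'' n1 n2 n3 (c.TV c.hb) (c.TH h c.hb) (c.TH h' c.hb)).trans c.hc)
  have := c.s.hq.two_le
  nlinarith

theorem exists_lm : ∃ H, Lm r V Z H ∧ ¬ ⁅K, zpowers b⁆ ≤ cmod K H K := by
  have h1 : ¬ ⁅K, zpowers b⁆ ≤ 𝒞(K) := fun h => c.nb (coprime_commGG1P c.bK
    (c.rK.coprime_of_ne c.qb c.s.qr.symm) (Or.inl c.rK.sol) (comm_eq_bot_iff'.2
      (((zpowers_le.2 c.hb).trans c.TZ).trans (cent_anti ((le_inf c.K0K h).trans c.zK.le)))) (mem_zpowers b))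
  rw [le_cent_iff_forall] at h1
  push Not at h1
  obtain ⟨x, hx, y, hy, h2⟩ := h1
  obtain ⟨H, h, h3⟩ := c.s.exists_lm (c.dK.le (commutator_mem_commutator (c.K0K hx) hy))
    fun e => h2 (commutatorElement_eq_one_iff_mul_comm.1 e)
  exact ⟨H, h, fun hh => h3 (((mem_cmod (c.loc h).nH).1 (hh hx)).2 y hy)⟩

theorem trc (h : Lm r V Z H) {x : G} (hx : x ∈ K) (h1 : ∀ H', Lm r V Z H' → H' ≠ H → x ∈ cmod K H' K)
    (h2 : ∀ a ∈ A ⊓ 𝒩(H), ⁅x, a⁆ ∈ cmod K H K) : x ∈ cmod K H K := by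
  have co := c.rK.coprime_of_ne c.pA c.pr.symm
  refine trace (B := 𝒩(H)) (c.ZR h) (cmod_le _ _ _) c.dK.le c.AK (c.AK.trans c.nZ) (fun y hy h3 => ?_) co hx
    (fun a ha na => ?_) fun a ha ha' => h2 a ⟨ha, ha'⟩
  · obtain ⟨z, hz, h4⟩ := coprime_cent_coset (c.AK.trans c.nZ) (co.coprime_dvd_left (card_dvd_of_le c.ZK))
      (Or.inr c.pA.sol) h3
    simpa using mul_mem (c.fA ⟨mul_mem hy (c.ZK hz), h4⟩) (inv_mem hz)
  · rw [← mem_conjg_inv, c.Rconj H (inv_mem (c.AK ha))]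
    exact h1 _ (h.conj (inv_mem (c.AV ha)) (inv_mem (c.nZ (c.AK ha))))
      fun e => na (by simpa using inv_mem (conjg_eq_self_iff.1 e))

theorem le_R (h : Lm r V Z H) (h1 : ∀ y ∈ K, ⁅y, b⁆ ∈ cmod K H K) : ⁅K, zpowers b⁆ ≤ cmod K H K := by
  rw [zpowers_eq_closure]
  exact comm_closure_le (cmod_le _ _ _) (fun s hs => hs ▸ c.TK c.hb) fun s hs => hs ▸ h1

theorem trA (h : Lm r V Z H) : ∃ d, d ∣ (cmod K H K).relIndex K ∧ (cmod K H K).relIndex K ≡ d [MOD p] ∧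
    (d = (cmod K H K).relIndex K → ∀ x ∈ K, ∀ a ∈ A ⊓ 𝒩(H), ⁅x, a⁆ ∈ cmod K H K) := by
  obtain ⟨d, d1, d2, d3, -⟩ := triv c.hp (c.pA.inf_left 𝒩(H)) (c.nR h) (inf_le_left.trans c.AK)
    (norm_cmod (inf_le_left.trans c.AK) inf_le_right (inf_le_left.trans c.AK))
  exact ⟨d, d1, d2, fun e x hx a ha => d3 e (commutator_mem_commutator hx ha)⟩

theorem trb (h : Lm r V Z H) (n : ¬ ⁅K, zpowers b⁆ ≤ cmod K H K) :
    ∃ d, d ∣ (cmod K H K).relIndex K ∧ d ≠ (cmod K H K).relIndex K ∧ (cmod K H K).relIndex K ≡ d [MOD q] ∧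
      (d = 1 → ∀ x ∈ K, ⁅x, b⁆ ∈ cmod K H K → x ∈ cmod K H K) := by
  obtain ⟨d, d1, d2, d3, d4⟩ := triv c.s.hq c.qb (c.nR h) c.bK ((zpowers_le.2 c.hb).trans (c.TR h))
  exact ⟨d, d1, fun e => n (d3 e), d2, fun e x hx h1 =>
    d4 e ((mem_cmod_zp (c.nR h).2 (c.TR h c.hb)).2 ⟨hx, h1⟩)⟩

theorem expo (r2 : r ≠ 2) : ∀ x ∈ K, x ^ r = 1 := by
  have hr := c.s.hr
  have odd : Odd (Nat.card K) := Nat.not_even_iff_odd.1 fun h => r2 (c.rK 2 Nat.prime_two h.two_dvd).symm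
  have cl : ⁅⁅K, K⁆, K⁆ = ⊥ := by rw [c.dK]; exact comm_eq_bot_iff'.2 c.cZ
  have h1 := P04.expMg_odd_nil23 hr c.rK odd (Or.inl cl) (c.dK ▸ le_ohm1 c.ZK c.s.eZ.2)
  have h2 : K ≤ ohm1 r K := c.KT.ge.trans (commutator_le.2 fun x hx t ht => mem_ohm1
    (comm_le_left c.TK (commutator_mem_commutator hx ht)) (by
      have := h1 x hx _ (conj_mem_of_le_norm c.TK ht (inv_mem hx))
      rw [show ⁅x, t⁆ = x * (t * x⁻¹ * t⁻¹) by rw [commutatorElement_def]; group, this, conj_pow, inv_pow,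
        comm_of_le_cent c.TZ ht (inv_mem (c.pw x hx))]
      group))
  exact fun x hx => P04.exponent_Ohm1_odd_nil23 hr c.rK odd (Or.inl cl) x (h2 hx)

theorem odd_case (r2 : r ≠ 2) : False := by
  have hr := c.s.hr
  have hq := c.s.hq
  obtain ⟨H, h, nK0⟩ := c.exists_lm
  have l := c.loc h
  obtain ⟨y, hy, nk⟩ : ∃ y ∈ K, ⁅y, b⁆ ∉ cmod K H K := by
    by_contra hh
    push Not at hh
    exact nK0 (c.le_R h hh)
  have kK := c.cb hy
  set k := ⁅y, b⁆ with hk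
  have ck : (𝒞[k]).relIndex V ≤ q ^ 4 :=
    (ci_comm b (c.KV hy)).trans ((Nat.pow_le_pow_left c.hc 2).trans (by rw [← pow_mul]))
  have ex : ∀ x ∈ K, x ^ r ∈ H := fun x hx => by rw [c.expo r2 x hx]; exact one_mem _
  obtain ⟨m, n, a1, a2, a3⟩ := Loc.dim _ l rfl fun _ => ex
  have m0 : m ≠ 0 := by
    rintro rfl
    exact nk (relIndex_eq_one.1 a1 kK)
  obtain ⟨j, hj⟩ := abelem_card hq (abelem_of_le l.eU (inf_le_left : V ⊓ 𝒞(H) ⊓ 𝒞[k] ≤ _))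
  have j0 : j ≠ 0 := fun e => l.nt kK nk (ex k kK) (card_eq_one.1 (by simpa [e] using hj))
  have b1 := l.fix kK nk
  rw [hj, a2, ← pow_mul, Nat.pow_le_pow_iff_right hq.one_lt] at b1
  have b2 := card_inf_mul_relIndex (𝒞[k]) (V ⊓ 𝒞(H))
  rw [inf_comm, hj, a2] at b2
  have b3 : n ≤ j + 4 := by
    rw [← Nat.pow_le_pow_iff_right hq.one_lt, ← b2, pow_add]
    exact Nat.mul_le_mul_left _ ((ci_mono k inf_le_left).trans ck)
  have b4 := c.s.card_mod (U := V ⊓ 𝒞(H) ⊓ 𝒞[k]) (inf_le_left.trans inf_le_left)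
    (norm_inf (c.s.nVH h.le) (by
      rw [← cent_zpowers]
      exact norm_cent (norm_of_cent' ((zpowers_le.2 kK).trans c.cZ))))
  rw [hj] at b4
  have r3 : 3 ≤ r := by have := hr.two_le; omega
  have j2 : j ≤ 2 := by nlinarith
  have r5 : r ≤ 5 := by
    by_contra hh
    have : j * 6 ≤ j * r := Nat.mul_le_mul_left _ (by omega)
    omega
  obtain rfl : m = 1 := by
    by_contra hh
    have : r ^ 2 ≤ r ^ m := Nat.pow_le_pow_right hr.pos (by omega)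
    nlinarith
  obtain ⟨d, d1, d2, d3, -⟩ := c.trb h nK0
  rw [a1] at d1 d2 d3
  obtain ⟨i, hi, rfl⟩ := (Nat.dvd_prime_pow hr).1 d1
  have qr := c.s.qr
  have q3 : q ≤ 3 := by
    have h1 := (Nat.modEq_iff_dvd' (Nat.pow_le_pow_right hr.pos hi)).1 d3.symm
    have h2 : q ∣ 2 ^ 3 * 3 ∨ q ∣ r := by
      interval_cases r
      · interval_cases i
        · exact Or.inl (h1.trans (by norm_num))
        · exact Or.inl (h1.trans (by norm_num))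
        · simp at d2
      · norm_num at hr
      · interval_cases i
        · exact Or.inl h1
        · rcases (Nat.Prime.dvd_mul hq (m := 4) (n := 5)).1 h1 with h2 | h2
          · exact Or.inl (h2.trans (by norm_num))
          · exact Or.inr h2
        · simp at d2
    rcases h2 with h2 | h2
    · rcases (Nat.Prime.dvd_mul hq).1 h2 with h3 | h3
      · exact (Nat.le_of_dvd two_pos (hq.dvd_of_dvd_pow h3)).trans (by norm_num)
      · exact Nat.le_of_dvd three_pos h3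
    · exact absurd ((Nat.prime_dvd_prime_iff_eq hq hr).1 h2) qr
  have q2 := hq.two_le
  have e : r = 3 ∧ q = 2 ∧ j = 2 := by
    interval_cases r
    · obtain rfl : q = 2 := by omega
      refine ⟨rfl, rfl, ?_⟩
      interval_cases j
      · omega
      · norm_num [Nat.ModEq] at b4
      · rfl
    · norm_num at hr
    · obtain rfl : j = 1 := by omega
      interval_cases q <;> norm_num [Nat.ModEq] at b4
  obtain ⟨rfl, rfl, rfl⟩ := e
  obtain rfl : n = 6 := by omega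
  obtain ⟨d, e1, e2, e3⟩ := c.trA h
  rw [a1] at e1 e2 e3
  refine nk (c.trc h kK (fun H' h' ne => c.R_of_cent h' ⟨kK, ?_⟩) (e3 ?_ k kK))
  · have := (c.s.ci2 h h' ne.symm (c.KV kK) (l.nH kK)).trans ck
    have h2 := relIndex_pos (𝒞[k]) (V ⊓ 𝒞(H'))
    refine mem_cent_iff_le_cent_singleton.2 (relIndex_eq_one.1 ?_)
    have h3 : (𝒞[k]).relIndex (V ⊓ 𝒞(H)) = 16 := by omega
    rw [h3] at this
    omega
  · obtain ⟨i', hi', rfl⟩ := (Nat.dvd_prime_pow hr).1 e1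
    have h1 := (Nat.modEq_iff_dvd' (Nat.pow_le_pow_right hr.pos hi')).1 e2.symm
    by_contra hh
    have h2 : p ∣ 2 ^ 3 * 3 := by
      interval_cases i'
      · exact h1.trans (by norm_num)
      · exact h1.trans (by norm_num)
      · simp at hh
    rcases (Nat.Prime.dvd_mul c.hp).1 h2 with h3 | h3
    · exact c.p2 ((Nat.prime_dvd_prime_iff_eq c.hp Nat.prime_two).1 (c.hp.dvd_of_dvd_pow h3))
    · exact c.pr ((Nat.prime_dvd_prime_iff_eq c.hp Nat.prime_three).1 h3)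

end Sp

namespace Sp

variable {V Z K T A H H' H'' : Subgroup G} {b : G} (c : Sp p q 2 V Z K T A b)
include c

theorem QR (h : Lm 2 V Z H) {x : G} (hx : x ∈ cmod K H K) : x ^ 2 ∈ H := by
  have l := c.loc h
  have mR : ∀ {x y : G}, x ∈ cmod K H K → y ∈ K → ⁅x⁻¹, y⁆ ∈ H := fun hx hy =>
    ((mem_cmod l.nH).1 (inv_mem hx)).2 _ hy
  let L : Subgroup G :=
    { carrier := {x | x ∈ cmod K H K ∧ x ^ 2 ∈ H}
      mul_mem' := fun {x y} hx hy => ⟨mul_mem hx.1 hy.1, by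
        rw [sq_mul]; exact mul_mem (mul_mem hx.2 (mR hx.1 (cmod_le _ _ _ hy.1))) hy.2⟩
      one_mem' := ⟨one_mem _, by simp [one_mem]⟩
      inv_mem' := fun {x} hx => ⟨inv_mem hx.1, by rw [inv_pow]; exact inv_mem hx.2⟩ }
  have h1 : cmod K H K ≤ L := by
    refine (coprime_cent_prod (c.TR h) ((c.rK.of_le (cmod_le _ _ _)).coprime_of_ne c.qT c.s.qr.symm)
      (Or.inr c.qT.sol)).ge.trans (sup_le (commutator_le.2 fun x hx t ht => ⟨?_, ?_⟩) fun x hx => ⟨hx.1, ?_⟩)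
    · exact comm_le_left (c.TR h) (commutator_mem_commutator hx ht)
    · have xK := cmod_le _ _ _ hx
      rw [show ⁅x, t⁆ = x * (t * x⁻¹ * t⁻¹) by rw [commutatorElement_def]; group, sq_mul, conj_pow, inv_pow,
        comm_of_le_cent c.TZ ht (inv_mem (c.pw x xK)), mul_inv_cancel_right]
      exact conj_mem_of_le_norm l.nH (pow_mem xK 2) (mR hx (conj_mem_of_le_norm c.TK ht (inv_mem xK)))
    · rw [c.s.eZ.2 x (c.fT ⟨cmod_le _ _ _ hx.1, hx.2⟩)]; exact one_mem _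
  exact (h1 hx).2

theorem Qcos (h : Lm 2 V Z H) {x y : G} (hx : x ∈ cmod K H K) (hy : y ∈ K) : (x * y) ^ 2 ∈ H ↔ y ^ 2 ∈ H := by
  rw [sq_mul]
  exact mul_mem_cancel_left (mul_mem (c.QR h hx) (((mem_cmod (c.loc h).nH).1 (inv_mem hx)).2 _ hy))

theorem exk (h : Lm 2 V Z H) (n : ¬ ⁅K, zpowers b⁆ ≤ cmod K H K) : ∃ y ∈ K, ⁅y, b⁆ ^ 2 ∉ H := by
  have l := c.loc h
  by_contra hh
  push Not at hh
  refine n (c.le_R h fun y hy => (mem_cmod l.nH).2 ⟨c.cb hy, fun t ht => comm_symm_mem ?_⟩)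
  have uK := c.cb hy
  refine ((l.mem1 le_rfl uK).1 ((coprime_cent_prod c.bK (c.rK.coprime_of_ne c.qb c.s.qr.symm)
    (Or.inl c.rK.sol)).ge.trans (sup_le ?_ ?_) ht)).2
  · rw [zpowers_eq_closure b]
    refine comm_closure_le (cmod_le _ _ _) (fun s hs => hs ▸ c.TK c.hb) ?_
    intro s hs x hx
    rw [show s = b from hs]
    have vK := c.cb hx
    have h1 := (c.Qcos h (c.ZR h (inv_mem (l.cmm hy vK))) (c.cb (mul_mem hy hx))).2 (hh _ (mul_mem hy hx))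
    rw [show ⁅y, ⁅x, b⁆⁆⁻¹ * ⁅y * x, b⁆ = ⁅x, b⁆ * ⁅y, b⁆ by simp only [commutatorElement_def]; group,
      sq_mul, mul_mem_cancel_right (hh y hy), mul_mem_cancel_left (hh x hx)] at h1
    simpa using inv_mem ((l.mem1 le_rfl uK).2 ⟨inv_mem vK, h1⟩)
  · have h1 : ⁅⁅K, zpowers b⁆, K ⊓ 𝒞(zpowers b)⁆ = ⊥ := three_subgroup
      (by rw [comm_eq_bot_iff'.2 inf_le_right, commutator_bot_left])
      (comm_eq_bot_iff'.2 (((zpowers_le.2 c.hb).trans c.TZ).trans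
        (cent_anti ((commutator_mono inf_le_left le_rfl).trans c.dK.le))))
    refine le_cmod inf_le_left (le_trans ?_ bot_le)
    rw [commutator_comm, ← h1]
    exact commutator_mono (zpowers_le.2 (commutator_mem_commutator hy (mem_zpowers b))) le_rfl

theorem dim2 (h : Lm 2 V Z H) (n : ¬ ⁅K, zpowers b⁆ ≤ cmod K H K) {i : ℕ}
    (hi : (𝒞[b]).relIndex (V ⊓ 𝒞(H)) ≤ q ^ i) :
    ∃ m, m ≠ 0 ∧ (cmod K H K).relIndex K = 2 ^ (2 * m) ∧ 2 ^ m ≤ i * 2 := by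
  have l := c.loc h
  obtain ⟨y, hy, nk⟩ := c.exk h n
  obtain ⟨m, n, a1, a2, a3⟩ := Loc.dim _ l rfl fun h => absurd rfl h
  refine ⟨m, ?_, a1, a3.trans ?_⟩
  · rintro rfl
    exact nk (c.QR h (relIndex_eq_one.1 a1 (c.cb hy)))
  · have h1 : V ⊓ 𝒞(H) ⊓ 𝒞[⁅y, b⁆] = ⊥ := le_bot_iff.1 ((inf_le_inf_left _ (cent_singleton_le_pow _ 2)).trans
      (l.fixz (c.pw _ (c.cb hy)) nk).le)
    rw [← Nat.pow_le_pow_iff_right c.s.hq.one_lt, ← a2, ← ci_of_inf h1, pow_mul]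
    exact (ci_comm b (l.KU hy)).trans (Nat.pow_le_pow_left hi 2)

theorem eq_of_R (h : Lm 2 V Z H) (h' : Lm 2 V Z H') (i : (cmod K H K).relIndex K = 4)
    (i' : (cmod K H' K).relIndex K = 4) (e : cmod K H' K = cmod K H K) : H = H' := by
  have key : ∀ {H H' : Subgroup G}, Lm 2 V Z H → Lm 2 V Z H' → (cmod K H K).relIndex K = 4 →
      cmod K H' K = cmod K H K → ∀ x ∈ K, ∀ y ∈ K, ⁅x, y⁆ ∈ H → ⁅x, y⁆ ∈ H' := by
    intro H H' h h' i e x hx y hy hxy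
    have l := c.loc h
    have l' := c.loc h'
    by_cases yR : y ∈ cmod K H K
    · exact comm_symm_mem (((mem_cmod l'.nH).1 (e ▸ yR)).2 x hx)
    obtain ⟨k, hk, nk⟩ := l.exk hy yR
    have i1 := relIndex_mul_relIndex _ _ K (l.R_le hy) (cmod_le K H (zpowers y))
    rw [l.idx1 hy hk nk, i] at i1
    have yy : ∀ {H : Subgroup G}, Lm 2 V Z H → zpowers y ≤ cmod K H (zpowers y) := fun h =>
      zpowers_le.2 (((c.loc h).mem1 le_rfl hy).2 ⟨hy, by simp [one_mem]⟩)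
    have h1 := sup_eq_of_idx Nat.prime_two (l.R_le hy) (by omega) (yy h) fun hh => yR (hh (mem_zpowers y))
    exact ((l'.mem1 le_rfl hy).1 (h1.ge.trans (sup_le (e ▸ l'.R_le hy) (yy h'))
      ((l.mem1 le_rfl hy).2 ⟨hx, hxy⟩))).2
  have m2 : ∀ {H : Subgroup G}, Lm 2 V Z H → ∀ {x y : G}, x ∈ Z → y ∈ Z → (x * y ∈ H ↔ (x ∈ H ↔ y ∈ H)) :=
    fun {H} h {x y} hx hy => mul_mem_iff_of_index_two (H := H.subgroupOf Z) h.idx (a := ⟨x, hx⟩) (b := ⟨y, hy⟩)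
  let L : Subgroup G :=
    { carrier := {z | z ∈ Z ∧ (z ∈ H ↔ z ∈ H')}
      mul_mem' := fun {x y} hx hy => ⟨mul_mem hx.1 hy.1, by
        rw [m2 h hx.1 hy.1, m2 h' hx.1 hy.1, hx.2, hy.2]⟩
      one_mem' := ⟨one_mem _, by simp [one_mem]⟩
      inv_mem' := fun {x} hx => ⟨inv_mem hx.1, by simpa using hx.2⟩ }
  have h1 : Z ≤ L := c.dK.ge.trans (commutator_le.2 fun x hx y hy =>
    ⟨(c.loc h).cmm hx hy, key h h' i e x hx y hy, key h' h i' e.symm x hx y hy⟩)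
  ext z
  exact ⟨fun hz => (h1 (h.le hz)).2.1 hz, fun hz => (h1 (h'.le hz)).2.2 hz⟩

theorem two_case (h : Lm 2 V Z H) (h' : Lm 2 V Z H') (n : ¬ ⁅K, zpowers b⁆ ≤ cmod K H K)
    (n' : ¬ ⁅K, zpowers b⁆ ≤ cmod K H' K) : H = H' := by
  by_contra ne
  have hq := c.s.hq
  have a0 := (c.s.ci2 h h' ne (c.TV c.hb) (c.TH h c.hb)).trans c.hc
  have a1 := c.ge_q h n
  have a2 := c.ge_q h' n'
  have q0 := hq.pos
  have four : ∀ {H : Subgroup G}, Lm 2 V Z H → ¬ ⁅K, zpowers b⁆ ≤ cmod K H K →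
      (𝒞[b]).relIndex (V ⊓ 𝒞(H)) ≤ q ^ 1 → (cmod K H K).relIndex K = 4 := fun h n hi => by
    obtain ⟨m, m0, e, hm⟩ := c.dim2 h n hi
    obtain rfl : m = 1 := by
      by_contra hh
      have : 2 ^ 2 ≤ 2 ^ m := Nat.pow_le_pow_right two_pos (by omega)
      omega
    exact e
  have i := four h n (by nlinarith)
  have i' := four h' n' (by nlinarith)
  obtain ⟨d, d1, d2, d3, d4⟩ := c.trb h n
  rw [i] at d1 d2 d3
  have d5 := Nat.le_of_dvd (by norm_num) d1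
  have d6 := (Nat.modEq_iff_dvd' d5).1 d3.symm
  have qr := c.s.qr
  have e : d = 1 ∧ q = 3 := by
    interval_cases d
    · omega
    · exact ⟨rfl, (Nat.prime_dvd_prime_iff_eq hq Nat.prime_three).1 d6⟩
    · exact absurd ((Nat.prime_dvd_prime_iff_eq hq Nat.prime_two).1 d6) qr
    · omega
    · omega
  by_cases hR : cmod K H' K ≤ cmod K H K
  · refine ne (c.eq_of_R h h' i i' (le_antisymm hR (relIndex_eq_one.1 ?_)))
    have := relIndex_mul_relIndex _ _ K hR (cmod_le K H K)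
    rw [i, i'] at this
    omega
  obtain ⟨x, hx, nx⟩ := SetLike.not_le_iff_exists.1 hR
  have xK := cmod_le _ _ _ hx
  obtain ⟨f, e1, e2, e3⟩ := c.trA h
  rw [i] at e1 e2 e3
  refine nx (d4 e.1 x xK (c.trc h (c.cb xK) (fun H'' h'' ne' => ?_) (e3 ?_ _ (c.cb xK))))
  · by_cases e' : H'' = H'
    · rw [e']
      exact comm_le_left ((zpowers_le.2 c.hb).trans (c.TR h')) (commutator_mem_commutator hx (mem_zpowers b))
    · by_contra hn
      exact c.three h h' h'' n n' (fun hh => hn (hh (commutator_mem_commutator xK (mem_zpowers b)))) ne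
        ne'.symm (Ne.symm e')
  · have f5 := Nat.le_of_dvd (by norm_num) e1
    have f6 := (Nat.modEq_iff_dvd' f5).1 e2.symm
    interval_cases f
    · omega
    · exact absurd (((Nat.prime_dvd_prime_iff_eq c.hp Nat.prime_three).1 f6).trans e.2.symm) c.pq
    · exact absurd ((Nat.prime_dvd_prime_iff_eq c.hp Nat.prime_two).1 f6) c.p2
    · omega
    · rfl

theorem even_case : False := by
  obtain ⟨H, h, nK0⟩ := c.exists_lm
  have l := c.loc h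
  have hq := c.s.hq
  have hp := c.hp
  obtain ⟨m, -, a1, a2⟩ := c.dim2 h nK0 ((ci_mono b inf_le_left).trans c.hc)
  have a3 : (cmod K H K).relIndex K ≤ 16 := by
    rw [a1, mul_comm, pow_mul]
    exact (Nat.pow_le_pow_left a2 2).trans (by norm_num)
  have RK := cmod_le K H K
  have h1 : K ≤ (K ⊓ ⨅ (H' : Subgroup G) (_ : Lm 2 V Z H' ∧ H' ≠ H), cmod K H' K) ⊔ cmod K H K := by
    refine c.KT.ge.trans ((commutator_mono le_rfl c.gen).trans (comm_closure_le (sup_le inf_le_left RK) ?_ ?_))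
    · rintro _ ⟨g, hg, rfl⟩
      exact mul_mem (mul_mem hg.2 (c.TK c.hb)) (inv_mem hg.2)
    · rintro _ ⟨g, hg, rfl⟩ x hx
      have e : ⁅x, g * b * g⁻¹⁆ = g * ⁅g⁻¹ * x * g, b⁆ * g⁻¹ := by
        simp only [commutatorElement_def]; group
      have x' := conj_mem_of_mem_norm' hg.2 hx
      have key : ∀ H', Lm 2 V Z H' → H' ≠ H :^ g → ⁅x, g * b * g⁻¹⁆ ∈ cmod K H' K := by
        intro H' h' ne
        rw [e, ← mem_conjg_inv, c.Rconj H' (inv_mem hg.2)]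
        by_contra hn
        refine ne (conjg_eq_iff.1 (c.two_case (h'.conj (inv_mem hg.1) (inv_mem (c.nZ hg.2))) h
          (fun hh => hn (hh (commutator_mem_commutator x' (mem_zpowers b)))) nK0) |>.trans (by rw [inv_inv]))
      by_cases e' : H = H :^ g
      · refine mem_sup_left ⟨e ▸ conj_mem_of_mem_norm hg.2 (c.cb x'), ?_⟩
        exact mem_iInf.2 fun H' => mem_iInf.2 fun h' => key H' h'.1 (e' ▸ h'.2)
      · exact mem_sup_right (key H h e')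
  have AK : A ⊓ 𝒩(H) ≤ 𝒩(K) := inf_le_left.trans c.AK
  have AR : A ⊓ 𝒩(H) ≤ 𝒩(cmod K H K) := norm_cmod AK inf_le_right AK
  have h2 : ∀ x ∈ K, A ⊓ 𝒩(H) ≤ 𝒞[x] → x ∈ cmod K H K := by
    intro x hx hc
    obtain ⟨y, hy, z, hz, rfl⟩ := (mem_sup_of_left_le_norm (inf_le_left.trans (c.nR h).2)).1 (h1 hx)
    refine mul_mem (c.trc h hy.1 (fun H' h' ne => mem_iInf.1 (mem_iInf.1 hy.2 H') ⟨h', ne⟩) ?_) hz
    have m1 : y * z ∈ cmod K (cmod K H K) (A ⊓ 𝒩(H)) := (mem_cmod (c.nR h).2).2 ⟨hx, fun a ha => by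
      rw [commutatorElement_eq_one_iff_mul_comm.2 (mem_centralizer_singleton_iff.1 (hc ha)).symm]
      exact one_mem _⟩
    have m2 := mul_mem m1 (inv_mem (self_le_cmod RK AR hz))
    rw [mul_inv_cancel_right] at m2
    exact ((mem_cmod (c.nR h).2).1 m2).2
  have cnt : ∀ S : Set G, (∀ x ∈ S, x ∈ K ∧ x ∉ cmod K H K) → (∀ a ∈ cmod K H K, ∀ x ∈ S, a * x ∈ S) →
      (∀ a ∈ 𝒩(K) ⊓ 𝒩(H), ∀ x ∈ S, a * x * a⁻¹ ∈ S) → p * q * Nat.card (cmod K H K) ∣ S.ncard := by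
    intro S s1 s2 s3
    have rR := c.rK.of_le RK
    refine Nat.Coprime.mul_dvd_of_dvd_of_dvd (Nat.Coprime.mul_left
      ((piNat_singleton_self hp).coprime_of_ne rR c.pr) ((piNat_singleton_self hq).coprime_of_ne rR c.s.qr))
      (Nat.Coprime.mul_dvd_of_dvd_of_dvd ((Nat.coprime_primes hp hq).2 c.pq) ?_ ?_) (dvd_ncard_mul s2)
    · exact dvd_ncard_conj hp (c.pA.inf_left 𝒩(H)) (fun a ha => s3 a ⟨AK ha, ha.2⟩)
        fun x hx hc => (s1 x hx).2 (h2 x (s1 x hx).1 hc)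
    · exact dvd_ncard_conj hq c.qT (fun a ha => s3 a ⟨c.TK ha, c.TH h ha⟩)
        fun x hx hc => (s1 x hx).2 (c.ZR h (c.fT ⟨(s1 x hx).1, mem_cent_iff_le_cent_singleton.2 hc⟩))
  have cj : ∀ a ∈ 𝒩(H), ∀ x : G, (a * x * a⁻¹) ^ 2 ∈ H ↔ x ^ 2 ∈ H := fun a ha x => by
    rw [conj_pow]; exact ((mem_normalizer_iff.1 ha) _).symm
  obtain ⟨u, hu⟩ := cnt {x | x ∈ K ∧ x ^ 2 ∉ H} (fun x hx => ⟨hx.1, fun hh => hx.2 (c.QR h hh)⟩)
    (fun a ha x hx => ⟨mul_mem (RK ha) hx.1, fun hh => hx.2 ((c.Qcos h ha hx.1).1 hh)⟩)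
    fun a ha x hx => ⟨conj_mem_of_mem_norm ha.1 hx.1, fun hh => hx.2 ((cj a ha.2 x).1 hh)⟩
  obtain ⟨v, hv⟩ := cnt {x | x ∈ K ∧ x ∉ cmod K H K ∧ x ^ 2 ∈ H} (fun x hx => ⟨hx.1, hx.2.1⟩)
    (fun a ha x hx => ⟨mul_mem (RK ha) hx.1, fun hh => hx.2.1 ((mul_mem_cancel_left ha).1 hh),
      (c.Qcos h ha hx.1).2 hx.2.2⟩)
    fun a ha x hx => ⟨conj_mem_of_mem_norm ha.1 hx.1, fun hh => hx.2.1 ((mem_normalizer_iff.1
      (norm_cmod inf_le_left inf_le_right inf_le_left ha) x).2 hh), (cj a ha.2 x).2 hx.2.2⟩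
  have tot : ({x | x ∈ K ∧ x ^ 2 ∉ H} : Set G).ncard + ({x | x ∈ K ∧ x ∉ cmod K H K ∧ x ^ 2 ∈ H} : Set G).ncard
      + Nat.card (cmod K H K) = Nat.card K := by
    rw [← Set.ncard_union_eq (Set.disjoint_left.2 fun x h1 h2 => h1.2 h2.2.2)]
    change _ + (cmod K H K : Set G).ncard = (K : Set G).ncard
    rw [← Set.ncard_union_eq (Set.disjoint_left.2 ?_)]
    · congr 1
      ext x
      refine ⟨?_, fun hx => ?_⟩
      · rintro ((hx | hx) | hx)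
        exacts [hx.1, hx.1, RK hx]
      · by_cases e1 : x ∈ cmod K H K
        · exact Or.inr e1
        · by_cases e2 : x ^ 2 ∈ H
          · exact Or.inl (Or.inr ⟨hx, e1, e2⟩)
          · exact Or.inl (Or.inl ⟨hx, e2⟩)
    · rintro x (hx | hx) h2
      exacts [hx.2 (c.QR h h2), hx.2.1 h2]
  obtain ⟨y, hy, nk⟩ := c.exk h nK0
  have u0 : u ≠ 0 := by
    rintro rfl
    rw [mul_zero, Set.ncard_eq_zero (Set.toFinite _)] at hu
    exact Set.eq_empty_iff_forall_notMem.1 hu _ ⟨c.cb hy, nk⟩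
  rw [hu, hv, ← card_mul_relIndex RK] at tot
  have t2 : p * q * u + p * q * v + 1 = (cmod K H K).relIndex K :=
    Nat.eq_of_mul_eq_mul_left (Nat.card_pos (α := cmod K H K)) (by rw [← tot]; ring)
  have pq : 15 ≤ p * q := by
    have := hp.two_le
    have := hq.two_le
    have := c.p2
    have := c.s.qr
    have := c.pq
    have p4 : p ≠ 4 := by rintro rfl; norm_num at hp
    have q4 : q ≠ 4 := by rintro rfl; norm_num at hq
    rcases lt_or_gt_of_ne c.pq with h | h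
    · exact Nat.mul_le_mul (show 3 ≤ p by omega) (show 5 ≤ q by omega)
    · exact Nat.mul_le_mul (show 5 ≤ p by omega) (show 3 ≤ q by omega)
  have t3 : p * q * 1 ≤ p * q * u := Nat.mul_le_mul_left _ (by omega)
  have v0 : v = 0 := by
    by_contra hh
    have : p * q * 1 ≤ p * q * v := Nat.mul_le_mul_left _ (by omega)
    omega
  rw [v0, mul_zero, Set.ncard_eq_zero (Set.toFinite _)] at hv
  have := l.aniso rfl (c.cb hy) (fun hh => nk (c.QR h hh))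
    fun x hx nx hh => Set.eq_empty_iff_forall_notMem.1 hv x ⟨hx, nx, hh⟩
  omega

end Sp

theorem mt_sp (hp : p.Prime) (p2 : p ≠ 2) (pq : p ≠ q) (pr : p ≠ r) {V Z K T A : Subgroup G} (s : St q r V Z)
    (rK : IsPGrp r K) (KV : K ≤ 𝒩(V)) (dK : ⁅K, K⁆ = Z) (zK : K ⊓ 𝒞(K) = Z) (pw : ∀ x ∈ K, x ^ r ∈ Z)
    (pA : IsPGrp p A) (AV : A ≤ 𝒩(V)) (AK : A ≤ 𝒩(K)) (qT : IsPGrp q T) (TV : T ≤ 𝒩(V)) (TK : T ≤ 𝒩(K))
    (TZ : T ≤ 𝒞(Z)) (KT : ⁅K, T⁆ = K) (fT : K ⊓ 𝒞(T) ≤ Z) (fA : K ⊓ 𝒞(A) ≤ Z) {b : G} (hb : b ∈ T)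
    (gen : T ≤ Subgroup.closure {t | ∃ g ∈ 𝒩(V) ⊓ 𝒩(K), t = g * b * g⁻¹}) (nb : b ∉ 𝒞(K)) :
    q ^ 3 ≤ (𝒞[b]).relIndex V := by
  by_contra hc
  have c : Sp p q r V Z K T A b := ⟨hp, p2, pq, pr, s, rK, KV, dK, zK, pw, pA, AV, AK, qT, TV, TK, TZ, KT,
    fT, fA, hb, gen, nb, ci_le s.hq s.qV (not_le.1 hc)⟩
  by_cases r2 : r = 2
  · subst r2
    exact c.even_case
  · exact c.odd_case r2

end CA.Sig.MT
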