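/-
Reduction of `GoodMin` to the bound `|V : C_V(b)| ≥ q ^ 3` on faithful modules.
Owner: helper1.
-/
import Cfsg.Agent.Sig.GD

set_option autoImplicit false

namespace CA.Sig

open Cfsg CA.FG CA.BG

universe u

/-- the bound for a single element on a faithful module -/
def MT (X : Type u) [Group X] : Prop :=
  ∀ {p q : ℕ} (_ : p.Prime) (_ : p ≠ 2) (_ : q.Prime) {A M V B : Subgroup X} (_ : IsPGrp p A)
    (_ : A ≤ 𝒩(M)) (_ : IsPiGrp {p}ᶜ M) (_ : Group.IsSolvable M) (_ : IsElementaryAbelian q V)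
    (_ : M ≤ 𝒩(V)) (_ : A ≤ 𝒩(V)) (_ : M ⊓ 𝒞(V) = ⊥) (_ : pCoreOf q M = ⊥) (_ : B ≤ M) (_ : IsPGrp q B)
    (_ : A ≤ 𝒩(B)) (_ : M ⊓ 𝒞(A) ≤ 𝒩(B)) {b : X} (_ : b ∈ B) (_ : b ≠ 1) (_ : b ^ q = 1),
    q ^ 3 ≤ (𝒞[b]).relIndex V

variable {X : Type u} [Group X] [Finite X] {p q : ℕ}

theorem good_faithful (mt : MT X) (hp : p.Prime) (p2 : p ≠ 2) (hq : q.Prime) {A M V B : Subgroup X}
    (pA : IsPGrp p A) (nM : A ≤ 𝒩(M)) (pM : IsPiGrp {p}ᶜ M) (sol : Group.IsSolvable M)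
    (aV : IsElementaryAbelian q V) (nV : M ≤ 𝒩(V)) (nVA : A ≤ 𝒩(V)) (f : M ⊓ 𝒞(V) = ⊥)
    (o : pCoreOf q M = ⊥) (BM : B ≤ M) (qB : IsPGrp q B) (nB : A ≤ 𝒩(B)) (cB : M ⊓ 𝒞(A) ≤ 𝒩(B))
    (E : Subgroup X) : E ≤ B → IsElementaryAbelian q E → E ≠ ⊥ →
      q ^ 2 * Nat.card E ≤ (𝒞(E)).relIndex V := by
  induction hn : Nat.card E using Nat.strong_induction_on generalizing E with
  | _ n ih =>
  intro EB aE E0
  subst hn
  have EM := EB.trans BM
  have qE := abelem_pGrp hq aE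
  have qV := abelem_pGrp hq aV
  have pF : IsPiGrp {q}ᶜ (fittingOf M) := by
    have h1 := pcore_sylow_fitting q M
    rw [o] at h1
    exact h1.eq_bot_iff.1 rfl
  have nF : E ≤ 𝒩(fittingOf M) := EM.trans (fitting_norm M)
  have h1 : ¬ fittingOf M ≤ 𝒞(E) := fun c =>
    E0 ((qE.eq_bot (pF.of_le ((le_inf EM (le_cent_symm c)).trans (cent_sub_Fitting sol)))))
  obtain ⟨E₀, h0, hi, h3⟩ : ∃ E₀, E₀ ≤ E ∧ E₀.relIndex E = q ∧ ¬ fittingOf M ⊓ 𝒞(E₀) ≤ 𝒞(E) := by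
    by_contra hh
    push Not at hh
    exact h1 (coprime_abelem_gen_cent_le hq aE E0 nF (qE.coprime pF).symm hh)
  have card0 : Nat.card E = Nat.card E₀ * q := by rw [← card_mul_relIndex h0, hi]
  by_cases e : E₀ = ⊥
  · rw [e, Subgroup.card_bot, one_mul] at card0
    obtain ⟨b, hb, b1⟩ := exists_mem_ne_one E0
    rw [cent_eq_cent_singleton_of_prime (card0 ▸ hq) hb b1, card0, ← pow_succ]
    exact mt hp p2 hq pA nM pM sol aV nV nVA f o BM qB nB cB (EB hb) b1 (aE.2 b hb)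
  have lt : Nat.card E₀ < Nat.card E := by
    rw [card0]; exact lt_mul_of_one_lt_right Nat.card_pos hq.one_lt
  have h4 := ih _ lt E₀ rfl (h0.trans EB) (abelem_of_le aE h0) e
  have nK : E ≤ 𝒩(fittingOf M ⊓ 𝒞(E₀)) := norm_inf nF (norm_cent (norm_of_le_abelian aE.1 h0))
  have hK : ⁅fittingOf M ⊓ 𝒞(E₀), E⁆ ≤ fittingOf M ⊓ 𝒞(E₀) := comm_le_left nK
  have KM : fittingOf M ⊓ 𝒞(E₀) ≤ M := inf_le_left.trans (fitting_le M)
  have h5 : ¬ 𝒞(E₀) ⊓ V ≤ 𝒞(E) := fun c => h3 (by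
    rw [← comm_eq_bot_iff, ← le_bot_iff, ← f]
    refine le_inf (hK.trans KM) (coprime_A_times_B qV (qE.of_le h0) ((pF.inf_left _).of_le hK)
      ((hK.trans KM).trans nV) ((h0.trans EM).trans nV) (hK.trans inf_le_right) ?_)
    rw [inf_comm V]
    exact (Subgroup.commutator_mono le_rfl (le_cent_symm c)).trans (comm_le_right (norm_cent
      (norm_inf (norm_of_le inf_le_right) (KM.trans nV)))))
  have h6 : q ≤ (𝒞(E)).relIndex (𝒞(E₀) ⊓ V) := by
    obtain ⟨k, hk⟩ := (piNat_singleton_iff hq (relIndex_pos _ _).ne').1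
      ((qV.inf_right (𝒞(E₀))).relIndex (𝒞(E)))
    refine Nat.le_of_dvd (relIndex_pos _ _) ?_
    rw [hk]
    refine dvd_pow_self _ fun e => h5 ?_
    rwa [e, pow_zero, Subgroup.relIndex_eq_one] at hk
  have cE : 𝒞(E) ≤ 𝒞(E₀) := cent_anti h0
  have f2 : (𝒞(E)).relIndex (𝒞(E₀) ⊓ V) * (𝒞(E₀)).relIndex V = (𝒞(E)).relIndex V := by
    rw [← Subgroup.relIndex_mul_relIndex (𝒞(E) ⊓ V) (𝒞(E₀) ⊓ V) V (inf_le_inf_right _ cE) inf_le_right
      |>.trans (Subgroup.inf_relIndex_right _ _), Subgroup.inf_relIndex_right,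
      ← Subgroup.inf_relIndex_right (𝒞(E)) (𝒞(E₀) ⊓ V), ← inf_assoc, inf_eq_left.2 cE]
  rw [← f2, card0]
  calc _ = q * (q ^ 2 * Nat.card E₀) := by ring
    _ ≤ _ := Nat.mul_le_mul h6 h4

/-- a faithful model of the action of `N(Y)` on `Y` -/
theorem exists_model (Y : Subgroup X) : ∃ (X' : Type u) (_ : Group X') (_ : Finite X') (V : Subgroup X')
    (ψ : 𝒩(Y) →* X'), Nonempty (Y ≃* V) ∧ ψ.range ≤ 𝒩(V) ∧ ψ.range ⊓ 𝒞(V) = ⊥ ∧ pre ψ ⊥ = 𝒞(Y) ∧
      ∀ H : Subgroup X, H ≤ 𝒩(Y) → (𝒞(img ψ H)).relIndex V = (𝒞(H)).relIndex Y := by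
  obtain ⟨X', _, _, f, g, hf, hg, h⟩ := exists_holomorph Y
  have key : ∀ (x : 𝒩(Y)) (y : Y), f y * g (Y.normalizerMonoidHom x) = g (Y.normalizerMonoidHom x) * f y ↔
      (y : X) * x = x * y := fun x y => by
    rw [eq_comm, ← mul_inv_eq_iff_eq_mul, h, hf.eq_iff, Subtype.ext_iff, eq_comm (a := (y : X) * x),
      ← mul_inv_eq_iff_eq_mul]
    rfl
  refine ⟨X', inferInstance, inferInstance, f.range, g.comp Y.normalizerMonoidHom,
    ⟨MonoidHom.ofInjective hf⟩, ?_, ?_, ?_, fun H hH => ?_⟩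
  · rintro _ ⟨x, rfl⟩
    refine mem_norm_of_forall ?_
    rintro _ ⟨y, rfl⟩
    exact ⟨_, (h _ y).symm⟩
  · rw [eq_bot_iff]
    rintro _ ⟨⟨x, rfl⟩, hc⟩
    have : Y.normalizerMonoidHom x = 1 := by
      ext y
      have h1 := hc (f y) ⟨y, rfl⟩
      have h2 := h (Y.normalizerMonoidHom x) y
      rw [show g (Y.normalizerMonoidHom x) * f y = f y * g (Y.normalizerMonoidHom x) from h1.symm,
        mul_inv_cancel_right] at h2
      rw [← hf h2]; rfl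
    change g (Y.normalizerMonoidHom x) = 1
    rw [this, map_one]
  · ext x
    rw [mem_pre]
    constructor
    · rintro ⟨hx, h1⟩ y hy
      refine (key ⟨x, hx⟩ ⟨y, hy⟩).1 ?_
      rw [show g (Y.normalizerMonoidHom ⟨x, hx⟩) = 1 from h1, mul_one, one_mul]
    · intro hx
      refine ⟨cent_le_norm Y hx, ?_⟩
      have : Y.normalizerMonoidHom ⟨x, cent_le_norm Y hx⟩ = 1 := by
        ext y
        change x * y * x⁻¹ = y
        rw [← hx y y.2, mul_inv_cancel_right]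
      change g (Y.normalizerMonoidHom _) = 1
      rw [this, map_one]
  · rw [MonoidHom.range_eq_map, ← Subgroup.relIndex_comap, Subgroup.relIndex_top_right, Subgroup.relIndex]
    congr 1
    ext y
    rw [Subgroup.mem_comap, Subgroup.mem_subgroupOf]
    constructor
    · intro h1 x hx
      exact ((key ⟨x, hH hx⟩ y).1 (h1 _ (mem_img_of_mem (hH hx) hx)).symm).symm
    · intro h1 z hz
      obtain ⟨x, hx, rfl⟩ := mem_img.1 hz
      exact ((key x y).2 (h1 _ hx).symm).symm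

theorem goodMin_of_mt (mt : ∀ (Y : Type u) [Group Y] [Finite Y], MT Y) : GoodMin X := by
  intro p q hp p2 hq A M Y B pA nM pM sol _ mY aY BM qB nB cB E EB aE hE
  obtain ⟨X', _, _, V, ψ, ⟨e⟩, nV, fV, ker, idx⟩ := exists_model Y
  have nY : M ≤ 𝒩(Y) := le_sup_left.trans mY.norm
  have nYA : A ≤ 𝒩(Y) := le_sup_right.trans mY.norm
  have EY := (EB.trans BM).trans nY
  have aV : IsElementaryAbelian q V := (abelem_congr e).1 aY
  have f : img ψ M ⊓ 𝒞(V) = ⊥ := le_bot_iff.1 (fV ▸ inf_le_inf_right _ (img_le_range ψ M))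
  have o : pCoreOf q (img ψ M) = ⊥ := by
    have OR : pCoreOf q (img ψ M) ≤ ψ.range := (pcore_le _ _).trans (img_le_range ψ M)
    have h1 := idx (pre ψ (pCoreOf q (img ψ M))) (pre_le _ _)
    rw [img_pre OR] at h1
    have n : M ⊔ A ≤ 𝒩(Y ⊓ 𝒞(pre ψ (pCoreOf q (img ψ M)))) :=
      norm_inf mY.norm (norm_cent (sup_le (le_norm_pre nY (pcore_norm _ _))
        (le_norm_pre nYA (norm_pcore _ (img_norm nM)))))
    have V0 : V ≠ ⊥ := fun h => mY.ne_bot (by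
      rw [← Subgroup.card_eq_one, Nat.card_congr e.toEquiv, h, Subgroup.card_bot])
    rcases mY.eq_bot_or_eq inf_le_left n with h | h
    · exfalso
      have h2 := card_inf_mul_relIndex (𝒞(pre ψ (pCoreOf q (img ψ M)))) Y
      have h3 := card_inf_mul_relIndex (𝒞(pCoreOf q (img ψ M))) V
      rw [inf_comm, h, Subgroup.card_bot, one_mul, Nat.card_congr e.toEquiv, ← h1] at h2
      rw [h2, mul_left_eq_self₀, Subgroup.card_eq_one, inf_comm] at h3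
      exact pGrp_inf_cent_ne_bot (abelem_pGrp hq aV) (pcore_pGrp q _) (OR.trans nV) V0
        (h3.resolve_right Nat.card_pos.ne')
    · rw [Subgroup.relIndex_eq_one.2 (inf_eq_left.1 h), Subgroup.relIndex_eq_one] at h1
      exact le_bot_iff.1 (f ▸ le_inf (pcore_le _ _) (le_cent_symm h1))
  have cB' : img ψ M ⊓ 𝒞(img ψ A) ≤ 𝒩(img ψ B) := by
    rintro _ ⟨hz, hc⟩
    obtain ⟨m, hm, rfl⟩ := mem_img.1 hz
    obtain ⟨r, hr, h1⟩ := coprime_cent_coset (R := M ⊓ 𝒞(Y)) (norm_inf nM (norm_cent nYA))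
      (pA.coprime (pM.inf_left _)).symm (Or.inr pA.sol) (x := (m : X)) fun a ha => by
        refine ⟨M.mul_mem (M.inv_mem hm) (conj_mem_of_le_norm nM ha hm), ?_⟩
        change _ ∈ 𝒞(Y)
        rw [← ker]
        have h2 := hc _ (mem_img_of_mem (nYA ha) ha)
        refine (coe_mem_pre (f := ψ) (x := m⁻¹ * (⟨a, nYA ha⟩ * m * (⟨a, nYA ha⟩)⁻¹))).2 ?_
        rw [map_mul, map_mul, map_mul, map_inv, map_inv, h2, Subgroup.mem_bot]
        group
    have h2 : ψ ⟨r, nY hr.1⟩ = 1 := by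
      have := hr.2
      change r ∈ 𝒞(Y) at this
      rw [← ker] at this
      exact (mem_pre.1 this).2
    have h3 : ψ (m * ⟨r, nY hr.1⟩) ∈ img ψ 𝒩(B) := mem_img.2 ⟨_, cB ⟨M.mul_mem hm hr.1, h1⟩, rfl⟩
    rw [map_mul, h2, mul_one] at h3
    exact img_norm le_rfl h3
  have := good_faithful (mt X') hp p2 hq (pA.img ψ) (img_norm nM) (pM.img ψ) (sol_img ψ sol) aV
    ((img_le_range ψ M).trans nV) ((img_le_range ψ A).trans nV) f o (img_mono ψ BM) (qB.img ψ)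
    (img_norm nB) cB' (img ψ E) (img_mono ψ EB) (abelem_img ψ aE)
    (fun h => hE (ker ▸ (img_eq_bot_iff EY).1 h))
  rwa [card_img_of_le EY, ker, idx E EY] at this

theorem realizeEqns_SigRed : True := by
  have := @CA.Sig.MT.eq_1.{0}
  have := @CA.Sig.MT.eq_def.{0}
  have := @CA.Sig.MT.congr_simp.{0}
  trivial

end CA.Sig
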