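/-
The bound `|V : C_V(b)| ≥ q ^ 3`.
Owner: helper7.
-/
import Cfsg.Agent.Sig.MT4
import Cfsg.Agent.Sig.Red

set_option autoImplicit false
set_option linter.unusedSectionVars false

namespace CA.Sig.MT

open Subgroup Cfsg CA.FG CA.BG
open scoped commutatorElement

universe u

variable {G : Type u} [Group G] [Finite G] {p q r : ℕ}

theorem pow_conj_eq {k x : G} (h : Commute k ⁅k, x⁆) (j : ℕ) : k ^ j * x * (k ^ j)⁻¹ = ⁅k, x⁆ ^ j * x := by
  induction j with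
  | zero => simp
  | succ j ih =>
    calc k ^ (j + 1) * x * (k ^ (j + 1))⁻¹ = k * (k ^ j * x * (k ^ j)⁻¹) * k⁻¹ := by group
      _ = k * ⁅k, x⁆ ^ j * x * k⁻¹ := by rw [ih, ← mul_assoc]
      _ = ⁅k, x⁆ ^ j * ⁅k, x⁆ * x := by rw [(h.pow_right j).eq, commutatorElement_def]; group
      _ = _ := by rw [← pow_succ]

theorem st_mk (hq : q.Prime) (hr : r.Prime) (qr : q ≠ r) {V Z : Subgroup G} (eV : IsElementaryAbelian q V)
    (eZ : IsElementaryAbelian r Z) (n : Z ≤ 𝒩(V)) (fa : Z ⊓ 𝒞(V) = ⊥) : St q r ⁅V, Z⁆ Z := by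
  have co := (abelem_pGrp hq eV).coprime_of_ne (abelem_pGrp hr eZ) qr
  refine ⟨hq, hr, qr, abelem_of_le eV (comm_le_left n), eZ, norm_comm n le_normalizer,
    coprime_abel_cent_TI n co eV.1, le_bot_iff.1 (le_trans (le_inf inf_le_left (le_cent_symm ?_)) fa.le)⟩
  exact (coprime_cent_prod n co (Or.inl (sol_of_abelian eV.1))).ge.trans
    (sup_le (le_cent_symm inf_le_right) (inf_le_right.trans (cent_anti inf_le_left)))

theorem mt_core (hp : p.Prime) (p2 : p ≠ 2) (hq : q.Prime) (hr : r.Prime) (pq : p ≠ q) (pr : p ≠ r) (qr : q ≠ r)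
    {V K₀ D A : Subgroup G} (eV : IsElementaryAbelian q V) (rK₀ : IsPGrp r K₀) (qD : IsPGrp q D)
    (pA : IsPGrp p A) (KV₀ : K₀ ≤ 𝒩(V)) (DV : D ≤ 𝒩(V)) (AV : A ≤ 𝒩(V)) (DK₀ : D ≤ 𝒩(K₀))
    (AK₀ : A ≤ 𝒩(K₀)) (AD : A ≤ 𝒩(D)) (fa₀ : K₀ ⊓ 𝒞(V) = ⊥) (cA₀ : K₀ ⊓ 𝒞(A) ≤ 𝒞(D)) {b : G} (hb : b ∈ D)
    (bq : b ^ q = 1) (nb₀ : b ∉ 𝒞(K₀)) : q ^ 3 ≤ (𝒞[b]).relIndex V := by
  obtain ⟨K, hK, ⟨LK, nb⟩, hmin⟩ :=
    exists_min_subgroup (P := fun X => D ⊔ A ≤ 𝒩(X) ∧ b ∉ 𝒞(X)) ⟨sup_le DK₀ AK₀, nb₀⟩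
  have rK := rK₀.of_le hK
  have KV := hK.trans KV₀
  have LV : D ⊔ A ≤ 𝒩(V) := sup_le DV AV
  have fa : ∀ Z ≤ K, Z ⊓ 𝒞(V) = ⊥ := fun Z h => le_bot_iff.1 ((inf_le_inf_right _ (h.trans hK)).trans fa₀.le)
  set T := closure {t | ∃ g ∈ D ⊔ A, t = g * b * g⁻¹} with hT
  have TD : T ≤ D := (closure_le _).2 (by
    rintro _ ⟨g, hg, rfl⟩
    exact conj_mem_of_le_norm (sup_le le_normalizer AD) hg hb)
  have bT : b ∈ T := subset_closure ⟨1, one_mem _, by simp⟩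
  have LT : D ⊔ A ≤ 𝒩(T) := norm_closure (by
    rintro a ha _ ⟨g, hg, rfl⟩
    exact ⟨a * g, mul_mem ha hg, by group⟩)
  have qT := qD.of_le TD
  have TK : T ≤ 𝒩(K) := (TD.trans le_sup_left).trans LK
  have co := rK.coprime_of_ne qT qr.symm
  have mn : ∀ X : Subgroup G, X < K → D ⊔ A ≤ 𝒩(X) → X ≤ 𝒞(T) := fun X h1 h2 => by
    have h3 : b ∈ 𝒞(X) := by
      by_contra h3
      exact h1.ne (hmin X ⟨h2, h3⟩ h1.le)
    refine le_cent_symm ((closure_le _).2 ?_)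
    rintro _ ⟨g, hg, rfl⟩
    exact conj_mem_of_le_norm (norm_cent h2) hg h3
  obtain ⟨KT, d1, d2⟩ := P03.min_act_struct TK LK LT (IsPGrp.nil rK) co (fun h => nb (le_cent_symm h bT))
    fun X h1 _ h2 => mn X h1 h2
  have K0 : K ≠ ⊥ := fun e => nb (by rw [e, cent_bot]; trivial)
  have hΦ : frattiniOf K ≤ K ⊓ 𝒞(T) := le_inf (Phi_sub K) (mn _ (Phi_proper K0) (norm_Phi LK))
  have cA : K ⊓ 𝒞(A) ≤ K ⊓ 𝒞(T) :=
    le_inf inf_le_left (((inf_le_inf_right _ hK).trans cA₀).trans (cent_anti TD))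
  have nK' := (der_normalIn K).2
  have nT' : T ≤ 𝒩(⁅K, K⁆) := norm_comm TK TK
  have fT : K ⊓ 𝒞(T) ≤ ⁅K, K⁆ := by
    have h1 := coprime_abel_cent_TI (quot_norm ⁅K, K⁆ TK) (coprime_quot _ co) (quot_der_abelian K)
    rw [← quot_comm nK' nT', KT] at h1
    exact (quot_eq_bot_iff (inf_le_left.trans nK')).1 (le_bot_iff.1 ((quot_inf_cent_le _ _).trans h1.le))
  by_cases ab : IsMulCommutative K
  · rw [der_eq_bot_iff.2 ab] at fT
    have eK := (trivg_Phi hr rK).1 (le_bot_iff.1 (hΦ.trans fT))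
    exact (mt_ab hp p2 pq pr (st_mk hq hr qr eV eK KV (fa K le_rfl)) pA qD
      (norm_comm AV (le_sup_right.trans LK)) (le_sup_right.trans LK) AD (norm_comm DV (le_sup_left.trans LK))
      (le_sup_left.trans LK) (le_bot_iff.1 (cA.trans fT)) hb bq nb).trans (ci_mono b (comm_le_left KV))
  have cZ : ⁅K, K⁆ ≤ 𝒞(K) := (le_inf (der_le K) d1).trans d2
  have zK : K ⊓ 𝒞(K) = ⁅K, K⁆ := le_antisymm ((le_inf inf_le_left (mn _ (lt_of_le_of_ne inf_le_left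
    fun e => ab (abelian_iff_le_cent.2 (e.ge.trans inf_le_right))) (norm_inf LK (norm_cent LK)))).trans fT)
    (le_inf (der_le K) cZ)
  have pw : ∀ x ∈ K, x ^ r ∈ ⁅K, K⁆ := fun x hx => fT (hΦ (pow_mem_Phi rK hx))
  have aZ : IsMulCommutative (⁅K, K⁆ : Subgroup G) := abelian_iff_le_cent.2 (cZ.trans (cent_anti (der_le K)))
  have eZ : IsElementaryAbelian r (⁅K, K⁆ : Subgroup G) := by
    refine ⟨aZ, fun z hz => pow_eq_one_of_mem_ohm1 aZ (commutator_le.2 (fun x hx y hy => ?_) hz)⟩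
    have m := commutator_mem_commutator hx hy
    have := pow_conj_eq (x := y) (comm_of_le_cent cZ m hx).symm r
    rw [comm_of_le_cent cZ (pw x hx) hy, mul_inv_cancel_right] at this
    exact mem_ohm1 m (by simpa using this.symm)
  have ZV := (der_le K).trans KV
  refine (mt_sp hp p2 pq pr (st_mk hq hr qr eV eZ ZV (fa _ (der_le K))) rK (norm_comm KV nK') rfl zK pw pA
    (norm_comm AV (norm_comm (le_sup_right.trans LK) (le_sup_right.trans LK))) (le_sup_right.trans LK) qT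
    (norm_comm (TD.trans DV) nT') TK (le_cent_symm d1) KT fT (cA.trans fT) bT (closure_mono ?_) nb).trans
    (ci_mono b (comm_le_left ZV))
  rintro _ ⟨g, hg, rfl⟩
  exact ⟨g, ⟨norm_comm LV (norm_comm LK LK) hg, LK hg⟩, rfl⟩

theorem mt (X : Type u) [Group X] [Finite X] : CA.Sig.MT X := by
  intro p q hp p2 hq A M V B pA nM pM sol eV MV AV fa o BM qB AB cB b hb b1 bq
  have qb := pElt_of_pow_eq_one hq bq
  obtain ⟨r, hr, nb⟩ : ∃ r, r.Prime ∧ b ∉ 𝒞(pCoreOf r M) := by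
    by_contra hh
    push Not at hh
    have h1 : fittingOf M ≤ 𝒞(zpowers b) :=
      fitting_le_of_forall_pcore fun r hr => le_cent_symm (zpowers_le.2 (hh r hr))
    have h2 := le_pcore_of_le_fitting ((le_inf (zpowers_le.2 (BM hb)) (le_cent_symm h1)).trans
      (cent_sub_Fitting sol)) (piGrp_zpowers_iff.2 qb) (mem_zpowers b)
    exact b1 (by rwa [show piCoreOf {q} M = ⊥ from o] at h2)
  have K0 : pCoreOf r M ≠ ⊥ := fun e => nb (by rw [e, cent_bot]; trivial)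
  have rK := pcore_pGrp r M
  have qr : q ≠ r := fun e => K0 (e ▸ o)
  have nK : B ≤ 𝒩(pCoreOf r M) := BM.trans (pcore_norm _ M)
  refine mt_core hp p2 hq hr (fun e => b1 (qb.eq_one (e ▸ pM.piElt (BM hb))))
    (fun e => rK.mem_of_piGrp K0 (pM.of_le (pcore_le _ M)) e.symm) qr eV rK qB pA ((pcore_le _ M).trans MV)
    (BM.trans MV) AV nK (norm_pcore _ nM) AB
    (le_bot_iff.1 ((inf_le_inf_right _ (pcore_le _ M)).trans fa.le)) (comm_eq_bot_iff.1 (le_bot_iff.1 ?_))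
    hb bq nb
  rw [← inf_eq_bot_of_cop (rK.coprime_of_ne qB qr.symm)]
  exact le_inf ((commutator_mono inf_le_left le_rfl).trans (comm_le_left nK))
    (comm_le_right ((inf_le_inf_right _ (pcore_le _ M)).trans cB))

end CA.Sig.MT
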