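/-
Solvable signalizer functors of rank three: definitions, members, the two inductive reductions.
Owner: helper1.
-/
import Cfsg.Agent.Sig.Lem1

set_option autoImplicit false

namespace CA.Sig

open Cfsg CA.FG CA.BG

universe u

/-- a solvable signalizer functor for an elementary abelian group of order `p ^ 3`, `p` odd. -/
structure SF (X : Type u) [Group X] where
  p : ℕ
  A : Subgroup X
  θ : X → Subgroup X
  hp : p.Prime
  p2 : p ≠ 2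
  ab : IsElementaryAbelian p A
  card : Nat.card A = p ^ 3
  sol : ∀ a ∈ A, a ≠ 1 → Group.IsSolvable (θ a)
  pp : ∀ a ∈ A, a ≠ 1 → IsPiGrp {p}ᶜ (θ a)
  cent : ∀ a ∈ A, a ≠ 1 → θ a ≤ 𝒞[a]
  nrm : ∀ a ∈ A, a ≠ 1 → A ≤ 𝒩(θ a)
  bal : ∀ a ∈ A, a ≠ 1 → ∀ b ∈ A, b ≠ 1 → θ a ⊓ 𝒞[b] ≤ θ b

namespace SF

variable {X : Type u} [Group X] (F : SF X)

/-- points -/
def Pt (a : X) : Prop := a ∈ F.A ∧ a ≠ 1

/-- lines -/
def Ln (l : Subgroup X) : Prop := l ≤ F.A ∧ Nat.card l = F.p ^ 2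

/-- members (`θ`-subgroups) -/
structure Mem (U : Subgroup X) : Prop where
  nA : F.A ≤ 𝒩(U)
  pp : IsPiGrp {F.p}ᶜ U
  sol : Group.IsSolvable U
  le : ∀ a, F.Pt a → U ⊓ 𝒞[a] ≤ F.θ a

/-- `θ(N(U))` -/
def NT (U : Subgroup X) : Subgroup X := ⨆ (a : X) (_ : F.Pt a), F.θ a ⊓ 𝒩(U)

/-- `θ(B)` for a nontrivial subgroup `B` of `A` -/
def T (B : Subgroup X) : Subgroup X := (⨅ (a : X) (_ : F.Pt a ∧ a ∈ B), F.θ a) ⊓ 𝒞(B)

/-- `C_θ(A)` -/
def C : Subgroup X := F.T F.A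

def Complete : Prop := ∃ M, F.Mem M ∧ ∀ a, F.Pt a → F.θ a ≤ M

/-- the measure used for induction -/
noncomputable def mu : ℕ := {z : X × X | F.Pt z.1 ∧ z.2 ∈ F.θ z.1}.ncard

variable {F} [Finite X]

theorem pA : IsPGrp F.p F.A := pGrp_of_card_eq_pow F.hp F.card

omit [Finite X] in
theorem cA : IsMulCommutative F.A := F.ab.1

theorem Ln.ncyc {l : Subgroup X} (h : F.Ln l) : ¬ IsCyclic l := by
  intro hc
  have := (abelem_cyclic_iff F.hp (abelem_of_le F.ab h.1)).1 hc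
  rw [h.2] at this
  have h2 := F.hp.one_lt
  nlinarith

omit [Finite X] in
theorem Ln.comm {l : Subgroup X} (h : F.Ln l) : IsMulCommutative l := abelian_of_le cA h.1

theorem ncA : ¬ IsCyclic F.A := by
  intro hc
  have := (abelem_cyclic_iff F.hp F.ab).1 hc
  rw [F.card] at this
  have h2 := F.hp.one_lt
  have h3 : F.p ^ 1 < F.p ^ 3 := Nat.pow_lt_pow_right h2 (by norm_num)
  rw [pow_one] at h3
  omega

omit [Finite X] in
theorem Pt.card {a : X} (h : F.Pt a) : Nat.card (Subgroup.zpowers a) = F.p := by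
  rw [Nat.card_zpowers]; exact abelem_orderOf F.hp F.ab h.1 h.2

omit [Finite X] in
theorem Pt.zle {a : X} (h : F.Pt a) : Subgroup.zpowers a ≤ F.A := (Subgroup.zpowers_le).2 h.1

omit [Finite X] in
theorem Pt.ncent {a : X} (h : F.Pt a) : F.A ≤ 𝒩(𝒞[a]) := by
  rw [← cent_zpowers]; exact norm_cent (norm_of_le_abelian cA h.zle)

omit [Finite X] in
theorem Pt.A_cent {a : X} (h : F.Pt a) : F.A ≤ 𝒞[a] :=
  (abelian_iff_le_cent.1 cA).trans (cent_le_cent_singleton h.1)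

theorem exists_pt : ∃ a, F.Pt a :=
  exists_mem_ne_one (ne_bot_of_not_cyclic ncA)

theorem Ln.exists_pt {l : Subgroup X} (h : F.Ln l) : ∃ a, F.Pt a ∧ a ∈ l := by
  obtain ⟨a, ha, h1⟩ := exists_mem_ne_one (ne_bot_of_not_cyclic h.ncyc)
  exact ⟨a, ⟨h.1 ha, h1⟩, ha⟩

/-- two lines meet -/
theorem Ln.meet {l m : Subgroup X} (h : F.Ln l) (h' : F.Ln m) : ∃ a, F.Pt a ∧ a ∈ l ∧ a ∈ m := by
  have : l ⊓ m ≠ ⊥ := by
    intro h0
    have h1 := card_sup_of_inf_eq_bot (Or.inl (h.1.trans (norm_of_le_abelian cA h'.1))) h0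
    have h2 := Subgroup.card_le_of_le (sup_le h.1 h'.1)
    rw [h1, h.2, h'.2, F.card, ← pow_add] at h2
    exact absurd h2 (not_le.2 (Nat.pow_lt_pow_right F.hp.one_lt (by norm_num)))
  obtain ⟨a, ha, h1⟩ := exists_mem_ne_one this
  exact ⟨a, ⟨h.1 ha.1, h1⟩, ha.1, ha.2⟩

theorem ln_of_index {B : Subgroup X} (h : B ≤ F.A) (hi : B.relIndex F.A = F.p) : F.Ln B := by
  refine ⟨h, ?_⟩
  have := card_mul_relIndex h
  rw [hi, F.card, pow_succ] at this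
  exact Nat.eq_of_mul_eq_mul_right F.hp.pos this

theorem Mem.cop {U B : Subgroup X} (h : F.Mem U) (hB : B ≤ F.A) :
    (Nat.card U).Coprime (Nat.card B) := ((pA.of_le hB).coprime h.pp).symm

omit [Finite X] in
theorem Mem.of_le {U V : Subgroup X} (h : F.Mem U) (hV : V ≤ U) (n : F.A ≤ 𝒩(V)) : F.Mem V :=
  ⟨n, h.pp.of_le hV, sol_of_le h.sol hV, fun a ha => (inf_le_inf_right _ hV).trans (h.le a ha)⟩

omit [Finite X] in
theorem mem_bot : F.Mem ⊥ :=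
  ⟨norm_bot _, piGrp_bot _, sol_of_abelian (abelian_of_cyclic cyclic_bot), fun _ _ => by simp⟩

omit [Finite X] in
theorem Pt.mem {a : X} (h : F.Pt a) : F.Mem (F.θ a) :=
  ⟨F.nrm a h.1 h.2, F.pp a h.1 h.2, F.sol a h.1 h.2, fun b hb => F.bal a h.1 h.2 b hb.1 hb.2⟩

omit [Finite X] in
theorem Pt.cent {a : X} (h : F.Pt a) : F.θ a ≤ 𝒞[a] := F.cent a h.1 h.2

omit [Finite X] in
theorem Mem.inf {U V : Subgroup X} (h : F.Mem U) (n : F.A ≤ 𝒩(V)) : F.Mem (U ⊓ V) :=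
  h.of_le inf_le_left (norm_inf h.nA n)

theorem Mem.pcore {U : Subgroup X} (h : F.Mem U) (π : Set ℕ) : F.Mem (piCoreOf π U) :=
  h.of_le (pcore_le π U) (norm_pcore π h.nA)

/-- generation by the centralizers of the points of `A` -/
theorem Mem.gen {U Y : Subgroup X} (h : F.Mem U) (hY : ∀ a, F.Pt a → U ⊓ 𝒞[a] ≤ Y) : U ≤ Y :=
  coprime_abelian_gen_cent1_le cA ncA h.nA (h.cop le_rfl) fun a ha h1 => hY a ⟨ha, h1⟩

/-- generation by the centralizers of the points of a line -/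
theorem Mem.genl {U Y l : Subgroup X} (h : F.Mem U) (hl : F.Ln l)
    (hY : ∀ a, F.Pt a → a ∈ l → U ⊓ 𝒞[a] ≤ Y) : U ≤ Y :=
  coprime_abelian_gen_cent1_le hl.comm hl.ncyc (hl.1.trans h.nA) (h.cop hl.1)
    fun a ha h1 => hY a ⟨hl.1 ha, h1⟩ ha

/-- generation by the centralizers of the lines -/
theorem Mem.genL {U Y : Subgroup X} (h : F.Mem U) (hY : ∀ l, F.Ln l → U ⊓ 𝒞(l) ≤ Y) : U ≤ Y :=
  coprime_abelem_gen_cent_le F.hp F.ab (ne_bot_of_not_cyclic ncA) h.nA (h.cop le_rfl)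
    fun B hB hi => hY B (ln_of_index hB hi)

theorem Mem.exists_pt {U : Subgroup X} (h : F.Mem U) (h0 : U ≠ ⊥) : ∃ a, F.Pt a ∧ U ⊓ 𝒞[a] ≠ ⊥ := by
  by_contra hc
  push Not at hc
  exact h0 (le_bot_iff.1 (h.gen fun a ha => (hc a ha).le))

theorem Mem.exists_ln {U : Subgroup X} (h : F.Mem U) (h0 : U ≠ ⊥) : ∃ l, F.Ln l ∧ U ⊓ 𝒞(l) ≠ ⊥ := by
  by_contra hc
  push Not at hc
  exact h0 (le_bot_iff.1 (h.genL fun a ha => (hc a ha).le))

theorem Mem.sup {U V : Subgroup X} (h : F.Mem U) (h' : F.Mem V) (n : V ≤ 𝒩(U)) : F.Mem (U ⊔ V) := by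
  refine ⟨norm_sup h.nA h'.nA, h.pp.sup h'.pp (Or.inr n), sol_sup h.sol h'.sol (Or.inr n), fun a ha => ?_⟩
  rw [← cent_zpowers, coprime_cent_mulG (ha.zle.trans h'.nA) (ha.zle.trans h.nA) n (h.cop ha.zle)
    (Or.inl h.sol), cent_zpowers]
  exact sup_le (h.le a ha) (h'.le a ha)

omit [Finite X] in
theorem T_le {B : Subgroup X} {a : X} (ha : F.Pt a) (haB : a ∈ B) : F.T B ≤ F.θ a :=
  inf_le_left.trans (iInf₂_le (f := fun (a : X) (_ : F.Pt a ∧ a ∈ B) => F.θ a) a ⟨ha, haB⟩)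

omit [Finite X] in
theorem T_cent (B : Subgroup X) : F.T B ≤ 𝒞(B) := inf_le_right

omit [Finite X] in
theorem Mem.le_T {U B : Subgroup X} (h : F.Mem U) : U ⊓ 𝒞(B) ≤ F.T B :=
  le_inf (le_iInf₂ fun a ha => (inf_le_inf_left _ (cent_le_cent_singleton ha.2)).trans (h.le a ha.1))
    inf_le_right

omit [Finite X] in
theorem T_eq {B : Subgroup X} {a : X} (ha : F.Pt a) (haB : a ∈ B) : F.T B = F.θ a ⊓ 𝒞(B) :=
  le_antisymm (le_inf (T_le ha haB) (T_cent B)) ha.mem.le_T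

omit [Finite X] in
theorem C_le {a : X} (ha : F.Pt a) : F.C ≤ F.θ a := T_le ha ha.1

omit [Finite X] in
theorem C_cent : F.C ≤ 𝒞(F.A) := T_cent _

omit [Finite X] in
theorem Mem.le_C {U : Subgroup X} (h : F.Mem U) : U ⊓ 𝒞(F.A) ≤ F.C := h.le_T

omit [Finite X] in
theorem Mem.C_eq {U : Subgroup X} (h : F.Mem U) (hC : F.C ≤ U) : U ⊓ 𝒞(F.A) = F.C :=
  le_antisymm h.le_C (le_inf hC C_cent)

omit [Finite X] in
theorem C_le_T {B : Subgroup X} (hB : B ≤ F.A) : F.C ≤ F.T B :=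
  le_inf (le_iInf₂ fun _ ha => C_le ha.1) (C_cent.trans (cent_anti hB))

omit [Finite X] in
theorem mem_T {B : Subgroup X} {a : X} (hB : B ≤ F.A) (ha : F.Pt a) (haB : a ∈ B) : F.Mem (F.T B) := by
  rw [T_eq ha haB]; exact ha.mem.inf (norm_cent (norm_of_le_abelian cA hB))

theorem Ln.mem_T {l : Subgroup X} (h : F.Ln l) : F.Mem (F.T l) := by
  obtain ⟨a, ha, hl⟩ := h.exists_pt
  exact SF.mem_T h.1 ha hl

theorem mem_C : F.Mem F.C := by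
  obtain ⟨a, ha⟩ := exists_pt (F := F)
  exact mem_T le_rfl ha ha.1

theorem Mem.conj {U : Subgroup X} (h : F.Mem U) {c : X} (hc : c ∈ F.C) : F.Mem (U :^ c) := by
  have hA : F.A :^ c = F.A := conjg_of_mem_cent (C_cent hc)
  refine ⟨by rw [← hA]; exact conjg_le_norm_iff.2 h.nA, h.pp.conjg c, sol_conjg.2 h.sol, fun a ha => ?_⟩
  have e1 : 𝒞[a] :^ c = 𝒞[a] := conjg_of_mem (ha.cent (C_le ha hc))
  rw [← e1, ← conjg_inf]
  exact conjg_le_of_mem (h.le a ha) (C_le ha hc)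

omit [Finite X] in
theorem NT_le (U : Subgroup X) : F.NT U ≤ 𝒩(U) := iSup₂_le fun _ _ => inf_le_right

omit [Finite X] in
theorem Pt.le_NT {a : X} (ha : F.Pt a) (U : Subgroup X) : F.θ a ⊓ 𝒩(U) ≤ F.NT U :=
  le_iSup₂_of_le (f := fun (a : X) (_ : F.Pt a) => F.θ a ⊓ 𝒩(U)) a ha le_rfl

theorem Mem.le_NT {H U : Subgroup X} (h : F.Mem H) (n : H ≤ 𝒩(U)) : H ≤ F.NT U :=
  h.gen fun a ha => (le_inf (h.le a ha) (inf_le_left.trans n)).trans (ha.le_NT U)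

/-! ### the quotient functor -/

open Classical in
/-- the quotient map as a total function -/
noncomputable def qf (U : Subgroup X) (x : X) : Coset U := if h : x ∈ 𝒩(U) then coset U ⟨x, h⟩ else 1

omit [Finite X] in
theorem qf_eq {U : Subgroup X} {x : X} (h : x ∈ 𝒩(U)) : qf U x = coset U ⟨x, h⟩ := dif_pos h

theorem Mem.qf_inj {U : Subgroup X} (h : F.Mem U) {a b : X} (ha : a ∈ F.A) (hb : b ∈ F.A)
    (e : qf U a = qf U b) : a = b := by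
  rw [qf_eq (h.nA ha), qf_eq (h.nA hb), coset_eq_iff] at e
  have : a⁻¹ * b ∈ U ⊓ F.A := ⟨e, F.A.mul_mem (F.A.inv_mem ha) hb⟩
  rw [inf_eq_bot_of_cop (h.cop le_rfl), Subgroup.mem_bot] at this
  exact inv_mul_eq_one.1 this

/-- the functor induced on `N(U) / U` -/
noncomputable def qθ (F : SF X) (U : Subgroup X) (y : Coset U) : Subgroup (Coset U) :=
  ⨆ (a : X) (_ : a ∈ F.A ∧ qf U a = y), F.θ a /ₛ U

theorem Mem.qθ_eq {U : Subgroup X} (h : F.Mem U) {a : X} (ha : a ∈ F.A) :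
    F.qθ U (coset U ⟨a, h.nA ha⟩) = F.θ a /ₛ U := by
  refine le_antisymm (iSup₂_le fun b hb => ?_)
    (le_iSup₂_of_le (f := fun (b : X) (_ : b ∈ F.A ∧ qf U b = coset U ⟨a, h.nA ha⟩) => F.θ b /ₛ U) a
      ⟨ha, qf_eq _⟩ le_rfl)
  rw [h.qf_inj hb.1 ha (hb.2.trans (qf_eq _).symm)]

omit [Finite X] in
theorem Mem.qpt {U : Subgroup X} (h : F.Mem U) {y : Coset U} (hy : y ∈ F.A /ₛ U) (h1 : y ≠ 1) :
    ∃ (a : X) (ha : F.Pt a), y = coset U ⟨a, h.nA ha.1⟩ := by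
  obtain ⟨⟨a, ha'⟩, ha, rfl⟩ := mem_quot.1 hy
  exact ⟨a, ⟨ha, fun e => h1 (by subst e; exact map_one (coset _))⟩, rfl⟩

theorem Mem.qcent {U H : Subgroup X} (h : F.Mem U) (hH : F.Mem H) {a : X} (ha : F.Pt a) :
    (H /ₛ U) ⊓ 𝒞[coset U ⟨a, h.nA ha.1⟩] ≤ F.θ a /ₛ U := by
  have hm : F.Mem (U ⊔ (H ⊓ 𝒩(U))) := h.sup (hH.inf (norm_norm h.nA)) inf_le_right
  have := cent1_quot hm.sol le_sup_left h.nA (hm.cop le_rfl) ha.1
  rw [quot_sup_self_left inf_le_right, quot_inf_norm] at this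
  rw [this]
  exact quot_mono _ (hm.le a ha)

/-- the quotient signalizer functor -/
noncomputable def quo {U : Subgroup X} (h : F.Mem U) : SF (Coset U) where
  p := F.p
  A := F.A /ₛ U
  θ := F.qθ U
  hp := F.hp
  p2 := F.p2
  ab := abelem_quot U F.ab
  card := by rw [card_quot_of_inf_eq_bot h.nA (inf_eq_bot_of_cop (h.cop le_rfl)), F.card]
  sol := fun y hy h1 => by
    obtain ⟨a, ha, rfl⟩ := h.qpt hy h1
    rw [h.qθ_eq ha.1]; exact sol_quot _ ha.mem.sol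
  pp := fun y hy h1 => by
    obtain ⟨a, ha, rfl⟩ := h.qpt hy h1
    rw [h.qθ_eq ha.1]; exact ha.mem.pp.quot _
  cent := fun y hy h1 => by
    obtain ⟨a, ha, rfl⟩ := h.qpt hy h1
    rw [h.qθ_eq ha.1]; exact img_cent1 (x := ⟨a, h.nA ha.1⟩) ha.cent
  nrm := fun y hy h1 => by
    obtain ⟨a, ha, rfl⟩ := h.qpt hy h1
    rw [h.qθ_eq ha.1]; exact quot_norm _ ha.mem.nA
  bal := fun y hy h1 z hz h2 => by
    obtain ⟨a, ha, rfl⟩ := h.qpt hy h1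
    obtain ⟨b, hb, rfl⟩ := h.qpt hz h2
    rw [h.qθ_eq ha.1, h.qθ_eq hb.1]; exact h.qcent ha.mem hb

theorem quo_mu {U : Subgroup X} (h : F.Mem U) (h0 : U ≠ ⊥) : (quo h).mu < F.mu := by
  obtain ⟨a, ha, h1⟩ := h.exists_pt h0
  obtain ⟨u, hu, u1⟩ := exists_mem_ne_one h1
  have hsub : {z : Coset U × Coset U | (quo h).Pt z.1 ∧ z.2 ∈ (quo h).θ z.1} ⊆
      (fun z : X × X => (qf U z.1, qf U z.2)) ''
        ({z : X × X | F.Pt z.1 ∧ z.2 ∈ F.θ z.1} \ {(a, u)}) := by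
    rintro ⟨y, w⟩ ⟨hy, hw⟩
    obtain ⟨b, hb, e⟩ := h.qpt hy.1 hy.2
    simp only at e hw
    subst e
    change w ∈ F.qθ U _ at hw
    rw [h.qθ_eq hb.1] at hw
    obtain ⟨⟨x, hx'⟩, hx, rfl⟩ := mem_quot.1 hw
    by_cases hxu : x = u
    · refine ⟨(b, 1), ⟨⟨hb, (F.θ b).one_mem⟩, fun e => u1 (Prod.ext_iff.1 e).2.symm⟩, ?_⟩
      simp only [qf_eq (h.nA hb.1), qf_eq (Subgroup.one_mem _)]
      congr 1
      subst hxu
      exact (map_one (coset U)).trans (coset_eq_one_iff.2 hu.1).symm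
    · refine ⟨(b, x), ⟨⟨hb, hx⟩, fun e => hxu (Prod.ext_iff.1 e).2⟩, ?_⟩
      simp only [qf_eq (h.nA hb.1), qf_eq hx']
  refine lt_of_le_of_lt ((Set.ncard_le_ncard hsub (Set.toFinite _)).trans
    (Set.ncard_image_le (Set.toFinite _))) ?_
  exact Set.ncard_diff_singleton_lt_of_mem ⟨ha, h.le a ha hu⟩ (Set.toFinite _)

theorem mem_NT_of_quo {U : Subgroup X} (h : F.Mem U) (hc : (quo h).Complete) : F.Mem (F.NT U) := by
  obtain ⟨M, hM, hθ⟩ := hc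
  have nA : F.A ≤ 𝒩(quotPre U M) := le_norm_quotPre h.nA hM.nA
  have pp : IsPiGrp {F.p}ᶜ (quotPre U M) := IsPiGrp.quotPre hM.pp h.pp
  have sol := sol_quotPre hM.sol h.sol
  have pt : ∀ a (ha : F.Pt a), (quo h).Pt (coset U ⟨a, h.nA ha.1⟩) := fun a ha =>
    ⟨mem_quot_of_mem _ ha.1, fun e => ha.2 (h.qf_inj ha.1 F.A.one_mem (by
      rw [qf_eq (h.nA ha.1), e, qf_eq (Subgroup.one_mem _)]; exact (map_one (coset U)).symm))⟩
  have hm : F.Mem (quotPre U M) := by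
    refine ⟨nA, pp, sol, fun a ha => ?_⟩
    have h1 := hM.le _ (pt a ha)
    change _ ≤ F.qθ U _ at h1
    have h2 := cent1_quot sol (le_quotPre M) h.nA (pA.coprime pp).symm ha.1
    rw [quot_quotPre] at h2
    rw [h.qθ_eq ha.1, h2, ← quot_inf_norm (F.θ a),
      quot_le_quot_iff (inf_le_left.trans (quotPre_le_norm M)) inf_le_right] at h1
    exact (le_inf h1 inf_le_right).trans
      ((h.sup (ha.mem.inf (norm_norm h.nA)) inf_le_right).le a ha)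
  refine hm.of_le (iSup₂_le fun a ha => ?_)
    (norm_iSup fun a => norm_iSup fun ha => norm_inf ha.mem.nA (norm_norm h.nA))
  have h1 := hθ _ (pt a ha)
  change F.qθ U _ ≤ _ at h1
  rw [h.qθ_eq ha.1, ← quot_inf_norm] at h1
  exact (quot_le_iff inf_le_right).1 h1

/-! ### the functor `θ_π` -/

theorem Mem.le_hall {M K H : Subgroup X} {π : Set ℕ} (h : F.Mem M) (hK : IsPiHallOf π K M)
    (nK : F.A ≤ 𝒩(K)) (hH : H ≤ M) (pH : IsPiGrp π H) (nH : F.A ≤ 𝒩(H)) (cH : F.C ≤ 𝒩(H)) : H ≤ K := by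
  obtain ⟨K', hK', nK', hle⟩ := coprime_Hall_subset h.nA (h.cop le_rfl) h.sol hH pH nH
  obtain ⟨x, hx, e⟩ := coprime_Hall_trans h.nA (h.cop le_rfl) h.sol hK' nK' hK nK
  rw [e, le_conjg_iff, conjg_of_mem_norm (cH (F.C.inv_mem (h.le_C hx)))] at hle
  exact hle

/-- the largest `A C`-invariant `π`-subgroup of `M` -/
def sup (F : SF X) (π : Set ℕ) (M : Subgroup X) : Subgroup X :=
  ⨆ (H : Subgroup X) (_ : H ≤ M ∧ IsPiGrp π H ∧ F.A ≤ 𝒩(H) ∧ F.C ≤ 𝒩(H)), H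

omit [Finite X] in
theorem sup_le_self (π : Set ℕ) (M : Subgroup X) : F.sup π M ≤ M := iSup₂_le fun _ h => h.1

omit [Finite X] in
theorem sup_nA (π : Set ℕ) (M : Subgroup X) : F.A ≤ 𝒩(F.sup π M) :=
  norm_iSup fun _ => norm_iSup fun h => h.2.2.1

omit [Finite X] in
theorem sup_nC (π : Set ℕ) (M : Subgroup X) : F.C ≤ 𝒩(F.sup π M) :=
  norm_iSup fun _ => norm_iSup fun h => h.2.2.2

omit [Finite X] in
theorem le_sup {π : Set ℕ} {M H : Subgroup X} (h1 : H ≤ M) (h2 : IsPiGrp π H) (h3 : F.A ≤ 𝒩(H))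
    (h4 : F.C ≤ 𝒩(H)) : H ≤ F.sup π M :=
  le_iSup₂_of_le (f := fun (H : Subgroup X) (_ : H ≤ M ∧ IsPiGrp π H ∧ F.A ≤ 𝒩(H) ∧ F.C ≤ 𝒩(H)) => H)
    H ⟨h1, h2, h3, h4⟩ le_rfl

theorem Mem.sup_pi {M : Subgroup X} (h : F.Mem M) (π : Set ℕ) : IsPiGrp π (F.sup π M) := by
  obtain ⟨K, hK, nK⟩ := coprime_Hall_exists π h.nA (h.cop le_rfl) h.sol
  exact hK.piGrp.of_le (iSup₂_le fun H hH => h.le_hall hK nK hH.1 hH.2.1 hH.2.2.1 hH.2.2.2)

/-- the signalizer functor `θ_π` -/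
def sub (F : SF X) (π : Set ℕ) : SF X where
  p := F.p
  A := F.A
  θ := fun a => F.sup π (F.θ a)
  hp := F.hp
  p2 := F.p2
  ab := F.ab
  card := F.card
  sol := fun a ha h1 => sol_of_le (F.sol a ha h1) (sup_le_self _ _)
  pp := fun a ha h1 => (F.pp a ha h1).of_le (sup_le_self _ _)
  cent := fun a ha h1 => (sup_le_self _ _).trans (F.cent a ha h1)
  nrm := fun _ _ _ => sup_nA _ _
  bal := fun a ha h1 b hb h2 => by
    have pa : F.Pt a := ⟨ha, h1⟩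
    have pb : F.Pt b := ⟨hb, h2⟩
    exact le_sup ((inf_le_inf_right _ (sup_le_self _ _)).trans (pa.mem.le b pb))
      ((pa.mem.sup_pi π).inf_left _) (norm_inf (sup_nA _ _) pb.ncent)
      (norm_inf (sup_nC _ _) (norm_of_le ((C_le pb).trans pb.cent)))

theorem sub_mu {π : Set ℕ} {a : X} (ha : F.Pt a) (h : ¬ IsPiGrp π (F.θ a)) : (F.sub π).mu < F.mu := by
  refine Set.ncard_lt_ncard ⟨fun z hz => ⟨hz.1, sup_le_self _ _ hz.2⟩, fun hc => h ?_⟩ (Set.toFinite _)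
  refine (ha.mem.sup_pi π).of_le fun x hx => ?_
  exact (hc (show (a, x) ∈ {z : X × X | F.Pt z.1 ∧ z.2 ∈ F.θ z.1} from ⟨ha, hx⟩)).2

/-- the subgroup generated by the `C`-invariant `π`-members -/
def W (F : SF X) (π : Set ℕ) : Subgroup X :=
  ⨆ (H : Subgroup X) (_ : F.Mem H ∧ IsPiGrp π H ∧ F.C ≤ 𝒩(H)), H

omit [Finite X] in
theorem W_nA (π : Set ℕ) : F.A ≤ 𝒩(F.W π) := norm_iSup fun _ => norm_iSup fun h => h.1.nA

omit [Finite X] in
theorem W_nC (π : Set ℕ) : F.C ≤ 𝒩(F.W π) := norm_iSup fun _ => norm_iSup fun h => h.2.2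

omit [Finite X] in
theorem Mem.le_W {π : Set ℕ} {H : Subgroup X} (h1 : F.Mem H) (h2 : IsPiGrp π H)
    (h3 : F.C ≤ 𝒩(H)) : H ≤ F.W π :=
  le_iSup₂_of_le (f := fun (H : Subgroup X) (_ : F.Mem H ∧ IsPiGrp π H ∧ F.C ≤ 𝒩(H)) => H)
    H ⟨h1, h2, h3⟩ le_rfl

theorem Mem.pi_of {M : Subgroup X} {π : Set ℕ} (h : F.Mem M)
    (hp : ∀ a, F.Pt a → IsPiGrp π (M ⊓ 𝒞[a])) : IsPiGrp π M := by
  intro r hr hd
  by_contra hn
  obtain ⟨R, hR, nR⟩ := sol_coprime_Sylow_exists hr (Or.inl h.sol) h.nA (h.cop le_rfl)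
  refine hR.ne_bot' hr hd (le_bot_iff.1 ((h.of_le hR.le nR).gen fun a ha => le_of_eq ?_))
  exact ((hp a ha).of_le (inf_le_inf_right _ hR.le)).eq_bot
    ((hR.pGrp.inf_left _).mono (Set.singleton_subset_iff.2 hn))

theorem W_of_sub {π : Set ℕ} (hc : (F.sub π).Complete) : F.Mem (F.W π) ∧ IsPiGrp π (F.W π) := by
  obtain ⟨M, hM, hθ⟩ := hc
  have hm : F.Mem M := ⟨hM.nA, hM.pp, hM.sol, fun a ha => (hM.le a ha).trans (sup_le_self _ _)⟩
  have hπ : IsPiGrp π M := hm.pi_of fun a ha => (ha.mem.sup_pi π).of_le (hM.le a ha)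
  have hle : F.W π ≤ M := iSup₂_le fun H hH => hH.1.gen fun a ha =>
    (le_sup (hH.1.le a ha) (hH.2.1.inf_left _) (norm_inf hH.1.nA ha.ncent)
      (norm_inf hH.2.2 (norm_of_le ((C_le ha).trans ha.cent)))).trans (hθ a ha)
  exact ⟨hm.of_le hle (W_nA π), hπ.of_le hle⟩

/-- the standing hypotheses in a minimal counterexample -/
structure Ctx (F : SF X) : Prop where
  nc : ¬ F.Complete
  nt : ∀ U, F.Mem U → U ≠ ⊥ → F.Mem (F.NT U)
  w : ∀ (π : Set ℕ) (a : X), F.Pt a → ¬ IsPiGrp π (F.θ a) → F.Mem (F.W π) ∧ IsPiGrp π (F.W π)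

end SF

theorem complete_of (h : ∀ (X : Type u) [Group X] [Finite X] (F : SF X), ¬ F.Ctx)
    {X : Type u} [Group X] [Finite X] (F : SF X) : F.Complete := by
  suffices H : ∀ (n : ℕ) (X : Type u) [Group X] [Finite X] (F : SF X), F.mu = n → F.Complete from
    H _ X F rfl
  intro n
  induction n using Nat.strong_induction_on with
  | _ n ih =>
  intro X _ _ F hn
  by_contra hc
  exact h X F ⟨hc, fun U hU h0 => SF.mem_NT_of_quo hU (ih _ (hn ▸ SF.quo_mu hU h0) _ _ rfl),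
    fun π a ha h1 => SF.W_of_sub (ih _ (hn ▸ SF.sub_mu ha h1) _ _ rfl)⟩

theorem realizeEqns_SigBase : True := by
  have := @CA.Sig.SF.W.eq_1.{0}
  have := @CA.Sig.SF.W.eq_def.{0}
  have := @CA.Sig.SF.W.congr_simp.{0}
  have := @CA.Sig.SF.Pt.eq_1.{0}
  have := @CA.Sig.SF.Pt.eq_def.{0}
  have := @CA.Sig.SF.Pt.congr_simp.{0}
  have := @CA.Sig.SF.Ln.eq_1.{0}
  have := @CA.Sig.SF.Ln.eq_def.{0}
  have := @CA.Sig.SF.Ln.congr_simp.{0}
  have := @CA.Sig.SF.Complete.eq_1.{0}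
  have := @CA.Sig.SF.Complete.eq_def.{0}
  have := @CA.Sig.SF.Complete.congr_simp.{0}
  have := @CA.Sig.SF.sub.eq_1.{0}
  have := @CA.Sig.SF.sub.eq_def.{0}
  have := @CA.Sig.SF.sub.congr_simp.{0}
  have := @CA.Sig.SF.qf.eq_1.{0}
  have := @CA.Sig.SF.qf.eq_def.{0}
  have := @CA.Sig.SF.qf.congr_simp.{0}
  have := @CA.Sig.SF.sup.eq_1.{0}
  have := @CA.Sig.SF.sup.eq_def.{0}
  have := @CA.Sig.SF.sup.congr_simp.{0}
  have := @CA.Sig.SF.quo.eq_1.{0}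
  have := @CA.Sig.SF.quo.eq_def.{0}
  have := @CA.Sig.SF.quo.congr_simp.{0}
  have := @CA.Sig.SF.C.eq_1.{0}
  have := @CA.Sig.SF.C.eq_def.{0}
  have := @CA.Sig.SF.C.congr_simp.{0}
  have := @CA.Sig.SF.NT.eq_1.{0}
  have := @CA.Sig.SF.NT.eq_def.{0}
  have := @CA.Sig.SF.NT.congr_simp.{0}
  have := @CA.Sig.SF.qθ.eq_1.{0}
  have := @CA.Sig.SF.qθ.eq_def.{0}
  have := @CA.Sig.SF.qθ.congr_simp.{0}
  have := @CA.Sig.SF.T.eq_1.{0}
  have := @CA.Sig.SF.T.eq_def.{0}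
  have := @CA.Sig.SF.T.congr_simp.{0}
  have := @CA.Sig.SF.mu.eq_1.{0}
  have := @CA.Sig.SF.mu.eq_def.{0}
  have := @CA.Sig.SF.mu.congr_simp.{0}
  trivial

end CA.Sig
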