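/-
Solvable signalizer functors: the transitivity theorem and first consequences in a minimal counterexample.
Owner: helper1.
-/
import Cfsg.Agent.Sig.Base

set_option autoImplicit false

namespace CA.Sig

open Cfsg CA.FG CA.BG

universe u

namespace SF

variable {X : Type u} [Group X]

/-- maximal `q`-members -/
structure MaxQ (F : SF X) (q : ℕ) (S : Subgroup X) : Prop where
  mem : F.Mem S
  pg : IsPGrp q S
  max : ∀ S', F.Mem S' → IsPGrp q S' → S ≤ S' → S' = S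

/-- maximal members -/
structure MaxM (F : SF X) (M : Subgroup X) : Prop where
  mem : F.Mem M
  max : ∀ M', F.Mem M' → M ≤ M' → M' = M

/-- conjugacy under `C` -/
def Cj (F : SF X) (S S' : Subgroup X) : Prop := ∃ c ∈ F.C, S' = S :^ c

variable {F : SF X} {q r : ℕ}

theorem Cj.refl (S : Subgroup X) : F.Cj S S := ⟨1, F.C.one_mem, (conjg_one S).symm⟩

theorem Cj.symm {S S' : Subgroup X} (h : F.Cj S S') : F.Cj S' S := by
  obtain ⟨c, hc, rfl⟩ := h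
  exact ⟨c⁻¹, F.C.inv_mem hc, (conjg_inv_cancel S c).symm⟩

theorem Cj.trans {S S' S'' : Subgroup X} (h : F.Cj S S') (h' : F.Cj S' S'') : F.Cj S S'' := by
  obtain ⟨c, hc, rfl⟩ := h
  obtain ⟨d, hd, rfl⟩ := h'
  exact ⟨d * c, F.C.mul_mem hd hc, (conjg_mul S c d).symm⟩

variable [Finite X]

theorem Mem.exists_maxQ {U : Subgroup X} (h : F.Mem U) (hq : IsPGrp q U) : ∃ S, F.MaxQ q S ∧ U ≤ S := by
  obtain ⟨S, h1, h2, h3⟩ := exists_max_subgroup (P := fun S => F.Mem S ∧ IsPGrp q S) ⟨h, hq⟩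
  exact ⟨S, ⟨h2.1, h2.2, fun S' a b c => h3 S' ⟨a, b⟩ c⟩, h1⟩

theorem exists_maxQ (F : SF X) (q : ℕ) : ∃ S, F.MaxQ q S :=
  let ⟨S, h, _⟩ := (mem_bot (F := F)).exists_maxQ (piGrp_bot {q}); ⟨S, h⟩

theorem Mem.exists_maxM {U : Subgroup X} (h : F.Mem U) : ∃ M, F.MaxM M ∧ U ≤ M := by
  obtain ⟨S, h1, h2, h3⟩ := exists_max_subgroup (P := fun S => F.Mem S) h
  exact ⟨S, ⟨h2, h3⟩, h1⟩

theorem MaxQ.conj {S : Subgroup X} (h : F.MaxQ q S) {c : X} (hc : c ∈ F.C) : F.MaxQ q (S :^ c) := by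
  refine ⟨h.mem.conj hc, h.pg.conjg c, fun S' m p l => ?_⟩
  have := h.max (S' :^ c⁻¹) (m.conj (F.C.inv_mem hc)) (p.conjg _) (conjg_le_iff.1 l)
  rw [← this, conjg_cancel_inv]

theorem Mem.exists_sylow {H U : Subgroup X} (hq : q.Prime) (h : F.Mem H) (hU : U ≤ H) (pU : IsPGrp q U)
    (nU : F.A ≤ 𝒩(U)) : ∃ R, IsSylowOf q R H ∧ F.Mem R ∧ U ≤ R := by
  obtain ⟨R, h1, h2, h3⟩ := sol_coprime_Sylow_subset hq (Or.inl h.sol) h.nA (h.cop le_rfl) hU pU nU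
  exact ⟨R, h1, h.of_le h1.le h2, h3⟩

/-- two maximal `q`-members meeting a member `H` suitably -/
theorem link {H U V : Subgroup X} (hq : q.Prime) (h : F.Mem H) (hU : U ≤ H) (pU : IsPGrp q U)
    (nU : F.A ≤ 𝒩(U)) (hV : V ≤ H) (pV : IsPGrp q V) (nV : F.A ≤ 𝒩(V)) :
    ∃ S S', F.MaxQ q S ∧ F.MaxQ q S' ∧ U ≤ S ∧ V ≤ S' ∧ F.Cj S S' := by
  obtain ⟨R, h1, h2, h3⟩ := h.exists_sylow hq hU pU nU
  obtain ⟨R', h1', h2', h3'⟩ := h.exists_sylow hq hV pV nV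
  obtain ⟨x, hx, e⟩ := sol_coprime_Sylow_trans hq (Or.inl h.sol) h.nA (h.cop le_rfl) h1' h2'.nA h1 h2.nA
  obtain ⟨S, hS, hR⟩ := h2.exists_maxQ h1.pGrp
  exact ⟨S, S :^ x, hS, hS.conj (h.le_C hx), h3.trans hR, h3'.trans (e ▸ conjg_mono x hR),
    x, h.le_C hx, rfl⟩

theorem Ctx.trans_aux (hF : F.Ctx) (hq : q.Prime) (n : ℕ) : ∀ S₁ S₂ : Subgroup X, F.MaxQ q S₁ → F.MaxQ q S₂ →
    S₁ ⊓ S₂ ≠ ⊥ → Nat.card X - Nat.card (S₁ ⊓ S₂ : Subgroup X) = n → F.Cj S₁ S₂ := by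
  induction n using Nat.strong_induction_on with
  | _ n ih =>
  intro S₁ S₂ h₁ h₂ h0 hn
  by_cases e1 : S₁ ≤ S₂
  · rw [h₁.max _ h₂.mem h₂.pg e1]; exact Cj.refl _
  by_cases e2 : S₂ ≤ S₁
  · rw [h₂.max _ h₁.mem h₁.pg e2]; exact Cj.refl _
  have mD : F.Mem (S₁ ⊓ S₂) := h₁.mem.inf h₂.mem.nA
  have l1 : S₁ ⊓ S₂ < S₁ ⊓ 𝒩(S₁ ⊓ S₂) :=
    nilpotent_proper_norm h₁.pg.nil (inf_lt_left.2 e1)
  have l2 : S₁ ⊓ S₂ < S₂ ⊓ 𝒩(S₁ ⊓ S₂) :=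
    nilpotent_proper_norm h₂.pg.nil (inf_lt_right.2 e2)
  have m1 := h₁.mem.inf (norm_norm mD.nA)
  have m2 := h₂.mem.inf (norm_norm mD.nA)
  obtain ⟨S, S', hS, hS', a1, a2, cj⟩ := link hq (hF.nt _ mD h0) (m1.le_NT inf_le_right) (h₁.pg.inf_left _)
    m1.nA (m2.le_NT inf_le_right) (h₂.pg.inf_left _) m2.nA
  have key : ∀ T T' : Subgroup X, F.MaxQ q T → F.MaxQ q T' → S₁ ⊓ S₂ < T ⊓ T' → F.Cj T T' := by
    intro T T' hT hT' hlt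
    refine ih _ ?_ T T' hT hT' (ne_bot_mono hlt.le h0) rfl
    have := card_lt_of_lt hlt
    have := Subgroup.card_le_card_group (T ⊓ T')
    omega
  exact ((key _ _ h₁ hS (l1.trans_le (le_inf inf_le_left a1))).trans cj).trans
    (key _ _ hS' h₂ (l2.trans_le (le_inf a2 inf_le_left)))

/-- the transitivity theorem -/
theorem Ctx.trans (hF : F.Ctx) (hq : q.Prime) {S₁ S₂ : Subgroup X} (h₁ : F.MaxQ q S₁) (h₂ : F.MaxQ q S₂) :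
    F.Cj S₁ S₂ := by
  by_cases e1 : S₁ = ⊥
  · rw [h₁.max _ h₂.mem h₂.pg (e1 ▸ bot_le)]; exact Cj.refl _
  by_cases e2 : S₂ = ⊥
  · rw [h₂.max _ h₁.mem h₁.pg (e2 ▸ bot_le)]; exact Cj.refl _
  obtain ⟨l, hl, n1⟩ := h₁.mem.exists_ln e1
  obtain ⟨m, hm, n2⟩ := h₂.mem.exists_ln e2
  obtain ⟨a, ha, al, am⟩ := hl.meet hm
  obtain ⟨S, S', hS, hS', a1, a2, cj⟩ := link hq ha.mem (h₁.mem.le a ha) (h₁.pg.inf_left _)
    (norm_inf h₁.mem.nA ha.ncent) (h₂.mem.le a ha) (h₂.pg.inf_left _) (norm_inf h₂.mem.nA ha.ncent)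
  refine ((hF.trans_aux hq _ _ _ h₁ hS (ne_bot_mono (le_inf inf_le_left ?_) n1) rfl).trans cj).trans
    (hF.trans_aux hq _ _ _ hS' h₂ (ne_bot_mono (le_inf ?_ inf_le_left) n2) rfl)
  · exact (inf_le_inf_left _ (cent_le_cent_singleton al)).trans a1
  · exact (inf_le_inf_left _ (cent_le_cent_singleton am)).trans a2

theorem Ctx.sylow (hF : F.Ctx) (hq : q.Prime) {S H : Subgroup X} (hS : F.MaxQ q S) (h : F.Mem H)
    (hC : F.C ≤ H) : IsSylowOf q (S ⊓ H) H := by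
  obtain ⟨R, h1, h2, -⟩ := h.exists_sylow hq bot_le (piGrp_bot _) (norm_bot _)
  obtain ⟨S', hS', hR⟩ := h2.exists_maxQ h1.pGrp
  obtain ⟨c, hc, rfl⟩ := hF.trans hq hS' hS
  have h3 := h1.conjg_of_mem (hC hc)
  exact h3.of_card_le inf_le_right (hS.pg.inf_left _)
    (Subgroup.card_le_of_le (le_inf (conjg_mono c hR) h3.le))

theorem Ctx.le_maxQ (hF : F.Ctx) (hq : q.Prime) {S U : Subgroup X} (hS : F.MaxQ q S) (h : F.Mem U)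
    (pU : IsPGrp q U) (hC : F.C ≤ 𝒩(U)) : U ≤ S := by
  obtain ⟨S', hS', hR⟩ := h.exists_maxQ pU
  obtain ⟨c, hc, rfl⟩ := hF.trans hq hS' hS
  rw [← conjg_of_mem_norm (hC hc)]
  exact conjg_mono c hR

theorem Ctx.Q_le (hF : F.Ctx) (hq : q.Prime) {S : Subgroup X} (hS : F.MaxQ q S) : F.W {q} ≤ S :=
  iSup₂_le fun _ hH => hF.le_maxQ hq hS hH.1 hH.2.1 hH.2.2

theorem Ctx.Q_mem (hF : F.Ctx) (hq : q.Prime) : F.Mem (F.W {q}) :=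
  let ⟨_, hS⟩ := F.exists_maxQ q; hS.mem.of_le (hF.Q_le hq hS) (W_nA _)

theorem Ctx.Q_pg (hF : F.Ctx) (hq : q.Prime) : IsPGrp q (F.W {q}) :=
  let ⟨_, hS⟩ := F.exists_maxQ q; hS.pg.of_le (hF.Q_le hq hS)

theorem Ctx.wq (hF : F.Ctx) {U : Subgroup X} (h : F.Mem U) (pU : IsPGrp q U) (h0 : U ≠ ⊥) :
    F.Mem (F.W {q}ᶜ) ∧ IsPiGrp {q}ᶜ (F.W {q}ᶜ) := by
  obtain ⟨a, ha, h1⟩ := h.exists_pt h0
  exact hF.w _ a ha fun hc => h1 ((pU.inf_left _).eq_bot (hc.of_le (h.le a ha)))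

theorem Mem.ne_p {U : Subgroup X} (h : F.Mem U) (pU : IsPGrp q U) (h0 : U ≠ ⊥) : q ≠ F.p :=
  fun e => h0 ((e ▸ pU).eq_bot h.pp)

theorem Pt.core_le_W {a : X} (ha : F.Pt a) (π : Set ℕ) : piCoreOf π (F.θ a) ≤ F.W π :=
  (ha.mem.pcore π).le_W (pcore_piGrp π _) ((C_le ha).trans (pcore_norm π _))

theorem Mem.core_le_W {H : Subgroup X} (h : F.Mem H) (hC : F.C ≤ H) (π : Set ℕ) : piCoreOf π H ≤ F.W π :=
  (h.pcore π).le_W (pcore_piGrp π _) (hC.trans (pcore_norm π _))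

theorem Ctx.NT_eq (hF : F.Ctx) {M U : Subgroup X} (hM : F.MaxM M) (h : F.Mem U) (h0 : U ≠ ⊥)
    (n : M ≤ 𝒩(U)) : F.NT U = M :=
  hM.max _ (hF.nt U h h0) (hM.mem.le_NT n)

theorem Ctx.le_of_norm (hF : F.Ctx) {M U H : Subgroup X} (hM : F.MaxM M) (h : F.Mem U) (h0 : U ≠ ⊥)
    (n : M ≤ 𝒩(U)) (hH : F.Mem H) (nH : H ≤ 𝒩(U)) : H ≤ M :=
  hF.NT_eq hM h h0 n ▸ hH.le_NT nH

theorem Ctx.not_all (hF : F.Ctx) {M : Subgroup X} (hM : F.Mem M) : ∃ a, F.Pt a ∧ ¬ F.θ a ≤ M := by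
  by_contra hc
  push Not at hc
  exact hF.nc ⟨M, hM, hc⟩

theorem Ctx.not_norm (hF : F.Ctx) {U : Subgroup X} (h : F.Mem U) (h0 : U ≠ ⊥)
    (n : ∀ a, F.Pt a → F.θ a ≤ 𝒩(U)) : False :=
  hF.nc ⟨_, hF.nt U h h0, fun a ha => ha.mem.le_NT (n a ha)⟩

theorem Mem.g3l {H Z L l : Subgroup X} (h : F.Mem H) (hl : F.Ln l) (cZ : Z ≤ 𝒞(l)) (nHZ : Z ≤ 𝒩(H))
    (coZ : (Nat.card H).Coprime (Nat.card Z))
    (hL : ∀ a, F.Pt a → a ∈ l → ⁅H ⊓ 𝒞[a], Z⁆ ≤ L) : ⁅H, Z⁆ ≤ L :=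
  g3 hl.comm hl.ncyc h.sol (hl.1.trans h.nA) (h.cop hl.1) cZ nHZ coZ fun a ha h1 => hL a ⟨hl.1 ha, h1⟩ ha

theorem Mem.comm_id {H : Subgroup X} (h : F.Mem H) {x : X} (hx : F.Pt x) :
    ⁅⁅H, Subgroup.zpowers x⁆, Subgroup.zpowers x⁆ = ⁅H, Subgroup.zpowers x⁆ :=
  coprime_commGid (hx.zle.trans h.nA) (h.cop hx.zle) (Or.inl h.sol)

theorem Mem.comm_le {H : Subgroup X} (h : F.Mem H) {x : X} (hx : F.Pt x) :
    ⁅H, Subgroup.zpowers x⁆ ≤ H := comm_le_left (hx.zle.trans h.nA)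

theorem Mem.comm_mem {H : Subgroup X} (h : F.Mem H) {x : X} (hx : F.Pt x) :
    F.Mem ⁅H, Subgroup.zpowers x⁆ :=
  h.of_le (h.comm_le hx) (norm_comm h.nA (norm_of_le_abelian cA hx.zle))

theorem Mem.le_comm_sup {H : Subgroup X} (h : F.Mem H) {x : X} (hx : F.Pt x) :
    H ≤ ⁅H, Subgroup.zpowers x⁆ ⊔ (H ⊓ F.θ x) := by
  have := coprime_cent_prod (hx.zle.trans h.nA) (h.cop hx.zle) (Or.inl h.sol)
  rw [cent_zpowers] at this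
  exact this.ge.trans (sup_le_sup_left (le_inf inf_le_left (h.le x hx)) _)

/-- LP -/
theorem Ctx.lp (hF : F.Ctx) {M : Subgroup X} {x : X} (hx : F.Pt x) (hM : F.Mem M)
    (h : ∀ a, F.Pt a → ⁅F.θ a, Subgroup.zpowers x⁆ ≤ M) : False := by
  have h1 : ∀ a, F.Pt a → ⁅F.θ a, Subgroup.zpowers x⁆ ≤ ⁅M, Subgroup.zpowers x⁆ := fun a ha => by
    rw [← ha.mem.comm_id hx]; exact Subgroup.commutator_mono (h a ha) le_rfl
  have h2 : F.θ x ≤ 𝒩(⁅M, Subgroup.zpowers x⁆) := by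
    refine hx.mem.genL fun l hl => ?_
    have e : ⁅M, Subgroup.zpowers x⁆ = ⨆ (a : X) (_ : F.Pt a ∧ a ∈ l), ⁅F.θ a, Subgroup.zpowers x⁆ := by
      refine le_antisymm (hM.g3l hl (hx.zle.trans ((abelian_iff_le_cent.1 cA).trans (cent_anti hl.1)))
        (hx.zle.trans hM.nA) (hM.cop hx.zle) fun a ha al => ?_) (iSup₂_le fun a ha => h1 a ha.1)
      exact (Subgroup.commutator_mono (hM.le a ha) le_rfl).trans
        (le_iSup₂_of_le (f := fun (a : X) (_ : F.Pt a ∧ a ∈ l) => ⁅F.θ a, Subgroup.zpowers x⁆) a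
          ⟨ha, al⟩ le_rfl)
    rw [e]
    exact norm_iSup fun a => norm_iSup fun ha =>
      norm_comm (norm_of_le (hx.mem.le_T.trans (T_le ha.1 ha.2)))
        (norm_zpowers_of_cent (inf_le_left.trans hx.cent))
  exact hF.nc ⟨_, (hM.comm_mem hx).sup hx.mem h2, fun a ha =>
    (ha.mem.le_comm_sup hx).trans (sup_le_sup (h1 a ha) inf_le_right)⟩

/-- S3: no point centralizes a nontrivial maximal `r`-member. -/
theorem Ctx.s3 (hF : F.Ctx) {S : Subgroup X} {x : X} (hx : F.Pt x) (hS : F.MaxQ r S) (h0 : S ≠ ⊥)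
    (h : S ≤ 𝒞[x]) : False := by
  refine hF.lp hx (hF.wq hS.mem hS.pg h0).1 fun a ha => le_trans ?_ (ha.core_le_W _)
  refine coprime_comm_pcore (K := S ⊓ F.θ a) (hx.zle.trans ha.mem.nA) (ha.mem.cop hx.zle) ha.mem.sol ?_ ?_
  · rw [compl_compl]; exact hF.sylow (hS.pg.prime h0) hS ha.mem (C_le ha)
  · rw [cent_zpowers]; exact inf_le_left.trans h

/-- `θ(x)` is not a maximal member. -/
theorem Ctx.not_max (hF : F.Ctx) {x : X} (hx : F.Pt x) (hM : F.MaxM (F.θ x)) : False := by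
  by_cases h0 : F.θ x = ⊥
  · exact hF.nc ⟨_, hx.mem, fun a ha => (hM.max _ ha.mem (h0 ▸ bot_le)).le⟩
  obtain ⟨r, hr, hR⟩ := exists_pcore_ne_bot hx.mem.sol h0
  obtain ⟨S, hS⟩ := F.exists_maxQ r
  have mR := hx.mem.pcore {r}
  have RS : pCoreOf r (F.θ x) ≤ S :=
    hF.le_maxQ hr hS mR (pcore_pGrp _ _) ((C_le hx).trans (pcore_norm _ _))
  refine hF.s3 hx hS (ne_bot_mono RS hR) ?_
  rw [← cent_zpowers]
  refine le_cent_symm (coprime_A_times_B hS.pg (pcore_pGrp r (F.θ x)) ?_ (hx.zle.trans hS.mem.nA)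
    (norm_of_le RS) ?_ ?_)
  · exact (pA.of_le hx.zle).mono (Set.singleton_subset_iff.2 (mR.ne_p (pcore_pGrp _ _) hR).symm)
  · apply le_cent_symm; rw [cent_zpowers]; exact (pcore_le _ _).trans hx.cent
  · apply le_cent_symm; rw [cent_zpowers]
    exact (hF.le_of_norm hM mR hR (pcore_norm _ _) (hS.mem.inf (norm_cent mR.nA))
      (norm_of_cent inf_le_right)).trans hx.cent

end SF

theorem realizeEqns_SigTrans : True := by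
  have := @CA.Sig.SF.Cj.eq_1.{0}
  have := @CA.Sig.SF.Cj.eq_def.{0}
  have := @CA.Sig.SF.Cj.congr_simp.{0}
  trivial

end CA.Sig
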