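/-
Solvable signalizer functors: Bender's lemma on maximal members, the groups `Δ_π(l)`, the group `X*`.
Owner: helper1.
-/
import Cfsg.Agent.Sig.Trans

set_option autoImplicit false

namespace CA.Sig

open Cfsg CA.FG CA.BG

universe u

namespace SF

variable {X : Type u} [Group X] [Finite X] {F : SF X} {q r t : ℕ}

omit [Finite X] in
theorem compl_sub (h : r ≠ t) : ({r} : Set ℕ) ⊆ {t}ᶜ := Set.singleton_subset_iff.2 h

/-- Goldschmidt's lemma, for a normal `t'`-subgroup of `N_H(V)`. -/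
theorem gold {H V D : Subgroup X} (sol : Group.IsSolvable H) (hV : V ≤ H) (tV : IsPGrp t V)
    (hD : D ≤ H ⊓ 𝒩(V)) (nD : H ⊓ 𝒩(V) ≤ 𝒩(D)) (tD : IsPiGrp {t}ᶜ D) : D ≤ pPrimeCoreOf t H :=
  (pcore_max ⟨hD, nD⟩ tD).trans (p'core_norm_pgroup hV tV sol)

/-- BEN -/
theorem Ctx.ben (hF : F.Ctx) {M L U : Subgroup X} (hM : F.MaxM M) (hL : F.MaxM L) (h0 : U ≠ ⊥)
    (UM : U ≤ pCoreOf t M) (UL : U ≤ pCoreOf t L) (NU : M ⊓ 𝒩(U) ≤ L) (h1 : pPrimeCoreOf t L ≠ ⊥)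
    (h2 : ∀ r, r.Prime → r ≠ t → pCoreOf r L ≤ M) : M = L := by
  have tU : IsPGrp t U := (pcore_pGrp t M).of_le UM
  have hUM : U ≤ M := UM.trans (pcore_le _ _)
  have cE : pPrimeCoreOf t L ≤ 𝒞(U) := (le_cent_symm (pcore_cent_compl {t} L)).trans (cent_anti UL)
  -- normal `t'`-subgroups of `L` inside `M` lie in `O_{t'}(M)`
  have key : ∀ D, D ⊲ L → IsPiGrp {t}ᶜ D → D ≤ M → D ≤ pPrimeCoreOf t M := fun D hD tD DM =>
    gold hM.mem.sol hUM tU (le_inf DM (norm_of_cent ((pcore_max hD tD).trans cE))) (NU.trans hD.2) tD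
  have fE : fittingOf (pPrimeCoreOf t L) ≤ pPrimeCoreOf t M := by
    refine fitting_le_of_forall_pcore fun r hr => ?_
    by_cases e : r = t
    · subst e
      exact (pcore_eq_bot_of_piGrp (π := {r}) (pcore_piGrp {r}ᶜ L)).le.trans bot_le
    · have := (pcore_normal {t}ᶜ L).pcore_le {r}
      exact this.trans (key _ (pcore_normal _ _) ((pcore_pGrp r L).mono (compl_sub e)) (h2 r hr e))
  have mT := hM.mem.pcore {t}
  have T0 : pCoreOf t M ≠ ⊥ := ne_bot_mono UM h0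
  have cT : pCoreOf t M ≤ 𝒞(fittingOf (pPrimeCoreOf t L)) := (pcore_cent_compl {t} M).trans (cent_anti fE)
  have mE := hL.mem.pcore {t}ᶜ
  have TL : pCoreOf t M ≤ L :=
    hF.le_of_norm hL (mE.of_le (fitting_le _) (norm_fitting mE.nA)) (fitting_ne_bot mE.sol h1)
      (norm_fitting (pcore_norm _ _)) mT (norm_of_cent cT)
  have cTE : pCoreOf t M ≤ 𝒞(pPrimeCoreOf t L) :=
    (le_inf le_rfl cT).trans (coprime_cent_Fitting (TL.trans (pcore_norm _ _))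
      ((pcore_pGrp t M).coprime (pcore_piGrp _ _)).symm mE.sol)
  have inM : ∀ H, F.Mem H → H ≤ 𝒩(pCoreOf t M) → H ≤ M := fun H hH n =>
    hF.le_of_norm hM mT T0 (pcore_norm _ _) hH n
  have ED : pPrimeCoreOf t L ≤ pPrimeCoreOf t M :=
    key _ (pcore_normal _ _) (pcore_piGrp _ _) (inM _ mE (norm_of_cent' cTE))
  have DL : pPrimeCoreOf t M ≤ L :=
    (le_inf (pcore_le _ _) (norm_of_cent ((le_cent_symm (pcore_cent_compl {t} M)).trans
      (cent_anti UM)))).trans NU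
  have DE : pPrimeCoreOf t M ≤ pPrimeCoreOf t L :=
    gold hL.mem.sol TL (pcore_pGrp t M) (le_inf DL ((pcore_le _ _).trans (pcore_norm _ _)))
      ((inM _ (hL.mem.inf (norm_norm mT.nA)) inf_le_right).trans (pcore_norm _ _)) (pcore_piGrp _ _)
  have e : piCoreOf {t}ᶜ M = piCoreOf {t}ᶜ L := le_antisymm DE ED
  exact (hF.NT_eq hM mE h1 (e ▸ pcore_norm _ _)).symm.trans (hF.NT_eq hL mE h1 (pcore_norm _ _))

/-- `Δ_π(l)` -/
def Δ (F : SF X) (π : Set ℕ) (l : Subgroup X) : Subgroup X :=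
  ⨅ (a : X) (_ : F.Pt a ∧ a ∈ l), piCoreOf π (F.θ a)

omit [Finite X] in
theorem Δ_le {π : Set ℕ} {l : Subgroup X} {a : X} (ha : F.Pt a) (al : a ∈ l) :
    F.Δ π l ≤ piCoreOf π (F.θ a) :=
  iInf₂_le (f := fun (a : X) (_ : F.Pt a ∧ a ∈ l) => piCoreOf π (F.θ a)) a ⟨ha, al⟩

theorem Δ_nA (π : Set ℕ) (l : Subgroup X) : F.A ≤ 𝒩(F.Δ π l) :=
  norm_iInf fun _ => norm_iInf fun ha => norm_pcore π ha.1.mem.nA

omit [Finite X] in
theorem Δ_nC (π : Set ℕ) (l : Subgroup X) : F.C ≤ 𝒩(F.Δ π l) :=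
  norm_iInf fun _ => norm_iInf fun ha => (C_le ha.1).trans (pcore_norm π _)

omit [Finite X] in
theorem Δ_nT (π : Set ℕ) (l : Subgroup X) : F.T l ≤ 𝒩(F.Δ π l) :=
  norm_iInf fun _ => norm_iInf fun ha => (T_le ha.1 ha.2).trans (pcore_norm π _)

theorem Ln.Δ_mem {l : Subgroup X} (hl : F.Ln l) (π : Set ℕ) : F.Mem (F.Δ π l) :=
  let ⟨_, ha, al⟩ := hl.exists_pt; (ha.mem.pcore π).of_le (Δ_le ha al) (Δ_nA π l)

theorem Ln.Δ_pi {l : Subgroup X} (hl : F.Ln l) (π : Set ℕ) : IsPiGrp π (F.Δ π l) :=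
  let ⟨_, ha, al⟩ := hl.exists_pt; (pcore_piGrp π _).of_le (Δ_le ha al)

theorem Ln.Δ_core {l H D : Subgroup X} {π : Set ℕ} (hl : F.Ln l) (h : F.Mem H) (hD : D ≤ H)
    (hΔ : D ≤ F.Δ π l) : D ≤ piCoreOf π H := by
  refine delta hl.comm hl.ncyc h.sol (hl.1.trans h.nA) (h.cop hl.1) hD ((hl.Δ_pi π).of_le hΔ)
    fun a ha h1 => ?_
  have pa : F.Pt a := ⟨hl.1 ha, h1⟩
  exact (pcore_piGrp π (F.θ a)).of_le ((Subgroup.commutator_mono (h.le a pa) (hΔ.trans (Δ_le pa ha))).trans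
    (comm_le_right (pcore_norm π _)))

theorem Δ_cent {l m : Subgroup X} {π ρ : Set ℕ} (hl : F.Ln l) (hm : F.Ln m) (h : ∀ p ∈ π, p ∉ ρ) :
    F.Δ π l ≤ 𝒞(F.Δ ρ m) := by
  obtain ⟨a, ha, al, am⟩ := hl.meet hm
  exact ((Δ_le ha al).trans (pcore_cent_of_disjoint h _)).trans (cent_anti (Δ_le ha am))

/-- `Y_π` -/
def Y (F : SF X) (π : Set ℕ) : Subgroup X := ⨆ (l : Subgroup X) (_ : F.Ln l), F.Δ π l

omit [Finite X] in
theorem Ln.le_Y {l : Subgroup X} (hl : F.Ln l) (π : Set ℕ) : F.Δ π l ≤ F.Y π :=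
  le_iSup₂_of_le (f := fun (l : Subgroup X) (_ : F.Ln l) => F.Δ π l) l hl le_rfl

theorem Y_le_W (π : Set ℕ) : F.Y π ≤ F.W π :=
  iSup₂_le fun _ hl => (hl.Δ_mem π).le_W (hl.Δ_pi π) (Δ_nC π _)

theorem Y_cent {π ρ : Set ℕ} (h : ∀ p ∈ π, p ∉ ρ) : F.Y π ≤ 𝒞(F.Y ρ) :=
  iSup₂_le fun _ hl => le_cent_symm (iSup₂_le fun _ hm => le_cent_symm (Δ_cent hl hm h))

/-- FL for members -/
theorem Mem.fl {H U : Subgroup X} {x : X} (h : F.Mem H) (hx : F.Pt x) (hU : U ≤ H) (tU : IsPGrp t U)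
    (nU : F.A ≤ 𝒩(U)) (nθ : H ⊓ 𝒞[x] ≤ 𝒩(U)) (ht : t ≠ 2 ∨ IsMulCommutative U) :
    ⁅U, Subgroup.zpowers x⁆ ≤ pCoreOf t H :=
  Sig.fl F.hp F.p2 hx.card h.sol h.pp (hx.zle.trans h.nA) hU tU (hx.zle.trans nU)
    (by rw [cent_zpowers]; exact nθ) ht

theorem Pt.exists_ln {a b : X} (ha : F.Pt a) (hb : F.Pt b) : ∃ l, F.Ln l ∧ a ∈ l ∧ b ∈ l := by
  have h1 : Subgroup.zpowers a ⊔ Subgroup.zpowers b ≤ F.A := sup_le ha.zle hb.zle
  have h2 := card_sup_dvd (H := Subgroup.zpowers a) (K := Subgroup.zpowers b)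
    (Or.inl (ha.zle.trans (norm_of_le_abelian cA hb.zle)))
  rw [ha.card, hb.card, ← pow_two] at h2
  obtain ⟨k, hk, e⟩ := (Nat.dvd_prime_pow F.hp).1 h2
  obtain ⟨L, a1, a2, a3⟩ := exists_between_card_eq_pow F.hp h1 e hk
    (by rw [F.card]; exact pow_dvd_pow _ (by norm_num))
  exact ⟨L, ⟨a2, a3⟩, a1 (Subgroup.mem_sup_left (Subgroup.mem_zpowers a)),
    a1 (Subgroup.mem_sup_right (Subgroup.mem_zpowers b))⟩

/-- a line through `a` missing `b`, for `a`, `b` not in the same cyclic group -/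
theorem Pt.exists_ln_not {a b : X} (ha : F.Pt a) (hb : F.Pt b) (h : b ∉ Subgroup.zpowers a) :
    ∃ l, F.Ln l ∧ a ∈ l ∧ b ∉ l := by
  obtain ⟨m, hm, am, bm⟩ := ha.exists_ln hb
  have lt : m < F.A := lt_of_le_of_card_lt hm.1 (by
    rw [hm.2, F.card]; exact Nat.pow_lt_pow_right F.hp.one_lt (by norm_num))
  obtain ⟨c, hc, cm⟩ := SetLike.exists_of_lt lt
  have pc : F.Pt c := ⟨hc, fun e => cm (e ▸ m.one_mem)⟩
  obtain ⟨l, hl, al, cl⟩ := ha.exists_ln pc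
  refine ⟨l, hl, al, fun bl => cm ?_⟩
  have h1 : Subgroup.zpowers a < l ⊓ m :=
    lt_of_le_of_ne ((Subgroup.zpowers_le).2 ⟨al, am⟩) fun e => h (e ▸ ⟨bl, bm⟩)
  have h2 := card_lt_of_lt h1
  have h3 := Subgroup.card_dvd_of_le (inf_le_left : l ⊓ m ≤ l)
  rw [hl.2] at h3
  obtain ⟨k, hk, e⟩ := (Nat.dvd_prime_pow F.hp).1 h3
  rw [ha.card, e] at h2
  have : k = 2 := by
    have : 1 < k := by
      by_contra hh
      have := Nat.pow_le_pow_right F.hp.pos (not_lt.1 hh)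
      rw [pow_one] at this; omega
    omega
  subst this
  have : l ⊓ m = l := Subgroup.eq_of_le_of_card_ge inf_le_left (by rw [e, hl.2])
  exact (this.ge cl).2

theorem Pt.exists_ln_miss {b : X} (hb : F.Pt b) : ∃ l, F.Ln l ∧ b ∉ l := by
  have lt : Subgroup.zpowers b < F.A := lt_of_le_of_card_lt hb.zle (by
    rw [hb.card, F.card]
    exact (pow_one F.p).symm.trans_lt (Nat.pow_lt_pow_right F.hp.one_lt (by norm_num)))
  obtain ⟨c, hc, cb⟩ := SetLike.exists_of_lt lt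
  have pc : F.Pt c := ⟨hc, fun e => cb (e ▸ Subgroup.one_mem _)⟩
  obtain ⟨l, hl, -, h⟩ := pc.exists_ln_not hb fun h => cb (by
    rw [← eq_zpowers_of_card_prime (pc.card ▸ F.hp) h hb.2]; exact Subgroup.mem_zpowers c)
  exact ⟨l, hl, h⟩

theorem Ln.sup_eq {l : Subgroup X} {x : X} (hl : F.Ln l) (hx : x ∈ F.A) (h : x ∉ l) :
    l ⊔ Subgroup.zpowers x = F.A := by
  have h1 : l ⊔ Subgroup.zpowers x ≤ F.A := sup_le hl.1 ((Subgroup.zpowers_le).2 hx)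
  have h2 : l < l ⊔ Subgroup.zpowers x :=
    lt_of_le_of_ne le_sup_left fun e => h (e ▸ Subgroup.mem_sup_right (Subgroup.mem_zpowers x))
  have h3 := card_lt_of_lt h2
  have h4 := Subgroup.card_dvd_of_le h1
  rw [F.card] at h4
  obtain ⟨k, hk, e⟩ := (Nat.dvd_prime_pow F.hp).1 h4
  rw [hl.2, e] at h3
  have := (Nat.pow_lt_pow_iff_right F.hp.one_lt).1 h3
  exact Subgroup.eq_of_le_of_card_ge h1 (by rw [e, F.card, show k = 3 by omega])

theorem Ln.eq_sup {l : Subgroup X} {a b : X} (hl : F.Ln l) (ha : F.Pt a) (al : a ∈ l) (bl : b ∈ l)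
    (h : b ∉ Subgroup.zpowers a) : Subgroup.zpowers a ⊔ Subgroup.zpowers b = l := by
  have h1 : Subgroup.zpowers a ⊔ Subgroup.zpowers b ≤ l :=
    sup_le ((Subgroup.zpowers_le).2 al) ((Subgroup.zpowers_le).2 bl)
  have h2 : Subgroup.zpowers a < Subgroup.zpowers a ⊔ Subgroup.zpowers b :=
    lt_of_le_of_ne le_sup_left fun e => h (e ▸ Subgroup.mem_sup_right (Subgroup.mem_zpowers b))
  have h3 := card_lt_of_lt h2
  have h4 := Subgroup.card_dvd_of_le h1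
  rw [hl.2] at h4
  obtain ⟨k, hk, e⟩ := (Nat.dvd_prime_pow F.hp).1 h4
  rw [ha.card, e] at h3
  have := (Nat.pow_lt_pow_iff_right F.hp.one_lt).1 ((pow_one F.p).trans_lt h3)
  exact Subgroup.eq_of_le_of_card_ge h1 (by rw [e, hl.2, show k = 2 by omega])

/-- `[H, Z]` is generated by the `[C_H(l), Z]`, `l` a line, when `Z` centralizes `A`. -/
theorem Mem.g3L {H Z L : Subgroup X} (h : F.Mem H) (cZ : Z ≤ 𝒞(F.A)) (nHZ : Z ≤ 𝒩(H))
    (coZ : (Nat.card H).Coprime (Nat.card Z))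
    (hL : ∀ l, F.Ln l → ⁅H ⊓ 𝒞(l), Z⁆ ≤ L) : ⁅H, Z⁆ ≤ L := by
  obtain ⟨a₀, h₀⟩ := SF.exists_pt (F := F)
  obtain ⟨m, hm, -⟩ := h₀.exists_ln h₀
  refine h.g3l hm (cZ.trans (cent_anti hm.1)) nHZ coZ fun b hb _ => ?_
  obtain ⟨l, hl, bl⟩ := hb.exists_ln_miss
  refine (h.inf hb.ncent).g3l hl (cZ.trans (cent_anti hl.1))
    (norm_inf nHZ (norm_of_le (cZ.trans (cent_le_cent_singleton hb.1))))
    (coZ.coprime_dvd_left (Subgroup.card_dvd_of_le inf_le_left)) fun c hc cl => ?_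
  obtain ⟨k, hk, bk, ck⟩ := hb.exists_ln hc
  have : c ∉ Subgroup.zpowers b := fun hh => bl (by
    have := eq_zpowers_of_card_prime (hb.card ▸ F.hp) hh hc.2
    exact (Subgroup.zpowers_le).2 cl (this ▸ Subgroup.mem_zpowers b))
  refine le_trans (le_of_eq ?_) (hL k hk)
  rw [← hk.eq_sup hb bk ck this, cent_sup, cent_zpowers, cent_zpowers, inf_assoc]

/-- a `θ(a)`-invariant `t`-member `U` has `[U, a] ≤ Y_t` -/
theorem Mem.comm_le_Y {U : Subgroup X} {a : X} (h : F.Mem U) (ha : F.Pt a) (tU : IsPGrp t U)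
    (n : F.θ a ≤ 𝒩(U)) (ht : t ≠ 2 ∨ IsMulCommutative U) : ⁅U, Subgroup.zpowers a⁆ ≤ F.Y {t} := by
  refine h.g3L (ha.zle.trans (abelian_iff_le_cent.1 cA)) (ha.zle.trans h.nA) (h.cop ha.zle) fun l hl => ?_
  refine le_trans (le_iInf₂ fun b hb => ?_) (hl.le_Y _)
  refine (Subgroup.commutator_mono (inf_le_inf_left _ (cent_le_cent_singleton hb.2)) le_rfl).trans ?_
  exact hb.1.mem.fl ha (h.le b hb.1) (tU.inf_left _) (norm_inf h.nA hb.1.ncent)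
    (norm_inf ((hb.1.mem.le a ha).trans n) (norm_of_le (inf_le_left.trans hb.1.cent)))
    (ht.imp_right fun c => abelian_of_le c inf_le_left)

end SF

theorem realizeEqns_SigBen : True := by
  have := @CA.Sig.SF.Y.eq_1.{0}
  have := @CA.Sig.SF.Y.eq_def.{0}
  have := @CA.Sig.SF.Y.congr_simp.{0}
  have := @CA.Sig.SF.Δ.eq_1.{0}
  have := @CA.Sig.SF.Δ.eq_def.{0}
  have := @CA.Sig.SF.Δ.congr_simp.{0}
  trivial

end CA.Sig
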