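/-
Solvable signalizer functors: the largest `S`-invariant `q'`-member `G`, the group `X*`.
Owner: helper1.
-/
import Cfsg.Agent.Sig.Ben

set_option autoImplicit false

namespace CA.Sig

open Cfsg CA.FG CA.BG

universe u

/-- a `q'`-subgroup normalized by a Sylow `q`-subgroup lies in `O_{q'}`. -/
theorem le_core_of_sylow_norm {G : Type u} [Group G] [Finite G] {q : ℕ} {H P D : Subgroup G}
    (sol : Group.IsSolvable H) (hP : IsSylowOf q P H) (hD : D ≤ H) (qD : IsPiGrp {q}ᶜ D)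
    (n : P ≤ 𝒩(D)) : D ≤ pPrimeCoreOf q H := by
  have nO := pcore_norm {q}ᶜ H
  refine le_pcore_of_cent_fit sol hD qD ?_
  have qF : IsPGrp q (fittingOf (H /ₛ pPrimeCoreOf q H)) := by
    have := fit_quot_pi' {q}ᶜ H
    rwa [compl_compl] at this
  have nF := fitting_norm (H /ₛ pPrimeCoreOf q H)
  have hS' := hP.quot nO
  exact le_cent_of_norm_of_coprime
    ((hS'.le_of_norm_le qF (fitting_le _) (hS'.le.trans nF)).trans (quot_norm _ n))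
    ((quot_mono _ hD).trans nF) (qF.coprime (qD.quot _)).symm

namespace SF

variable {X : Type u} [Group X] [Finite X] {F : SF X} {q r t : ℕ}

/-- the largest `S`-invariant `q'`-member -/
def G (F : SF X) (q : ℕ) (S : Subgroup X) : Subgroup X :=
  ⨆ (H : Subgroup X) (_ : F.Mem H ∧ IsPiGrp {q}ᶜ H ∧ S ≤ 𝒩(H)), H

omit [Finite X] in
theorem G_nA (q : ℕ) (S : Subgroup X) : F.A ≤ 𝒩(F.G q S) := norm_iSup fun _ => norm_iSup fun h => h.1.nA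

omit [Finite X] in
theorem G_nS (q : ℕ) (S : Subgroup X) : S ≤ 𝒩(F.G q S) := norm_iSup fun _ => norm_iSup fun h => h.2.2

omit [Finite X] in
theorem Mem.le_G {S H : Subgroup X} (h1 : F.Mem H) (h2 : IsPiGrp {q}ᶜ H) (h3 : S ≤ 𝒩(H)) : H ≤ F.G q S :=
  le_iSup₂_of_le (f := fun (H : Subgroup X) (_ : F.Mem H ∧ IsPiGrp {q}ᶜ H ∧ S ≤ 𝒩(H)) => H)
    H ⟨h1, h2, h3⟩ le_rfl

theorem Ctx.inf_le_core (hF : F.Ctx) (hq : q.Prime) {S D H : Subgroup X} (hS : F.MaxQ q S)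
    (qD : IsPiGrp {q}ᶜ D) (n : S ≤ 𝒩(D)) (h : F.Mem H) (hC : F.C ≤ H) : D ⊓ H ≤ pPrimeCoreOf q H :=
  le_core_of_sylow_norm h.sol (hF.sylow hq hS h hC) inf_le_right (qD.inf_left _)
    (norm_inf (inf_le_left.trans n) (norm_of_le inf_le_right))

theorem Ctx.G_le_W (hF : F.Ctx) (hq : q.Prime) {S : Subgroup X} (hS : F.MaxQ q S) : F.G q S ≤ F.W {q}ᶜ :=
  iSup₂_le fun _ hH => hH.1.gen fun a ha => ((le_inf inf_le_left (hH.1.le a ha)).trans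
    (hF.inf_le_core hq hS hH.2.1 hH.2.2 ha.mem (C_le ha))).trans (ha.core_le_W _)

theorem Ctx.G_mem (hF : F.Ctx) {S : Subgroup X} (hS : F.MaxQ q S) (h0 : S ≠ ⊥) : F.Mem (F.G q S) :=
  (hF.wq hS.mem hS.pg h0).1.of_le (hF.G_le_W (hS.pg.prime h0) hS) (G_nA q S)

theorem Ctx.G_pi (hF : F.Ctx) {S : Subgroup X} (hS : F.MaxQ q S) (h0 : S ≠ ⊥) : IsPiGrp {q}ᶜ (F.G q S) :=
  (hF.wq hS.mem hS.pg h0).2.of_le (hF.G_le_W (hS.pg.prime h0) hS)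

theorem Ctx.G_inf_le (hF : F.Ctx) {S H : Subgroup X} (hS : F.MaxQ q S) (h0 : S ≠ ⊥) (h : F.Mem H)
    (hC : F.C ≤ H) : F.G q S ⊓ H ≤ pPrimeCoreOf q H :=
  hF.inf_le_core (hS.pg.prime h0) hS (hF.G_pi hS h0) (G_nS q S) h hC

/-- the data `S`, `Z`, `B` -/
structure ZD (F : SF X) (q : ℕ) (S Z B : Subgroup X) : Prop where
  max : F.MaxQ q S
  le : Z ≤ S
  cS : S ≤ 𝒞(Z)
  nA : F.A ≤ 𝒩(Z)
  ne : Z ≠ ⊥
  ln : F.Ln B
  cB : Z ≤ 𝒞(B)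

/-- `X*` -/
def Xs (F : SF X) (q : ℕ) (Z B : Subgroup X) : Subgroup X :=
  ⨆ (b : X) (_ : F.Pt b ∧ b ∈ B), ⁅pPrimeCoreOf q (F.θ b), Z⁆

namespace ZD

variable {S Z B : Subgroup X} (d : F.ZD q S Z B)
include d

omit [Finite X] in
theorem S0 : S ≠ ⊥ := ne_bot_mono d.le d.ne

omit [Finite X] in
theorem pg : IsPGrp q Z := d.max.pg.of_le d.le

theorem hq : q.Prime := d.pg.prime d.ne

omit [Finite X] in
theorem mem : F.Mem Z := d.max.mem.of_le d.le d.nA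

omit [Finite X] in
theorem le_θ {b : X} (hb : F.Pt b) (bB : b ∈ B) : Z ≤ F.θ b :=
  (le_inf le_rfl (d.cB.trans (cent_le_cent_singleton bB))).trans (d.mem.le b hb)

theorem tl (hF : F.Ctx) {H D : Subgroup X} (h : F.Mem H) (hC : F.C ≤ H) (hZ : Z ≤ H) (hD : D ≤ H)
    (qD : IsPiGrp {q}ᶜ D) (n : Z ≤ 𝒩(D)) : ⁅D, Z⁆ ≤ pPrimeCoreOf q H :=
  tlemma h.sol (hF.sylow d.hq d.max h hC) (le_inf d.le hZ) (inf_le_left.trans (norm_of_cent d.cS)) hD qD n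

theorem Xs_le_W : F.Xs q Z B ≤ F.W {q}ᶜ :=
  iSup₂_le fun _ hb => (comm_le_left ((d.le_θ hb.1 hb.2).trans (pcore_norm _ _))).trans (hb.1.core_le_W _)

theorem Xs_nA : F.A ≤ 𝒩(F.Xs q Z B) :=
  norm_iSup fun _ => norm_iSup fun hb => norm_comm (norm_pcore _ hb.1.mem.nA) d.nA

omit d [Finite X] in
theorem Xs_nZ : Z ≤ 𝒩(F.Xs q Z B) :=
  norm_iSup fun _ => norm_iSup fun _ => le_sup_right.trans (comm_normalIn_sup _ Z).2

theorem Xs_mem (hF : F.Ctx) : F.Mem (F.Xs q Z B) :=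
  (hF.wq d.mem d.pg d.ne).1.of_le d.Xs_le_W d.Xs_nA

theorem Xs_pi (hF : F.Ctx) : IsPiGrp {q}ᶜ (F.Xs q Z B) :=
  (hF.wq d.mem d.pg d.ne).2.of_le d.Xs_le_W

theorem comm_id {D : Subgroup X} (qD : IsPiGrp {q}ᶜ D) (n : Z ≤ 𝒩(D)) : ⁅⁅D, Z⁆, Z⁆ = ⁅D, Z⁆ :=
  coprime_commGid n (d.pg.coprime qD).symm (Or.inr d.pg.sol)

theorem Xs_comm : ⁅F.Xs q Z B, Z⁆ = F.Xs q Z B := by
  refine le_antisymm (comm_le_left Xs_nZ) (iSup₂_le fun b hb => ?_)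
  rw [← d.comm_id (pcore_piGrp _ _) ((d.le_θ hb.1 hb.2).trans (pcore_norm _ _))]
  exact Subgroup.commutator_mono
    (le_iSup₂_of_le (f := fun (b : X) (_ : F.Pt b ∧ b ∈ B) => ⁅pPrimeCoreOf q (F.θ b), Z⁆) b hb le_rfl) le_rfl

/-- `X*` is the largest `q'`-member of the form `[D, Z]` -/
theorem comm_le_Xs (hF : F.Ctx) {D : Subgroup X} (h : F.Mem D) (qD : IsPiGrp {q}ᶜ D) (n : Z ≤ 𝒩(D)) :
    ⁅D, Z⁆ ≤ F.Xs q Z B := by
  refine h.g3l d.ln d.cB n (d.pg.coprime qD).symm fun b hb bB => ?_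
  have n' : Z ≤ 𝒩(D ⊓ 𝒞[b]) := norm_inf n (norm_of_le (d.cB.trans (cent_le_cent_singleton bB)))
  rw [← d.comm_id (qD.inf_left _) n']
  exact (Subgroup.commutator_mono
    (d.tl hF hb.mem (C_le hb) (d.le_θ hb bB) (h.le b hb) (qD.inf_left _) n') le_rfl).trans
    (le_iSup₂_of_le (f := fun (b : X) (_ : F.Pt b ∧ b ∈ B) => ⁅pPrimeCoreOf q (F.θ b), Z⁆) b ⟨hb, bB⟩ le_rfl)

theorem Xs_eq (hF : F.Ctx) {H : Subgroup X} (h : F.Mem H) (hC : F.C ≤ H) (hZ : Z ≤ H)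
    (hX : F.Xs q Z B ≤ H) : F.Xs q Z B = ⁅pPrimeCoreOf q H, Z⁆ := by
  refine le_antisymm ?_ (d.comm_le_Xs hF (h.pcore _) (pcore_piGrp _ _) (hZ.trans (pcore_norm _ _)))
  rw [← d.Xs_comm]
  refine Subgroup.commutator_mono ?_ le_rfl
  rw [← d.Xs_comm]
  exact d.tl hF h hC hZ hX (d.Xs_pi hF) Xs_nZ

/-- if `Z` centralizes `A`, then `S` normalizes `X*` -/
theorem nS_of_cent (hF : F.Ctx) (cA : Z ≤ 𝒞(F.A)) : S ≤ 𝒩(F.Xs q Z B) := by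
  refine d.max.mem.genL fun l hl => ?_
  have d' : F.ZD q S Z l := ⟨d.max, d.le, d.cS, d.nA, d.ne, hl, cA.trans (cent_anti hl.1)⟩
  have e : F.Xs q Z B = F.Xs q Z l := le_antisymm
    (by rw [← d.Xs_comm]; exact d'.comm_le_Xs hF (d.Xs_mem hF) (d.Xs_pi hF) Xs_nZ)
    (by rw [← d'.Xs_comm]; exact d.comm_le_Xs hF (d'.Xs_mem hF) (d'.Xs_pi hF) Xs_nZ)
  rw [e]
  exact norm_iSup fun b => norm_iSup fun hb =>
    norm_comm ((d.max.mem.le_T.trans (T_le hb.1 hb.2)).trans (pcore_norm _ _))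
      (inf_le_left.trans (norm_of_cent d.cS))

/-- `O_{q'}(θ(N(V))) ≤ G` for `1 ≠ V ≤ S` -/
theorem core_NT_le (hF : F.Ctx) (nX : S ≤ 𝒩(F.Xs q Z B)) {V : Subgroup X} (hV : V ≤ S) (nV : F.A ≤ 𝒩(V))
    (V0 : V ≠ ⊥) : pPrimeCoreOf q (F.NT V) ≤ F.G q S := by
  have mV := d.max.mem.of_le hV nV
  have mH := hF.nt V mV V0
  have cZV : Z ≤ 𝒞(V) := le_cent_symm (hV.trans d.cS)
  have hZ : Z ≤ F.NT V := d.mem.le_NT (norm_of_cent cZV)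
  have nD : Z ≤ 𝒩(pPrimeCoreOf q (F.NT V)) := hZ.trans (pcore_norm _ _)
  rw [← coprime_cent_prod nD (d.pg.coprime (pcore_piGrp _ _)).symm (Or.inr d.pg.sol)]
  refine sup_le ((d.comm_le_Xs hF (mH.pcore _) (pcore_piGrp _ _) nD).trans
    ((d.Xs_mem hF).le_G (d.Xs_pi hF) nX)) ?_
  have mK : F.Mem (F.NT Z ⊓ 𝒞(Z)) := (hF.nt Z d.mem d.ne).inf (norm_cent d.nA)
  have SK : S ≤ F.NT Z ⊓ 𝒞(Z) := le_inf (d.max.mem.le_NT (norm_of_cent d.cS)) d.cS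
  refine le_trans ?_ ((mK.pcore _).le_G (pcore_piGrp _ _) (SK.trans (pcore_norm _ _)))
  refine gold mK.sol (hV.trans SK) (d.max.pg.of_le hV) (le_inf (le_inf ?_ inf_le_right) ?_) ?_
    ((pcore_piGrp _ _).inf_left _)
  · exact ((mH.pcore _).inf (norm_cent d.nA)).le_NT (norm_of_cent inf_le_right)
  · exact inf_le_left.trans ((pcore_le _ _).trans (NT_le V))
  · exact norm_inf (((mK.inf (norm_norm nV)).le_NT inf_le_right).trans (pcore_norm _ _))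
      (norm_of_le (inf_le_left.trans inf_le_right))

theorem core_NT_eq (hF : F.Ctx) (nX : S ≤ 𝒩(F.Xs q Z B)) {V : Subgroup X} (mV : F.Mem V) (qV : IsPGrp q V)
    (cV : F.C ≤ 𝒩(V)) (V0 : V ≠ ⊥) : pPrimeCoreOf q (F.NT V) = F.G q S ⊓ F.NT V :=
  le_antisymm (le_inf (d.core_NT_le hF nX (hF.le_maxQ d.hq d.max mV qV cV) mV.nA V0) (pcore_le _ _))
    (hF.G_inf_le d.max d.S0 (hF.nt V mV V0) (mem_C.le_NT cV))

/-- the hypothesis `PC(q)` -/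
def PC (F : SF X) (q : ℕ) (Z : Subgroup X) : Prop :=
  ∀ M, F.MaxM M → F.C ≤ M → Z ≤ M → pPrimeCoreOf q M = ⊥

theorem pc_of_G (hF : F.Ctx) (nX : S ≤ 𝒩(F.Xs q Z B)) (h : F.G q S = ⊥) : PC F q Z := by
  intro M hM hC hZ
  have nD : Z ≤ 𝒩(pPrimeCoreOf q M) := hZ.trans (pcore_norm _ _)
  have c1 : Z ≤ 𝒞(pPrimeCoreOf q M) := by
    rw [← comm_eq_bot_iff', ← le_bot_iff, ← h]
    exact (d.comm_le_Xs hF (hM.mem.pcore _) (pcore_piGrp _ _) nD).trans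
      ((d.Xs_mem hF).le_G (d.Xs_pi hF) nX)
  have mP := hM.mem.pcore {q}
  have PS : pCoreOf q M ≤ S := hF.le_maxQ d.hq d.max mP (pcore_pGrp _ _) (hC.trans (pcore_norm _ _))
  have ZP := zc hM.mem.sol hZ d.pg (le_cent_symm (PS.trans d.cS)) c1
  have P0 := ne_bot_mono ZP d.ne
  have := d.core_NT_le hF nX PS mP.nA P0
  rwa [hF.NT_eq hM mP P0 (pcore_norm _ _), h, le_bot_iff] at this

/-- CASE 1, after `S ≤ N(X*)` is known -/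
theorem case1 (hF : F.Ctx) (nX : S ≤ 𝒩(F.Xs q Z B))
    (h : ∀ a, F.Pt a → ∃ V, F.Mem V ∧ IsPGrp q V ∧ V ≠ ⊥ ∧ F.θ a ≤ 𝒩(V)) : PC F q Z := by
  refine d.pc_of_G hF nX (by_contra fun h0 => ?_)
  have mG := hF.G_mem d.max d.S0
  have h1 : ∀ a, F.Pt a → F.θ a ≤ 𝒩(F.G q S ⊓ 𝒞[a]) := fun a ha => by
    obtain ⟨V, mV, qV, V0, nV⟩ := h a ha
    have e := d.core_NT_eq hF nX mV qV ((C_le ha).trans nV) V0
    have h2 : F.θ a ≤ F.NT V := ha.mem.le_NT nV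
    have e2 : F.G q S ⊓ 𝒞[a] = pPrimeCoreOf q (F.NT V) ⊓ 𝒞[a] := by
      rw [e]
      exact le_antisymm (le_inf (le_inf inf_le_left ((mG.le a ha).trans h2)) inf_le_right)
        (inf_le_inf_right _ inf_le_left)
    rw [e2]
    exact norm_inf (h2.trans (pcore_norm _ _)) (norm_of_le ha.cent)
  have h2 : ∀ l, F.Ln l → F.T l ≤ 𝒩(F.G q S) := fun l hl => by
    have e : F.G q S = ⨆ (a : X) (_ : F.Pt a ∧ a ∈ l), F.G q S ⊓ 𝒞[a] :=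
      le_antisymm (mG.genl hl fun a ha al =>
        le_iSup₂_of_le (f := fun (a : X) (_ : F.Pt a ∧ a ∈ l) => F.G q S ⊓ 𝒞[a]) a ⟨ha, al⟩ le_rfl)
        (iSup₂_le fun _ _ => inf_le_left)
    rw [e]
    exact norm_iSup fun a => norm_iSup fun ha => (T_le ha.1 ha.2).trans (h1 a ha.1)
  exact hF.not_norm mG h0 fun a ha => ha.mem.genL fun l hl => ha.mem.le_T.trans (h2 l hl)

end ZD

end SF

theorem realizeEqns_SigGq : True := by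
  have := @CA.Sig.SF.Xs.eq_1.{0}
  have := @CA.Sig.SF.Xs.eq_def.{0}
  have := @CA.Sig.SF.Xs.congr_simp.{0}
  have := @CA.Sig.SF.G.eq_1.{0}
  have := @CA.Sig.SF.G.eq_def.{0}
  have := @CA.Sig.SF.G.congr_simp.{0}
  have := @CA.Sig.SF.ZD.PC.eq_1.{0}
  have := @CA.Sig.SF.ZD.PC.eq_def.{0}
  have := @CA.Sig.SF.ZD.PC.congr_simp.{0}
  trivial

end CA.Sig
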